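import Cfsg.Agent.Lib.OddLocal.PLengthOne
import Cfsg.Agent.Lib.Coprime.Basic
import Cfsg.Agent.Lib.Uniq.SylowFusion

/-! Solvable subgroups containing an abelian Sylow `t`-subgroup of the whole group. -/

set_option autoImplicit false

namespace Cfsg.Agent.Lib.OddTypes.SylowLift

open Subgroup Cfsg Cfsg.Agent.Lib
open scoped Pointwise

universe u

section Abstract

variable {X : Type u} [Group X] [Finite X] [Group.IsSolvable X] {t : ℕ} [ht : Fact t.Prime]

theorem sylow_map_eq_pCore (T : Sylow t X) (hT : IsMulCommutative (T : Subgroup X)) :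
    (T : Subgroup X).map (QuotientGroup.mk' (pPrimeCore t X)) = pCore t (X ⧸ pPrimeCore t X) := by
  set π := QuotientGroup.mk' (pPrimeCore t X)
  let S : Sylow t (X ⧸ pPrimeCore t X) := T.mapSurjective (QuotientGroup.mk'_surjective _)
  have hS : (S : Subgroup (X ⧸ pPrimeCore t X)) = (T : Subgroup X).map π := rfl
  have hle : pCore t (X ⧸ pPrimeCore t X) ≤ (S : Subgroup (X ⧸ pPrimeCore t X)) := Hall.pCore_le_sylow S
  refine le_antisymm ?_ (hS ▸ hle)
  refine le_trans ?_ (Hall.centralizer_pCore_le t (OddLocal.pPrimeCore_quotient_eq_bot t))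
  rintro _ ⟨a, ha, rfl⟩
  refine mem_centralizer_iff.mpr fun z hz => ?_
  obtain ⟨b, hb, rfl⟩ := (hS ▸ hle) hz
  rw [← map_mul, ← map_mul]
  exact congrArg π (congrArg Subtype.val (hT.is_comm.comm (⟨b, hb⟩ : (T : Subgroup X)) ⟨a, ha⟩))

/-- A `t'`-element centralizing the Sylow subgroup modulo `O_{t'}` lies in `O_{t'}`. -/
theorem mem_pPrimeCore_of_commute (T : Sylow t X) (hT : IsMulCommutative (T : Subgroup X)) {b : X}
    (hb : ¬ t ∣ orderOf b) (hc : ∀ τ ∈ (T : Subgroup X), τ * b * τ⁻¹ * b⁻¹ ∈ pPrimeCore t X) :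
    b ∈ pPrimeCore t X := by
  set π := QuotientGroup.mk' (pPrimeCore t X) with hπ
  have h1 : π b ∈ pCore t (X ⧸ pPrimeCore t X) := by
    refine Hall.centralizer_pCore_le t (OddLocal.pPrimeCore_quotient_eq_bot t) ?_
    rw [← sylow_map_eq_pCore T hT]
    refine mem_centralizer_iff.mpr ?_
    rintro _ ⟨τ, hτ, rfl⟩
    have := (QuotientGroup.eq_one_iff _).mpr (hc τ hτ)
    rw [← QuotientGroup.mk'_apply, map_mul, map_mul, map_mul, map_inv, map_inv, ← hπ] at this
    rwa [mul_inv_eq_one, mul_inv_eq_iff_eq_mul] at this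
  obtain ⟨k, hk⟩ := IsPGroup.iff_orderOf.mp (Hall.isPGroup_pCore t) ⟨π b, h1⟩
  rw [orderOf_mk] at hk
  have hd : t ^ k ∣ orderOf b := hk ▸ orderOf_map_dvd π b
  rcases Nat.eq_zero_or_pos k with rfl | hk0
  · rw [pow_zero, orderOf_eq_one_iff] at hk
    exact (QuotientGroup.eq_one_iff b).mp hk
  · exact absurd ((dvd_pow_self t hk0.ne').trans hd) hb

/-- `O_{t'}` times the Sylow subgroup is normal. -/
theorem sup_normal (T : Sylow t X) (hT : IsMulCommutative (T : Subgroup X)) :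
    (pPrimeCore t X ⊔ (T : Subgroup X)).Normal := by
  have h : pPrimeCore t X ⊔ (T : Subgroup X) =
      ((pCore t (X ⧸ pPrimeCore t X)).comap (QuotientGroup.mk' (pPrimeCore t X))) := by
    rw [← sylow_map_eq_pCore T hT, comap_map_eq, QuotientGroup.ker_mk', sup_comm]
  rw [h]
  infer_instance

/-- The `t'`-elements of `O_{t'} T` lie in `O_{t'}`. -/
theorem mem_pPrimeCore_of_mem_sup (T : Sylow t X) (hT : IsMulCommutative (T : Subgroup X)) {b : X}
    (hb : ¬ t ∣ orderOf b) (hm : b ∈ pPrimeCore t X ⊔ (T : Subgroup X)) : b ∈ pPrimeCore t X := by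
  set π := QuotientGroup.mk' (pPrimeCore t X)
  refine mem_pPrimeCore_of_commute T hT hb fun τ hτ => (QuotientGroup.eq_one_iff _).mp ?_
  obtain ⟨o, ho, σ, hσ, rfl⟩ := Subgroup.mem_sup_of_normal_left.mp hm
  have e : τ * σ = σ * τ :=
    congrArg Subtype.val (hT.is_comm.comm (⟨τ, hτ⟩ : (T : Subgroup X)) ⟨σ, hσ⟩)
  have ho' : (π o) = 1 := (QuotientGroup.eq_one_iff o).mpr ho
  show π (τ * (o * σ) * τ⁻¹ * (o * σ)⁻¹) = 1
  simp only [map_mul, map_inv, ho', one_mul]
  rw [← map_mul, e, map_mul, mul_inv_cancel_right, mul_inv_cancel]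

/-- Frattini: `X = O_{t'} N(T)`. -/
theorem exists_mul_normalizer (T : Sylow t X) (hT : IsMulCommutative (T : Subgroup X)) (x : X) :
    ∃ o ∈ pPrimeCore t X, ∃ n ∈ normalizer ((T : Subgroup X) : Set X), x = o * n := by
  haveI := sup_normal T hT
  set N := pPrimeCore t X ⊔ (T : Subgroup X)
  have hTN : (T : Subgroup X) ≤ N := le_sup_right
  have htop := Sylow.normalizer_sup_eq_top (T.subtype hTN)
  rw [Sylow.coe_subtype, subgroupOf_map_subtype, inf_eq_left.mpr hTN] at htop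
  obtain ⟨w, hw, n, hn, he⟩ := Subgroup.mem_sup_of_normal_right.mp (htop.ge (mem_top x))
  obtain ⟨o, ho, σ, hσ, rfl⟩ := Subgroup.mem_sup_of_normal_left.mp hn
  refine ⟨w * o * w⁻¹, (Hall.pPrimeCore_normal (p := t)).conj_mem o ho w, w * σ,
    mul_mem hw (le_normalizer hσ), ?_⟩
  rw [← he]
  group

end Abstract

section Ambient

variable {G : Type u} [Group G] [Finite G] {t : ℕ} [ht : Fact t.Prime]

/-- `O_{t'}` of a subgroup, inside the group. -/
def core (t : ℕ) (X : Subgroup G) : Subgroup G := (pPrimeCore t ↥X).map X.subtype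

theorem core_le (X : Subgroup G) : core t X ≤ X := map_subtype_le _

omit ht in
theorem card_core_coprime (X : Subgroup G) : (Nat.card (core t X)).Coprime t := by
  rw [core, card_map_of_injective X.subtype_injective]
  exact Hall.coprime_card_pPrimeCore t

theorem not_dvd_orderOf {X : Subgroup G} {b : G} (hb : b ∈ core t X) : ¬ t ∣ orderOf b := fun h =>
  ht.out.ne_one (Nat.eq_one_of_dvd_coprimes (card_core_coprime X)
    (h.trans (Subgroup.orderOf_dvd_natCard _ hb)) dvd_rfl)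

omit ht in
theorem le_core {X N : Subgroup G} (hNX : N ≤ X) (hn : X ≤ normalizer (N : Set G))
    (h : (Nat.card N).Coprime t) : N ≤ core t X := by
  haveI : (N.subgroupOf X).Normal := (normal_subgroupOf_iff_le_normalizer hNX).mpr hn
  rw [← map_subgroupOf_eq_of_le hNX]
  exact map_mono (Hall.le_pPrimeCore (by rwa [Coprime.card_subgroupOf hNX]))

omit ht in
theorem le_normalizer_core (X : Subgroup G) : X ≤ normalizer (core t X : Set G) := by
  refine le_trans ?_ (le_normalizer_map X.subtype)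
  rw [normalizer_eq_top, ← MonoidHom.range_eq_map, range_subtype]

theorem conj_mem_core {X : Subgroup G} (y : G) {b : G} (hb : b ∈ core t X) :
    y * b * y⁻¹ ∈ core t (X.map (MulAut.conj y).toMonoidHom) := by
  refine le_core (N := (core t X).map (MulAut.conj y).toMonoidHom) (map_mono (core_le X))
    (le_trans (map_mono (le_normalizer_core X)) (le_normalizer_map _)) ?_ ⟨b, hb, rfl⟩
  rw [card_map_of_injective (MulAut.conj y).injective]
  exact card_core_coprime X

omit [Finite G] ht in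
theorem map_centralizer_singleton (y v : G) :
    (centralizer ({v} : Set G)).map (MulAut.conj y).toMonoidHom = centralizer ({y * v * y⁻¹} : Set G) := by
  ext z
  simp only [Subgroup.mem_map, MulEquiv.coe_toMonoidHom, MulAut.conj_apply, mem_centralizer_singleton_iff]
  constructor
  · rintro ⟨a, ha, rfl⟩
    calc y * a * y⁻¹ * (y * v * y⁻¹) = y * (a * v) * y⁻¹ := by group
      _ = y * (v * a) * y⁻¹ := by rw [ha]
      _ = _ := by group
  · intro hz
    refine ⟨y⁻¹ * z * y, ?_, by group⟩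
    calc y⁻¹ * z * y * v = y⁻¹ * (z * (y * v * y⁻¹)) * y := by group
      _ = y⁻¹ * (y * v * y⁻¹ * z) * y := by rw [hz]
      _ = _ := by group

variable {T : Sylow t G} (hT : IsMulCommutative (T : Subgroup G))
include hT

theorem sylow_le_centralizer {v : G} (hv : v ∈ (T : Subgroup G)) :
    (T : Subgroup G) ≤ centralizer ({v} : Set G) := fun a ha => mem_centralizer_singleton_iff.mpr
  (congrArg Subtype.val (hT.is_comm.comm (⟨a, ha⟩ : (T : Subgroup G)) ⟨v, hv⟩))

variable {X : Subgroup G} (hX : Group.IsSolvable X) (hTX : (T : Subgroup G) ≤ X)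

omit hT in
theorem mem_subtype_iff {x : X} : x ∈ (T.subtype hTX : Subgroup X) ↔ (x : G) ∈ (T : Subgroup G) := by
  rw [Sylow.coe_subtype, mem_subgroupOf]

theorem subtype_comm : IsMulCommutative (T.subtype hTX : Subgroup X) :=
  ⟨⟨fun a b => by
    have := hT.is_comm.comm (⟨_, (mem_subtype_iff hTX).mp a.2⟩ : (T : Subgroup G))
      ⟨_, (mem_subtype_iff hTX).mp b.2⟩
    have h := congrArg Subtype.val this
    exact Subtype.ext (Subtype.ext h)⟩⟩

include hX hTX

/-- A `t'`-element of `X` centralizing `T` modulo `O_{t'}(X)` lies in `O_{t'}(X)`. -/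
theorem mem_core_of_commute {b : G} (hbX : b ∈ X) (hb : ¬ t ∣ orderOf b)
    (hc : ∀ τ ∈ (T : Subgroup G), τ * b * τ⁻¹ * b⁻¹ ∈ core t X) : b ∈ core t X := by
  haveI := hX
  refine ⟨⟨b, hbX⟩, mem_pPrimeCore_of_commute (T.subtype hTX) (subtype_comm hT hTX)
    (by rwa [Subgroup.orderOf_mk]) fun τ hτ => ?_, rfl⟩
  obtain ⟨w, hw, hwe⟩ := hc τ ((mem_subtype_iff hTX).mp hτ)
  have : τ * (⟨b, hbX⟩ : X) * τ⁻¹ * (⟨b, hbX⟩ : X)⁻¹ = w := Subtype.ext hwe.symm
  rwa [this]

theorem mem_core_of_centralizes {b : G} (hbX : b ∈ X) (hb : ¬ t ∣ orderOf b)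
    (hc : ∀ τ ∈ (T : Subgroup G), τ * b = b * τ) : b ∈ core t X :=
  mem_core_of_commute hT hX hTX hbX hb fun τ hτ => by
    rw [hc τ hτ, mul_inv_cancel_right, mul_inv_cancel]; exact one_mem _

/-- A `t'`-element `[τ, x]` lies in `O_{t'}(X)`. -/
theorem commutator_mem_core {τ x : G} (hτ : τ ∈ (T : Subgroup G)) (hx : x ∈ X)
    (h : ¬ t ∣ orderOf (τ * x * τ⁻¹ * x⁻¹)) : τ * x * τ⁻¹ * x⁻¹ ∈ core t X := by
  haveI := hX
  haveI := sup_normal (T.subtype hTX) (subtype_comm hT hTX)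
  set τ' : X := ⟨τ, hTX hτ⟩
  set x' : X := ⟨x, hx⟩
  have hm : τ' * x' * τ'⁻¹ * x'⁻¹ ∈ pPrimeCore t X ⊔ (T.subtype hTX : Subgroup X) := by
    have h1 : τ' ∈ pPrimeCore t X ⊔ (T.subtype hTX : Subgroup X) :=
      mem_sup_right ((mem_subtype_iff hTX).mpr hτ)
    have := mul_mem h1 ((sup_normal (T.subtype hTX) (subtype_comm hT hTX)).conj_mem _ (inv_mem h1) x')
    simpa [mul_assoc] using this
  exact ⟨_, mem_pPrimeCore_of_mem_sup (T.subtype hTX) (subtype_comm hT hTX)
    (by rw [← Subgroup.orderOf_coe]; exact h) hm, rfl⟩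

/-- `X = O_{t'}(X) N_X(T)`. -/
theorem exists_mul_normalizer' {x : G} (hx : x ∈ X) :
    ∃ o ∈ core t X, ∃ n ∈ X, n ∈ normalizer ((T : Subgroup G) : Set G) ∧ x = o * n := by
  haveI := hX
  obtain ⟨o, ho, n, hn, he⟩ :=
    exists_mul_normalizer (T.subtype hTX) (subtype_comm hT hTX) (⟨x, hx⟩ : X)
  refine ⟨o, ⟨o, ho, rfl⟩, n, n.2, mem_normalizer_iff.mpr fun y => ?_, congrArg Subtype.val he⟩
  constructor
  · intro hy
    have := (mem_normalizer_iff.mp hn ⟨y, hTX hy⟩).mp ((mem_subtype_iff hTX).mpr hy)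
    exact (mem_subtype_iff hTX).mp this
  · intro hy
    have hyX : y ∈ X := by
      have := mul_mem (mul_mem (inv_mem n.2) (hTX hy)) n.2
      simpa [mul_assoc] using this
    exact (mem_subtype_iff hTX).mp ((mem_normalizer_iff.mp hn ⟨y, hyX⟩).mpr ((mem_subtype_iff hTX).mpr hy))

omit hX in
/-- `O_{t'}(X) ∩ N(T) ≤ C(T)`. -/
theorem commute_of_core_normalizer {o : G} (ho : o ∈ core t X)
    (hn : o ∈ normalizer ((T : Subgroup G) : Set G)) {τ : G} (hτ : τ ∈ (T : Subgroup G)) : τ * o = o * τ := by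
  have h1 : τ * o * τ⁻¹ * o⁻¹ ∈ core t X :=
    mul_mem ((mem_normalizer_iff.mp (le_normalizer_core X (hTX hτ)) o).mp ho) (inv_mem ho)
  have h2 : τ * o * τ⁻¹ * o⁻¹ ∈ (T : Subgroup G) := by
    have := mul_mem hτ ((mem_normalizer_iff.mp hn τ⁻¹).mp (inv_mem hτ))
    simpa [mul_assoc] using this
  obtain ⟨k, hk⟩ := IsPGroup.iff_card.mp T.2
  have h3 : (core t X ⊓ (T : Subgroup G)) = ⊥ := Coprime.inf_eq_bot_of_coprime
    (by rw [hk]; exact (card_core_coprime X).pow_right k)
  have h4 : τ * o * τ⁻¹ * o⁻¹ ∈ core t X ⊓ (T : Subgroup G) := ⟨h1, h2⟩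
  rwa [h3, mem_bot, mul_inv_eq_one, mul_inv_eq_iff_eq_mul] at h4

omit hX hTX in
/-- For `X ≤ Y` both containing `T`, the cores are compatible. -/
theorem core_inf {Y : Subgroup G} (hY : Group.IsSolvable Y) (hTX : (T : Subgroup G) ≤ X) (hXY : X ≤ Y)
    {b : G} (hb : b ∈ X) : b ∈ core t Y ↔ b ∈ core t X := by
  constructor
  · intro h
    refine le_core (N := core t Y ⊓ X) inf_le_right (fun x hx => mem_normalizer_iff.mpr fun y => ?_)
      ((card_core_coprime Y).coprime_dvd_left (card_dvd_of_le inf_le_left)) ⟨h, hb⟩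
    exact and_congr (mem_normalizer_iff.mp (le_normalizer_core Y (hXY hx)) y)
      (mem_normalizer_iff.mp (le_normalizer hx) y)
  · intro h
    refine mem_core_of_commute hT hY (hTX.trans hXY) (hXY hb) (not_dvd_orderOf h) fun τ hτ => ?_
    refine commutator_mem_core hT hY (hTX.trans hXY) hτ (hXY hb) (not_dvd_orderOf (X := X) ?_)
    exact mul_mem ((mem_normalizer_iff.mp (le_normalizer_core X (hTX hτ)) b).mp h) (inv_mem h)

end Ambient

end Cfsg.Agent.Lib.OddTypes.SylowLift
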