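import Cfsg.Agent.Lib.OddLocal.Decomposition
import Cfsg.Agent.Lib.OddLocal.FcoreStructure
import Cfsg.Agent.Lib.OddLocal.Signalizer
import Cfsg.Agent.Lib.Uniq.KappaMain

/-! General facts used for the types of maximal subgroups. -/

set_option autoImplicit false

namespace Cfsg.Agent.Lib.OddTypes

open Subgroup Cfsg
open scoped Pointwise commutatorElement

universe u

variable {G : Type u} [Group G] [Finite G] {M N K U A B X W₁ W₂ : Subgroup G}

theorem solvable (hG : IsMinSimpleOddOrder G) (hM : IsCoatom M) : Group.IsSolvable M := hG.2.2.2 M hM.1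

theorem odd_card (hG : IsMinSimpleOddOrder G) (A : Subgroup G) : Odd (Nat.card A) :=
  hG.1.of_dvd_nat (card_subgroup_dvd_card A)

/-- A maximal subgroup is nontrivial. -/
theorem coatom_ne_bot (hG : IsMinSimpleOddOrder G) (hM : IsCoatom M) : M ≠ ⊥ := by
  rintro rfl
  obtain ⟨g, hg⟩ : ∃ g : G, g ≠ 1 := by
    by_contra hno
    push Not at hno
    exact hG.2.2.1 ⟨⟨fun a b => by rw [hno a, hno b]⟩⟩
  have htop : zpowers g = ⊤ := hM.2 _ (bot_lt_iff_ne_bot.mpr (zpowers_ne_bot.mpr hg))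
  refine hG.2.2.1 ⟨⟨fun a b => ?_⟩⟩
  obtain ⟨i, rfl⟩ := mem_zpowers_iff.mp (htop.ge (mem_top a))
  obtain ⟨j, rfl⟩ := mem_zpowers_iff.mp (htop.ge (mem_top b))
  exact (Commute.refl g).zpow_zpow i j

theorem derived_lt (hG : IsMinSimpleOddOrder G) (hM : IsCoatom M) : ⁅M, M⁆ < M := by
  haveI := solvable hG hM
  haveI := (nontrivial_iff_ne_bot M).mpr (coatom_ne_bot hG hM)
  refine lt_of_le_of_ne (commutator_le_self M) fun he =>
    (Group.IsSolvable.commutator_lt_top_of_nontrivial M).ne (map_injective M.subtype_injective ?_)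
  rw [map_subtype_commutator, he, ← MonoidHom.range_eq_map, range_subtype]

/-- Conjugacy of the complements of a normal Hall subgroup of a solvable subgroup. -/
theorem conj_of_compl [Group.IsSolvable X] (hN : N ≤ X) (hn : X ≤ normalizer (N : Set G))
    (hcop : (Nat.card N).Coprime (N.relIndex X)) (hA : A ≤ X) (hB : B ≤ X)
    (hAc : Nat.card A = N.relIndex X) (hBc : Nat.card B = N.relIndex X) :
    ∃ x ∈ X, MulAut.conj x • A = B := by
  haveI : (N.subgroupOf X).Normal := (normal_subgroupOf_iff_le_normalizer hN).mpr hn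
  obtain ⟨x, hx⟩ := Coprime.exists_conj_eq_of_card_eq (N.subgroupOf X)
    (by rw [Coprime.card_subgroupOf hN]; exact hcop) (Or.inl inferInstance)
    (H := A.subgroupOf X) (K := B.subgroupOf X) ((Coprime.card_subgroupOf hA).trans hAc)
    ((Coprime.card_subgroupOf hB).trans hBc)
  refine ⟨x, x.2, ?_⟩
  have h1 := congrArg (Subgroup.map X.subtype) hx
  rw [subgroupOf_map_subtype, inf_eq_left.mpr hB] at h1
  rw [← h1]
  ext y
  constructor
  · intro hy
    obtain ⟨a, ha, rfl⟩ := hy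
    exact ⟨x * ⟨a, hA ha⟩ * x⁻¹, ⟨⟨a, hA ha⟩, ha, rfl⟩, rfl⟩
  · rintro ⟨z, ⟨w, hw, rfl⟩, rfl⟩
    exact ⟨(w : G), hw, rfl⟩

/-- A subgroup of order prime to the index of a normal subgroup `N` of `X` lies in `N`. -/
theorem le_of_coprime (hN : N ≤ X) (hn : X ≤ normalizer (N : Set G)) (hA : A ≤ X)
    (h : (Nat.card A).Coprime (N.relIndex X)) : A ≤ N := by
  haveI : (N.subgroupOf X).Normal := (normal_subgroupOf_iff_le_normalizer hN).mpr hn
  intro a ha
  exact Uniq.le_of_coprime_index (N := N.subgroupOf X) (H := A.subgroupOf X)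
    (by rw [Coprime.card_subgroupOf hA]; exact h) (show (⟨a, hA ha⟩ : X) ∈ A.subgroupOf X from ha)

/-- An element of a subgroup of prime-power-Hall type: conjugate into a Hall subgroup. -/
theorem exists_conj_mem [Group.IsSolvable X] (hA : A ≤ X)
    (hco : (Nat.card A).Coprime (A.relIndex X)) {u : G} (hu : u ∈ X)
    (h : (orderOf u).Coprime (A.relIndex X)) : ∃ x ∈ X, x⁻¹ * u * x ∈ A := by
  obtain ⟨g, hg⟩ := Hall.exists_le_conj (H := A.subgroupOf X) (K := zpowers (⟨u, hu⟩ : X))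
    (by rw [Coprime.card_subgroupOf hA]; exact hco)
    (by rw [Nat.card_zpowers, Subgroup.orderOf_mk]; exact h)
  obtain ⟨w, hw, hwe⟩ := hg (mem_zpowers _)
  refine ⟨g, g.2, ?_⟩
  have hge : (g : G) * (w : G) * (g : G)⁻¹ = u := congrArg Subtype.val hwe
  rw [← hge, show (g : G)⁻¹ * ((g : G) * (w : G) * (g : G)⁻¹) * g = (w : G) by group]
  exact hw

theorem card_inf_eq_bot (h : (Nat.card A).Coprime (Nat.card B)) : A ⊓ B = ⊥ :=
  Coprime.inf_eq_bot_of_coprime h

/-- Every maximal subgroup has a standard factorisation. -/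
theorem exists_KU (hG : IsMinSimpleOddOrder G) (hM : IsCoatom M) :
    ∃ K U : Subgroup G, IsSigmaDecomposition M K U := by
  haveI := solvable hG hM
  obtain ⟨H, hH, hHi⟩ := Hall.exists_piHall (G := ↥M) (kappa M)
  have hK : IsPiHallOf (kappa M) (H.map M.subtype) M := by
    refine ⟨map_subtype_le _, fun p hp hd => hH p hp (by rwa [card_map_of_injective M.subtype_injective] at hd),
      fun p hp hκ hd => hHi p hp hκ ?_⟩
    rwa [relIndex, subgroupOf, comap_map_eq_self_of_injective M.subtype_injective] at hd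
  obtain ⟨U, hU⟩ := OddLocal.Decomposition.exists_decomposition hG hM
    (Uniq.kappa_hall_cyclic hG hM hK) hK
  exact ⟨_, U, hU⟩

/-- An element of prime order in the subgroup `U₀` of a group of Frobenius type. -/
theorem exists_free_of_typeF {Γ : Type u} [Group Γ] [Finite Γ] (h : IsOfTypeF Γ) {p : ℕ} (hp : p.Prime)
    (hd : p ∣ Nat.card Γ) (hd' : ¬ p ∣ Nat.card (fittingHall Γ)) :
    ∃ u : Γ, orderOf u = p ∧ ∀ x ∈ fittingHall Γ, u * x = x * u → x = 1 := by
  obtain ⟨-, -, -, -, V, -, hV, -, V₀, -, hexp, hfree⟩ := h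
  haveI := Fact.mk hp
  have hdV : p ∣ Nat.card V := by
    rw [← hV.card_mul_card] at hd
    exact (hp.dvd_mul.mp hd).resolve_left hd'
  obtain ⟨v, hv⟩ := exists_prime_orderOf_dvd_card' p hdV
  have hd0 : p ∣ Nat.card V₀ := by
    refine dvd_trans ?_ Group.exponent_dvd_nat_card
    rw [hexp, ← hv]
    exact Monoid.order_dvd_exponent v
  obtain ⟨u, hu⟩ := exists_prime_orderOf_dvd_card' p hd0
  refine ⟨u, by rw [Subgroup.orderOf_coe, hu], hfree u u.2 fun e => ?_⟩
  rw [← Subgroup.orderOf_coe, e, orderOf_one] at hu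
  exact hp.ne_one hu.symm

/-- A subgroup of Frobenius type has no Hall subgroup centralizing a nonidentity element of `M_F`. -/
theorem not_typeF_of_fixed [Group.IsSolvable M] (hF : IsOfTypeF M) (hA : A ≤ M)
    (hco : (Nat.card A).Coprime (A.relIndex M)) (hA1 : A ≠ ⊥)
    (hdis : (Nat.card A).Coprime (Nat.card (fittingHallOf M))) {w : G} (hw : w ∈ fittingHallOf M)
    (hw1 : w ≠ 1) (hfix : ∀ a ∈ A, a * w = w * a) : False := by
  obtain ⟨p, hp, hpA⟩ := Nat.exists_prime_and_dvd (mt A.eq_bot_of_card_eq hA1)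
  have hcard : Nat.card (fittingHallOf M) = Nat.card (fittingHall M) :=
    card_map_of_injective M.subtype_injective
  have hnd : ¬ p ∣ Nat.card (fittingHall M) := fun h =>
    hp.ne_one (Nat.eq_one_of_dvd_coprimes hdis hpA (hcard ▸ h))
  obtain ⟨u, hu, hfree⟩ := exists_free_of_typeF hF hp (hpA.trans (card_dvd_of_le hA)) hnd
  have hop : (orderOf (u : G)).Coprime (A.relIndex M) := by
    rw [Subgroup.orderOf_coe, hu]
    exact hco.coprime_dvd_left hpA
  obtain ⟨m, hm, hmu⟩ := exists_conj_mem hA hco u.2 hop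
  have hwF : m * w * m⁻¹ ∈ fittingHallOf M := by
    obtain ⟨w', hw', rfl⟩ := hw
    exact ⟨⟨m, hm⟩ * w' * ⟨m, hm⟩⁻¹, (inferInstance : (fittingHall M).Normal).conj_mem w' hw' _, rfl⟩
  obtain ⟨x, hx, hxe⟩ := hwF
  have hxe' : (x : G) = m * w * m⁻¹ := hxe
  have hx1 := hfree x hx (Subtype.ext ?_)
  · rw [hx1] at hxe'
    exact hw1 (conj_eq_one_iff.mp hxe'.symm)
  · show (u : G) * x = x * u
    rw [hxe']
    calc (u : G) * (m * w * m⁻¹) = m * (m⁻¹ * u * m * w) * m⁻¹ := by group
      _ = m * (w * (m⁻¹ * u * m)) * m⁻¹ := by rw [hfix _ hmu]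
      _ = m * w * m⁻¹ * u := by group

/-- A maximal subgroup of type P is not of Frobenius type. -/
theorem not_typeF_of_typeP (hG : IsMinSimpleOddOrder G) (hM : IsCoatom M)
    (hP : IsTypePWith M W₁ U W₂) : ¬ IsOfTypeF M := by
  intro hF
  haveI := solvable hG hM
  obtain ⟨w, hw, hw1⟩ := W₂.bot_or_exists_ne_one.resolve_left hP.selfNormalizing.2.1
  have hHW : (Nat.card W₁).Coprime (Nat.card (fittingHallOf M)) := by
    rw [OddLocal.card_compl hP.W₁_compl]
    exact (OddLocal.typeP_derived_hall hP).symm.coprime_dvd_right (card_dvd_of_le hP.U_compl.1)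
  exact not_typeF_of_fixed hF hP.W₁_compl.2.1 hP.W₁_hall hP.W₁_ne hHW (hP.W₂_le hw).1 hw1
    fun a ha => hP.selfNormalizing.2.2.2.1 a ha w hw

end Cfsg.Agent.Lib.OddTypes
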