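import Cfsg.Agent.Lib.Block.ModP
import Cfsg.Agent.Lib.Block.Osima
import Cfsg.Agent.Lib.CharTools.ClassMult
import Cfsg.Agent.Lib.Char.BrauerInduction

/-!
Twisted means of an irreducible character over a subgroup centralising a `q`-group, modulo a prime over `q`:
only one linear twist can survive.
-/

set_option autoImplicit false

namespace Cfsg.Agent.Lib.OddTypes.CentralCongr

open Subgroup Cfsg Cfsg.Agent.Lib Cfsg.Agent.Lib.Block
open scoped ComplexConjugate

universe u

variable {G : Type u} [Group G] [Fintype G]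

open scoped Classical in
/-- Multiplication by a class sum is scalar. -/
theorem sum_class_translate {χ : G → ℂ} (h : IsIrrCharacter G χ) (s g : G) :
    ∑ a : G, (if IsConj a s then χ (a * g) else 0) =
      ((centralizer ({s} : Set G)).index : ℂ) * χ s / χ 1 * χ g := by
  set F : G → ℂ := fun y => ∑ a : G, (if IsConj a s then χ (a * y) else 0) with hF
  have hχ := Char.isClassFunction_of_isIrr h
  have hcls : ∀ a c : G, IsConj (c * a * c⁻¹) s ↔ IsConj a s := fun a c =>
    ⟨fun h => (isConj_iff.mpr ⟨c, rfl⟩).trans h,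
      fun h => (isConj_iff.mpr ⟨c, rfl⟩ : IsConj a (c * a * c⁻¹)).symm.trans h⟩
  have hFc : IsClassFunction G F := by
    intro y c
    refine (Fintype.sum_equiv (MulAut.conj c).toEquiv _ _ fun a => ?_).symm
    simp only [MulEquiv.toEquiv_eq_coe, EquivLike.coe_coe, MulAut.conj_apply, hcls]
    rw [show c * a * c⁻¹ * (c * y * c⁻¹) = c * (a * y) * c⁻¹ by group, hχ]
  have hfs : IsClassFunction G (fun x => if IsConj x s then (1 : ℂ) else 0) := fun a c => by
    simp only [hcls]
  have hgs : IsClassFunction G (fun x => if IsConj x g then (1 : ℂ) else 0) := fun a c => by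
    have : IsConj (c * a * c⁻¹) g ↔ IsConj a g :=
      ⟨fun h => (isConj_iff.mpr ⟨c, rfl⟩).trans h,
        fun h => (isConj_iff.mpr ⟨c, rfl⟩ : IsConj a (c * a * c⁻¹)).symm.trans h⟩
    simp only [this]
  have hp := CharTools.sum_pair_mul h hfs hgs
  rw [Finset.sum_comm] at hp
  have hL : ∀ y : G, ∑ x : G, (if IsConj x s then (1 : ℂ) else 0) * (if IsConj y g then (1 : ℂ) else 0) *
      χ (x * y) = if IsConj y g then F y else 0 := by
    intro y
    by_cases hy : IsConj y g <;> simp [hy, hF, ite_mul]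
  rw [Finset.sum_congr rfl fun y _ => hL y, Char.sum_conjClass_mul hFc g] at hp
  simp only [ite_mul, one_mul, zero_mul] at hp
  rw [Char.sum_conjClass_mul hχ s, Char.sum_conjClass_mul hχ g, Char.card_conjClass_eq_index s] at hp
  have hk : (((Finset.univ.filter fun x => IsConj x g).card : ℕ) : ℂ) ≠ 0 := Nat.cast_ne_zero.mpr
    (Finset.card_ne_zero.mpr ⟨g, Finset.mem_filter.mpr ⟨Finset.mem_univ _, IsConj.refl g⟩⟩)
  refine mul_left_cancel₀ hk (hp.trans ?_)
  ring

variable {q : ℕ} {P : Ideal AlgInt} [P.IsPrime]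

theorem coe_units_mem {H : Type u} [Group H] [Finite H] (ν : H →* ℂˣ) (x : H) :
    ((ν x : ℂ)) ∈ locRing P :=
  integral_mem_locRing ((Char.char_isIntegral (Char.isCharacter_of_isIrr (Char.isIrrCharacter_linear ν)) x))

/-- The twisted mean. -/
noncomputable def twist (C₀ : Subgroup G) [Fintype C₀] (χ : G → ℂ) (ν : C₀ →* ℂˣ) : ℂ :=
  ∑ g : C₀, χ g * ((ν g⁻¹ : ℂˣ) : ℂ)

theorem twist_mem {C₀ : Subgroup G} [Fintype C₀] {χ : G → ℂ} (h : IsCharacter G χ) (ν : C₀ →* ℂˣ) :
    twist C₀ χ ν ∈ locRing P :=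
  sum_mem fun g _ => mul_mem (integral_mem_locRing (Char.char_isIntegral h g)) (coe_units_mem ν _)

open scoped Classical in
/-- A surviving twist is determined by the character. -/
theorem redC_eq_of_twist (hP : IsPModular q P) {Q : Subgroup G} (hQ : IsPGroup q Q) {C₀ : Subgroup G}
    [Fintype C₀] (hC₀ : C₀ ≤ centralizer (Q : Set G)) (s : C₀)
    (hidx : ¬ q ∣ (centralizer ({(s : G)} : Set G)).index) {χ : G → ℂ} (hχ : IsIrrCharacter G χ)
    (ν μ : C₀ →* ℂˣ)
    (hcl : ∀ a ∈ centralizer (Q : Set G), IsConj a (s : G) → ∃ ha : a ∈ C₀, ν ⟨a, ha⟩ = ν s ∧ μ ⟨a, ha⟩ = μ s)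
    (hν : redC P (twist C₀ χ ν) ≠ 0) (hμ : redC P (twist C₀ χ μ) ≠ 0) :
    redC P ((ν s : ℂˣ) : ℂ) = redC P ((μ s : ℂˣ) : ℂ) := by
  haveI : Fact q.Prime := ⟨hP.1⟩
  haveI := resField_charP hP
  set ω : ℂ := ((centralizer ({(s : G)} : Set G)).index : ℂ) * χ s / χ 1 with hω
  have hωm : ω ∈ locRing P := integral_mem_locRing (Char.isIntegral_classSize_mul_div hχ _)
  have hχm : ∀ x, χ x ∈ locRing P := fun x =>
    integral_mem_locRing (Char.char_isIntegral (Char.isCharacter_of_isIrr hχ) x)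
  have hcls : ∀ a c : G, IsConj (c * a * c⁻¹) (s : G) ↔ IsConj a (s : G) := fun a c =>
    ⟨fun h => (isConj_iff.mpr ⟨c, rfl⟩).trans h,
      fun h => (isConj_iff.mpr ⟨c, rfl⟩ : IsConj a (c * a * c⁻¹)).symm.trans h⟩
  set K : Finset C₀ := Finset.univ.filter fun a : C₀ => IsConj (a : G) (s : G) with hK
  have hfix : ∀ (f : G → ResField P), (∀ u ∈ Q, ∀ a, f (u * a * u⁻¹) = f a) →
      ∑ a : G, (if IsConj a (s : G) then f a else 0) = ∑ a ∈ K, f a := by
    intro f hf
    rw [sum_conj_eq_sum_centralizer hQ (fun a => if IsConj a (s : G) then f a else 0)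
      (fun u hu a => by simp only [hcls, hf u hu a]), ← Finset.sum_filter, Finset.filter_filter]
    refine (Finset.sum_bij (fun (a : C₀) _ => (a : G)) (fun a ha => ?_) (fun a _ b _ h => Subtype.ext h)
      (fun b hb => ?_) fun a _ => rfl).symm
    · exact Finset.mem_filter.mpr ⟨Finset.mem_univ _, hC₀ a.2, (Finset.mem_filter.mp ha).2⟩
    · obtain ⟨-, hb1, hb2⟩ := Finset.mem_filter.mp hb
      obtain ⟨hb0, -⟩ := hcl b hb1 hb2
      exact ⟨⟨b, hb0⟩, Finset.mem_filter.mpr ⟨Finset.mem_univ _, hb2⟩, rfl⟩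
  have hn : (K.card : ResField P) ≠ 0 := by
    have h := hfix (fun _ => 1) fun _ _ _ => rfl
    rw [← Finset.sum_filter, Finset.sum_const, nsmul_eq_mul, mul_one, Finset.sum_const, nsmul_eq_mul,
      mul_one, Char.card_conjClass_eq_index] at h
    rw [← h]
    exact fun h0 => hidx ((CharP.cast_eq_zero_iff (ResField P) q _).mp h0)
  have hχg : ∀ g : C₀, redC P ω * redC P (χ g) = ∑ a ∈ K, redC P (χ ((a : G) * g)) := by
    intro g
    rw [← redC_mul hωm (hχm _), hω, ← sum_class_translate hχ, redC_sum _ (fun a _ => by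
      split_ifs
      · exact hχm _
      · exact zero_mem _)]
    rw [← hfix (fun a => redC P (χ (a * g))) fun u hu a => by
      have hug : u * g = (g : G) * u := mem_centralizer_iff.mp (hC₀ g.2) u hu
      show redC P (χ (u * a * u⁻¹ * g)) = redC P (χ (a * g))
      rw [show u * a * u⁻¹ * (g : G) = u * a * (u⁻¹ * g) by group,
        show u⁻¹ * (g : G) = g * u⁻¹ by rw [inv_mul_eq_iff_eq_mul, ← mul_assoc, hug, mul_inv_cancel_right],
        show u * a * ((g : G) * u⁻¹) = u * (a * g) * u⁻¹ by group,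
        Char.isClassFunction_of_isIrr hχ]]
    refine Finset.sum_congr rfl fun a _ => ?_
    split_ifs
    · rfl
    · exact redC_zero
  have key : ∀ τ : C₀ →* ℂˣ, (∀ a ∈ K, τ a = τ s) → redC P (twist C₀ χ τ) ≠ 0 →
      redC P ω = K.card * redC P ((τ s : ℂˣ) : ℂ) := by
    intro τ hτ hne
    refine mul_right_cancel₀ hne ?_
    have hterm : ∀ g : C₀, χ g * ((τ g⁻¹ : ℂˣ) : ℂ) ∈ locRing P := fun g => mul_mem (hχm _) (coe_units_mem τ _)
    rw [twist, redC_sum _ (fun g _ => hterm g), Finset.mul_sum,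
      Finset.sum_congr rfl fun (g : C₀) _ => show redC P ω * redC P (χ g * ((τ g⁻¹ : ℂˣ) : ℂ)) =
        ∑ a ∈ K, redC P (χ ((a : G) * g)) * redC P ((τ g⁻¹ : ℂˣ) : ℂ) by
        rw [redC_mul (hχm _) (coe_units_mem τ _), ← mul_assoc, hχg, Finset.sum_mul], Finset.sum_comm,
      mul_assoc, ← nsmul_eq_mul, ← Finset.sum_const]
    refine Finset.sum_congr rfl fun a ha => ?_
    rw [Finset.mul_sum]
    refine Fintype.sum_equiv (Equiv.mulLeft a) _ _ fun g => ?_
    have hmul : τ g⁻¹ = τ s * τ (a * g)⁻¹ := by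
      rw [← hτ a ha, ← map_mul, mul_inv_rev]
      have : τ (a * (g⁻¹ * a⁻¹)) = τ g⁻¹ := by
        rw [map_mul, map_mul, mul_comm, mul_assoc, ← map_mul, inv_mul_cancel, map_one, mul_one]
      exact this.symm
    rw [Equiv.coe_mulLeft, Subgroup.coe_mul, redC_mul (hχm _) (coe_units_mem τ _), hmul, Units.val_mul,
      redC_mul (coe_units_mem τ _) (coe_units_mem τ _)]
    ring
  have hK' : ∀ a ∈ K, ν a = ν s ∧ μ a = μ s := fun a ha =>
    (hcl a (hC₀ a.2) (Finset.mem_filter.mp ha).2).2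
  exact mul_left_cancel₀ hn ((key ν (fun a ha => (hK' a ha).1) hν).symm.trans
    (key μ (fun a ha => (hK' a ha).2) hμ))

/-- Roots of unity of order prime to `q` stay distinct modulo a prime over `q`. -/
theorem eq_of_redC_eq (hP : IsPModular q P) {n : ℕ} (hn : ¬ q ∣ n) {a b : ℂ} (ha : a ^ n = 1) (hb : b ^ n = 1)
    (h : redC P a = redC P b) : a = b := by
  haveI := resField_charP hP
  have hn0 : n ≠ 0 := fun e => hn (e ▸ dvd_zero q)
  have hint : ∀ {z : ℂ}, z ^ n = 1 → z ∈ locRing P := fun {z} hz => integral_mem_locRing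
    (IsIntegral.of_pow (Nat.pos_of_ne_zero hn0) (by rw [hz]; exact isIntegral_one))
  by_contra hne
  have hb0 : b ≠ 0 := fun e => by simp [e, zero_pow hn0] at hb
  have hζ : (a / b) ^ n = 1 := by rw [div_pow, ha, hb, div_one]
  have hζ1 : a / b ≠ 1 := fun e => hne ((div_eq_one_iff_eq hb0).mp e)
  have h1 : redC P (a / b) = 1 := by
    have h2 : redC P (a / b) * redC P b = redC P b := by
      rw [← redC_mul (hint hζ) (hint hb), div_mul_cancel₀ a hb0, h]
    refine mul_right_cancel₀ (fun h0 => ?_) (h2.trans (one_mul _).symm)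
    have := redC_pow (hint hb) n (M := P)
    rw [hb, redC_one, h0, zero_pow hn0] at this
    exact one_ne_zero this
  have hs : ∑ i ∈ Finset.range n, (a / b) ^ i = 0 := by
    rw [geom_sum_eq hζ1, hζ, sub_self, zero_div]
  have h3 := congrArg (redC P) hs
  rw [redC_zero, redC_sum _ (fun i _ => pow_mem (hint hζ) i),
    Finset.sum_congr rfl (g := fun _ => (1 : ResField P)) fun i _ => by rw [redC_pow (hint hζ), h1, one_pow],
    Finset.sum_const, Finset.card_range, nsmul_eq_mul, mul_one] at h3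
  exact hn ((CharP.cast_eq_zero_iff (ResField P) q n).mp h3)

open scoped Classical in
/-- A virtual character of norm two cannot meet three different twists. -/
theorem false_of_three (hP : IsPModular q P) {Q : Subgroup G} (hQ : IsPGroup q Q) {C₀ : Subgroup G}
    [Fintype C₀] (hC₀ : C₀ ≤ centralizer (Q : Set G)) (s : C₀) {n : ℕ} (hn : ¬ q ∣ n) (hsn : s ^ n = 1)
    (hidx : ¬ q ∣ (centralizer ({(s : G)} : Set G)).index)
    (ν : Fin 3 → (C₀ →* ℂˣ))
    (hcl : ∀ a ∈ centralizer (Q : Set G), IsConj a (s : G) → ∃ ha : a ∈ C₀, ∀ i, ν i ⟨a, ha⟩ = ν i s)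
    (hinj : Function.Injective fun i => ν i s)
    {F : G → ℂ} (hF : IsGeneralizedCharacter G F) (hnorm : classInner F F = 2)
    (hA : ∀ i, redC P (twist C₀ F (ν i)) ≠ 0) : False := by
  have hint : ∀ χ : IrrCharacter G, ∃ z : ℤ, classInner F χ = z := fun χ =>
    Char.classInner_intCast hF (Char.isCharacter_of_isIrr χ.2)
  choose z hz using hint
  have hFcl : IsClassFunction G F := by
    obtain ⟨x, y, hx, hy, rfl⟩ := hF
    exact Char.isClassFunction_sub (Char.isClassFunction_of_isCharacter hx) (Char.isClassFunction_of_isCharacter hy)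
  have hexp : ∀ i, twist C₀ F (ν i) = ∑ χ : IrrCharacter G, (z χ : ℂ) * twist C₀ (χ : G → ℂ) (ν i) := by
    intro i
    have e : ∀ g : G, F g = ∑ χ : IrrCharacter G, (z χ : ℂ) * (χ : G → ℂ) g := fun g => by
      conv_lhs => rw [Char.eq_sum_classInner_smul hFcl]
      simp only [Finset.sum_apply, Pi.smul_apply, smul_eq_mul, hz]
    unfold twist
    rw [Finset.sum_congr rfl fun g _ => by rw [e, Finset.sum_mul], Finset.sum_comm]
    simp only [Finset.mul_sum, mul_assoc]
  have hzm : ∀ χ : IrrCharacter G, (z χ : ℂ) ∈ locRing P := fun χ => intCast_mem _ _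
  have hex : ∀ i, ∃ χ : IrrCharacter G, z χ ≠ 0 ∧ redC P (twist C₀ (χ : G → ℂ) (ν i)) ≠ 0 := by
    intro i
    by_contra h
    push Not at h
    refine hA i ?_
    rw [hexp i, redC_sum _ (fun χ _ => mul_mem (hzm χ) (twist_mem (Char.isCharacter_of_isIrr χ.2) _))]
    refine Finset.sum_eq_zero fun χ _ => ?_
    by_cases hzχ : z χ = 0
    · rw [hzχ, Int.cast_zero, zero_mul, redC_zero]
    · rw [redC_mul (hzm χ) (twist_mem (Char.isCharacter_of_isIrr χ.2) _), h χ hzχ, mul_zero]
  choose χ hχz hχ using hex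
  have hχinj : Function.Injective χ := by
    intro i j hij
    refine hinj (Units.ext ?_)
    refine eq_of_redC_eq hP hn ?_ ?_ ?_
    · rw [← Units.val_pow_eq_pow_val, ← map_pow, hsn, map_one, Units.val_one]
    · rw [← Units.val_pow_eq_pow_val, ← map_pow, hsn, map_one, Units.val_one]
    · refine redC_eq_of_twist hP hQ hC₀ s hidx (χ i).2 (ν i) (ν j) (fun a ha hc => ?_) (hχ i) (hij ▸ hχ j)
      obtain ⟨h0, h1⟩ := hcl a ha hc
      exact ⟨h0, h1 i, h1 j⟩
  have hsum : (2 : ℤ) = ∑ χ : IrrCharacter G, z χ ^ 2 := by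
    have h := Char.classInner_eq_sum (φ := F) hFcl
    rw [hnorm] at h
    simp only [hz] at h
    rw [← Int.cast_inj (α := ℂ)]
    push_cast
    rw [h]
    refine Finset.sum_congr rfl fun χ _ => ?_
    rw [map_intCast]
    ring
  have hle : ∑ i : Fin 3, z (χ i) ^ 2 ≤ ∑ χ : IrrCharacter G, z χ ^ 2 := by
    rw [← Finset.sum_image (f := fun c => z c ^ 2) fun i _ j _ h => hχinj h]
    exact Finset.sum_le_sum_of_subset_of_nonneg (Finset.subset_univ _) fun c _ _ => sq_nonneg _
  have h1 : ∀ i, 1 ≤ z (χ i) ^ 2 := fun i =>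
    Int.add_one_le_iff.mpr ((sq_nonneg (z (χ i))).lt_of_ne' (pow_ne_zero 2 (hχz i)))
  have := Finset.sum_le_sum (s := (Finset.univ : Finset (Fin 3))) fun i _ => h1 i
  simp at this
  omega

end Cfsg.Agent.Lib.OddTypes.CentralCongr
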