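import Cfsg.Agent.Lib.OddTypes.SylowLift

/-! The norm of the lift of two free families. -/

set_option autoImplicit false

namespace Cfsg.Agent.Lib.OddTypes.SylowLift

open Subgroup Cfsg Cfsg.Agent.Lib
open scoped Pointwise ComplexConjugate

universe u

variable {G : Type u} [Group G] [Finite G] {t : ℕ} [ht : Fact t.Prime] {T : Sylow t G}

omit [Finite G] in
/-- Orthogonality for sums of two disjoint families of linear characters. -/
theorem classInner_family [Fintype (T : Subgroup G)] {S S' : Finset ((T : Subgroup G) →* ℂˣ)}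
    (hd : Disjoint S S') :
    classInner (fun v : (T : Subgroup G) => (∑ l ∈ S, (l v : ℂ)) - ∑ l ∈ S', (l v : ℂ))
      (fun v : (T : Subgroup G) => (∑ l ∈ S, (l v : ℂ)) - ∑ l ∈ S', (l v : ℂ)) = (S.card + S'.card : ℕ) := by
  classical
  have horth : ∀ a b : (T : Subgroup G) →* ℂˣ,
      classInner (fun v => (a v : ℂ)) (fun v => (b v : ℂ)) = if a = b then 1 else 0 := by
    intro a b
    split_ifs with h
    · subst h
      exact Char.classInner_irr_self (Char.isIrrCharacter_linear a)
    · refine Char.classInner_irr_ne (Char.isIrrCharacter_linear a) (Char.isIrrCharacter_linear b) fun e => h ?_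
      exact MonoidHom.ext fun v => Units.ext (congrFun e v)
  have hsum : ∀ U : Finset ((T : Subgroup G) →* ℂˣ),
      (fun v : (T : Subgroup G) => ∑ l ∈ U, (l v : ℂ)) = ∑ l ∈ U, fun v => (l v : ℂ) := fun U => by
    funext v
    rw [Finset.sum_apply]
  have hinner : ∀ U U' : Finset ((T : Subgroup G) →* ℂˣ),
      classInner (fun v : (T : Subgroup G) => ∑ l ∈ U, (l v : ℂ)) (fun v => ∑ l ∈ U', (l v : ℂ)) =
        ((U ∩ U').card : ℕ) := by
    intro U U'
    rw [hsum, hsum, Char.classInner_sum_left]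
    simp only [Char.classInner_sum_right, horth, Finset.sum_ite_eq]
    rw [← Finset.sum_filter, Finset.sum_const, nsmul_eq_mul, mul_one, Finset.filter_mem_eq_inter]
  rw [show (fun v : (T : Subgroup G) => (∑ l ∈ S, (l v : ℂ)) - ∑ l ∈ S', (l v : ℂ)) =
    (fun v : (T : Subgroup G) => ∑ l ∈ S, (l v : ℂ)) - fun v => ∑ l ∈ S', (l v : ℂ) from rfl]
  rw [Char.classInner_sub_left, Char.classInner_sub_right, Char.classInner_sub_right]
  simp only [hinner, Finset.inter_self, Finset.disjoint_iff_inter_eq_empty.mp hd,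
    Finset.disjoint_iff_inter_eq_empty.mp hd.symm, Finset.card_empty]
  push_cast
  ring

variable (hT : IsMulCommutative (T : Subgroup G))
include hT

/-- `C(T) = T × O_{t'}(C(T))`. -/
theorem card_centralizer (hs : Group.IsSolvable (centralizer ((T : Subgroup G) : Set G))) :
    Nat.card (centralizer ((T : Subgroup G) : Set G)) =
      Nat.card (T : Subgroup G) * Nat.card (core t (centralizer ((T : Subgroup G) : Set G))) := by
  set C := centralizer ((T : Subgroup G) : Set G) with hC
  have hTC : (T : Subgroup G) ≤ C := fun τ hτ => mem_centralizer_iff.mpr fun a ha =>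
    congrArg Subtype.val (hT.is_comm.comm (⟨a, ha⟩ : (T : Subgroup G)) ⟨τ, hτ⟩)
  have hcompl : IsComplement' ((core t C).subgroupOf C) ((T : Subgroup G).subgroupOf C) := by
    refine isComplement'_of_disjoint_and_mul_eq_univ ?_ ?_
    · rw [disjoint_iff, eq_bot_iff]
      intro w hw
      obtain ⟨k, hk⟩ := IsPGroup.iff_card.mp T.2
      have h3 : (core t C ⊓ (T : Subgroup G)) = ⊥ := Coprime.inf_eq_bot_of_coprime
        (by rw [hk]; exact (card_core_coprime C).pow_right k)
      have h4 : (w : G) ∈ core t C ⊓ (T : Subgroup G) := ⟨hw.1, hw.2⟩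
      rw [h3, mem_bot] at h4
      exact Subtype.ext h4
    · rw [Set.eq_univ_iff_forall]
      intro c
      obtain ⟨o, ho, n, hnC, -, he⟩ := exists_mul_normalizer' hT hs hTC c.2
      obtain ⟨x, hx⟩ := Block.exists_isPPart (p := t) n
      obtain ⟨y, hxy, hcom, hxt, hy⟩ := hx
      obtain ⟨hxz, hyz⟩ := Block.exists_pow_of_parts hxy hcom hxt hy
      have hxC : x ∈ C := zpowers_le.mpr hnC hxz
      have hyC : y ∈ C := zpowers_le.mpr hnC hyz
      have hyo : y ∈ core t C := mem_core_of_centralizes hT hs hTC hyC hy fun τ hτ =>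
        mem_centralizer_iff.mp hyC τ hτ
      have hxT : x ∈ (T : Subgroup G) := by
        obtain ⟨k, hk⟩ := IsPGroup.iff_card.mp T.2
        have hX : IsPGroup t ↥((T : Subgroup G) ⊔ zpowers x) := T.2.to_sup_of_normal_left' (Block.IsPElem.isPGroup_zpowers hxt)
          ((zpowers_le.mpr hxC).trans (centralizer_le_normalizer _))
        exact (T.3 hX le_sup_left).le (mem_sup_right (mem_zpowers x))
      refine ⟨⟨o * y, mul_mem (core_le C ho) hyC⟩, mem_subgroupOf.mpr (mul_mem ho hyo), ⟨x, hxC⟩,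
        mem_subgroupOf.mpr hxT, Subtype.ext ?_⟩
      show o * y * x = c
      rw [he, ← hxy, hcom.eq, mul_assoc]
  rw [← hcompl.card_mul_card, Coprime.card_subgroupOf (core_le C), Coprime.card_subgroupOf hTC, mul_comm]

variable (hsolv : ∀ v ∈ (T : Subgroup G), v ≠ 1 → Group.IsSolvable (centralizer ({v} : Set G)))
include hsolv

/-- Counting the elements carrying `v` into `T`. -/
theorem card_conj_into {v : G} (hv : v ∈ (T : Subgroup G)) (hv1 : v ≠ 1) :
    Nat.card {z : G // z * v * z⁻¹ ∈ (T : Subgroup G)} *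
        Nat.card (core t (centralizer ((T : Subgroup G) : Set G))) =
      Nat.card (normalizer ((T : Subgroup G) : Set G)) * Nat.card (core t (centralizer ({v} : Set G))) := by
  classical
  set N := normalizer ((T : Subgroup G) : Set G) with hN
  set C := centralizer ((T : Subgroup G) : Set G) with hC
  set Y := centralizer ({v} : Set G) with hY
  have hTY : (T : Subgroup G) ≤ Y := sylow_le_centralizer hT hv
  have hTC : (T : Subgroup G) ≤ C := fun τ hτ => mem_centralizer_iff.mpr fun a ha =>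
    congrArg Subtype.val (hT.is_comm.comm (⟨a, ha⟩ : (T : Subgroup G)) ⟨τ, hτ⟩)
  have hCY : C ≤ Y := centralizer_le (Set.singleton_subset_iff.mpr hv)
  have hsY := hsolv v hv hv1
  have hCN : C ≤ N := centralizer_le_normalizer _
  -- the common part
  have hD : ∀ d : G, d ∈ core t C ↔ d ∈ N ∧ d ∈ core t Y := by
    intro d
    refine ⟨fun h => ⟨hCN (core_le C h), (core_inf hT hsY hTC hCY (core_le C h)).mpr h⟩, fun ⟨h1, h2⟩ => ?_⟩
    have hdC : d ∈ C := mem_centralizer_iff.mpr fun τ hτ => commute_of_core_normalizer hT hTY h2 h1 hτ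
    exact (core_inf hT hsY hTC hCY hdC).mp h2
  have hdecomp : ∀ z : {z : G // z * v * z⁻¹ ∈ (T : Subgroup G)}, ∃ n ∈ N, ∃ o ∈ core t Y, (z : G) = n * o := by
    intro z
    obtain ⟨n, hn, hne⟩ := Sylow.conj_eq_normalizer_conj_of_mem T (_hP := hT) v (z : G)⁻¹ hv
      (by rw [inv_inv]; exact z.2)
    rw [inv_inv] at hne
    have hc : n * z ∈ Y := mem_centralizer_singleton_iff.mpr (by
      have h1 : (z : G) * v = n⁻¹ * v * n * z := by rw [← hne, inv_mul_cancel_right]
      rw [mul_assoc, h1]; group)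
    obtain ⟨o, ho, m, hmY, hm, he⟩ := exists_mul_normalizer' hT hsY hTY hc
    refine ⟨n⁻¹ * m, mul_mem (inv_mem hn) hm, m⁻¹ * o * m, ?_, ?_⟩
    · have := (mem_normalizer_iff.mp (le_normalizer_core Y (inv_mem hmY)) o).mp ho
      rwa [inv_inv] at this
    · rw [show (z : G) = n⁻¹ * (n * z) by group, he]
      group
  choose n hn o ho he using hdecomp
  rw [← Nat.card_prod, ← Nat.card_prod]
  refine Nat.card_congr
    { toFun := fun p => (⟨n p.1 * (p.2 : G), mul_mem (hn p.1) ((hD _).mp p.2.2).1⟩,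
        ⟨(p.2 : G)⁻¹ * o p.1, mul_mem (inv_mem ((hD _).mp p.2.2).2) (ho p.1)⟩)
      invFun := fun q => (⟨(q.1 : G) * q.2, by
          have h1 := mem_centralizer_singleton_iff.mp (core_le Y q.2.2)
          rw [show (q.1 : G) * q.2 * v * ((q.1 : G) * q.2)⁻¹ =
            (q.1 : G) * ((q.2 : G) * v * (q.2 : G)⁻¹) * (q.1 : G)⁻¹ by group, h1, mul_inv_cancel_right]
          exact (mem_normalizer_iff.mp q.1.2 v).mp hv⟩,
        ⟨(n ⟨(q.1 : G) * q.2, by
          have h1 := mem_centralizer_singleton_iff.mp (core_le Y q.2.2)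
          rw [show (q.1 : G) * q.2 * v * ((q.1 : G) * q.2)⁻¹ =
            (q.1 : G) * ((q.2 : G) * v * (q.2 : G)⁻¹) * (q.1 : G)⁻¹ by group, h1, mul_inv_cancel_right]
          exact (mem_normalizer_iff.mp q.1.2 v).mp hv⟩)⁻¹ * q.1, ?_⟩)
      left_inv := fun p => ?_
      right_inv := fun q => ?_ }
  · rw [hD]
    refine ⟨mul_mem (inv_mem (hn _)) q.1.2, ?_⟩
    have key : ∀ z : {z : G // z * v * z⁻¹ ∈ (T : Subgroup G)}, (z : G) = (q.1 : G) * q.2 →
        (n z)⁻¹ * (q.1 : G) = o z * (q.2 : G)⁻¹ := fun z hz => by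
      rw [eq_mul_inv_iff_mul_eq, mul_assoc, ← hz, he z, inv_mul_cancel_left]
    rw [key _ rfl]
    exact mul_mem (ho _) (inv_mem q.2.2)
  · have hz : (n p.1 * (p.2 : G)) * ((p.2 : G)⁻¹ * o p.1) = (p.1 : G) := by
      rw [he p.1]; group
    refine Prod.ext (Subtype.ext hz) (Subtype.ext ?_)
    simp only [hz, Subtype.coe_eta, inv_mul_cancel_left]
  · refine Prod.ext (Subtype.ext ?_) (Subtype.ext ?_)
    · simp
    · simp only [mul_inv_rev, inv_inv]
      rw [mul_assoc, ← he]
      group

open scoped Classical in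
/-- The norm of the lift. -/
theorem classInner_lift [Fintype G] (hsC : Group.IsSolvable (centralizer ((T : Subgroup G) : Set G)))
    {S S' : Finset ((T : Subgroup G) →* ℂˣ)} (hS : FreeFamily T S) (hS' : FreeFamily T S')
    (hd : Disjoint S S') (hcard : S.card = S'.card) :
    (Nat.card (normalizer ((T : Subgroup G) : Set G)) : ℂ) *
        classInner (lift T (fun g => famSum S g - famSum S' g)) (lift T (fun g => famSum S g - famSum S' g)) =
      (Nat.card (centralizer ((T : Subgroup G) : Set G)) : ℂ) * ((S.card + S'.card : ℕ) : ℂ) := by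
  set f : G → ℂ := fun g => famSum S g - famSum S' g with hf
  have hinv : Invariant T f := fun n hn v hv => by
    simp only [hf, invariant_famSum hS.stable n hn v hv, invariant_famSum hS'.stable n hn v hv]
  have hfT : ∀ v : (T : Subgroup G), f v = (∑ l ∈ S, (l v : ℂ)) - ∑ l ∈ S', (l v : ℂ) := fun v => by
    simp only [hf, famSum_apply]
  have hf1 : f 1 = 0 := by
    rw [show (1 : G) = ((1 : (T : Subgroup G)) : G) from rfl, hfT]
    simp [hcard]
  set F := lift T f with hF
  set D := core t (centralizer ((T : Subgroup G) : Set G)) with hDdef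
  set N := normalizer ((T : Subgroup G) : Set G) with hN
  set Tr : Finset (↥(T : Subgroup G) × G × G) := Finset.univ.filter fun x =>
    (x.1 : G) ≠ 1 ∧ x.2.1 ∈ core t (centralizer ({(x.1 : G)} : Set G)) with hTr
  let φ : ↥(T : Subgroup G) × G × G → G := fun x => x.2.2 * ((x.1 : G) * x.2.1) * x.2.2⁻¹
  let w : ↥(T : Subgroup G) × G × G → ℂ := fun x =>
    (Nat.card (core t (centralizer ({(x.1 : G)} : Set G))) : ℂ)⁻¹ * (f x.1 * conj (f x.1))
  have hpair : ∀ x ∈ Tr, Pair T (φ x) x.1 := fun x hx =>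
    ⟨x.1.2, (Finset.mem_filter.mp hx).2.1, x.2.2, x.2.1, (Finset.mem_filter.mp hx).2.2, rfl⟩
  have hL : ∑ x ∈ Tr, w x = (Nat.card G : ℂ) * ∑ v : (T : Subgroup G), f v * conj (f v) := by
    rw [hTr, Finset.sum_filter, Fintype.sum_prod_type, Finset.mul_sum]
    refine Finset.sum_congr rfl fun v _ => ?_
    rw [Fintype.sum_prod_type]
    by_cases hv : (v : G) = 1
    · simp [w, hv, hf1]
    · simp only [ne_eq, hv, not_false_iff, true_and]
      rw [Finset.sum_comm]
      have : ∀ y : G, (∑ b : G, if b ∈ core t (centralizer ({(v : G)} : Set G)) then w (v, b, y) else 0) =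
          f v * conj (f v) := by
        intro y
        simp only [w]
        rw [← Finset.sum_filter, Finset.sum_const, nsmul_eq_mul, ← mul_assoc, ← Fintype.card_subtype,
          ← Nat.card_eq_fintype_card, mul_inv_cancel₀ (Nat.cast_ne_zero.mpr Nat.card_pos.ne'), one_mul]
      rw [Finset.sum_congr rfl fun y _ => this y, Finset.sum_const, Finset.card_univ, nsmul_eq_mul,
        ← Nat.card_eq_fintype_card]
  have hR : ∀ g : G, ((Nat.card D : ℂ)) * ∑ x ∈ Tr.filter (fun x => φ x = g), w x =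
      (Nat.card N : ℂ) * (F g * conj (F g)) := by
    intro g
    by_cases hg : ∃ v, Pair T g v
    · obtain ⟨v, hp⟩ := hg
      have hFg : F g = f v := lift_apply hT hinv hp
      obtain ⟨hv, hv1, y₀, b₀, hb₀, hg0⟩ := hp
      have hkey : ∀ x ∈ Tr.filter (fun x => φ x = g),
          (x.1 : G) = (x.2.2⁻¹ * y₀) * v * (x.2.2⁻¹ * y₀)⁻¹ ∧
            x.2.1 = (x.2.2⁻¹ * y₀) * b₀ * (x.2.2⁻¹ * y₀)⁻¹ := by
        intro x hx
        obtain ⟨hx1, hx2⟩ := Finset.mem_filter.mp hx
        have hb := (Finset.mem_filter.mp hx1).2.2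
        have e1 := Block.IsPPart.conj (isPPart_pair x.1.2 hb) x.2.2
        have e2 := Block.IsPPart.conj (isPPart_pair hv hb₀) y₀
        rw [show x.2.2 * ((x.1 : G) * x.2.1) * x.2.2⁻¹ = y₀ * (v * b₀) * y₀⁻¹ from hx2.trans hg0] at e1
        have e := Block.IsPPart.unique e1 e2
        have ev : (x.1 : G) = (x.2.2⁻¹ * y₀) * v * (x.2.2⁻¹ * y₀)⁻¹ := by
          rw [show x.2.2⁻¹ * y₀ * v * (x.2.2⁻¹ * y₀)⁻¹ = x.2.2⁻¹ * (y₀ * v * y₀⁻¹) * x.2.2 by group, ← e]
          group
        refine ⟨ev, ?_⟩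
        have hvb : (x.1 : G) * x.2.1 = (x.2.2⁻¹ * y₀) * (v * b₀) * (x.2.2⁻¹ * y₀)⁻¹ := by
          rw [show x.2.2⁻¹ * y₀ * (v * b₀) * (x.2.2⁻¹ * y₀)⁻¹ = x.2.2⁻¹ * (y₀ * (v * b₀) * y₀⁻¹) * x.2.2 by
            group, ← hg0, ← hx2]
          simp only [φ]; group
        refine mul_left_cancel (a := (x.1 : G)) (hvb.trans ?_)
        rw [ev]; group
      have hcardfib : (Tr.filter fun x => φ x = g).card = Nat.card {z : G // z * v * z⁻¹ ∈ (T : Subgroup G)} := by
        rw [Nat.card_eq_fintype_card, ← Finset.card_univ]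
        refine Finset.card_bij (fun x hx => (⟨x.2.2⁻¹ * y₀, by rw [← (hkey x hx).1]; exact x.1.2⟩ :
          {z : G // z * v * z⁻¹ ∈ (T : Subgroup G)})) (fun _ _ => Finset.mem_univ _) (fun x hx x' hx' h => ?_)
          fun z _ => ?_
        · have h' : x.2.2⁻¹ * y₀ = x'.2.2⁻¹ * y₀ := congrArg Subtype.val h
          refine Prod.ext (Subtype.ext ?_) (Prod.ext ?_ (inv_injective (mul_right_cancel h')))
          · rw [(hkey x hx).1, (hkey x' hx').1, h']
          · rw [(hkey x hx).2, (hkey x' hx').2, h']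
        · refine ⟨(⟨z.1 * v * z.1⁻¹, z.2⟩, z.1 * b₀ * z.1⁻¹, y₀ * z.1⁻¹), ?_, Subtype.ext ?_⟩
          · refine Finset.mem_filter.mpr ⟨Finset.mem_filter.mpr ⟨Finset.mem_univ _,
              fun h => hv1 (conj_eq_one_iff.mp h), ?_⟩, ?_⟩
            · rw [← map_centralizer_singleton]
              exact conj_mem_core z.1 hb₀
            · simp only [φ]; rw [hg0]; group
          · show (y₀ * z.1⁻¹)⁻¹ * y₀ = z.1
            group
      have hwc : ∀ x ∈ Tr.filter (fun x => φ x = g),
          w x = (Nat.card (core t (centralizer ({v} : Set G))) : ℂ)⁻¹ * (F g * conj (F g)) := by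
        intro x hx
        have hfx : f x.1 = F g := by
          have hp' := hpair x (Finset.mem_filter.mp hx).1
          rw [(Finset.mem_filter.mp hx).2] at hp'
          exact (lift_apply hT hinv hp').symm
        simp only [w, hfx]
        congr 3
        rw [(hkey x hx).1, ← map_centralizer_singleton]
        refine le_antisymm ?_ ?_
        · rw [← Nat.card_congr (equivMapOfInjective (core t (centralizer ({v} : Set G)))
            (MulAut.conj (x.2.2⁻¹ * y₀)).toMonoidHom (MulAut.conj (x.2.2⁻¹ * y₀)).injective).toEquiv.symm]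
          refine Nat.card_le_card_of_injective (Subgroup.inclusion ?_) (Subgroup.inclusion_injective _)
          intro z hz
          refine ⟨(x.2.2⁻¹ * y₀)⁻¹ * z * (x.2.2⁻¹ * y₀), ?_, by simp [mul_assoc]⟩
          have := conj_mem_core (t := t) (x.2.2⁻¹ * y₀)⁻¹ hz
          rw [inv_inv] at this
          rw [map_centralizer_singleton, map_centralizer_singleton,
            show (x.2.2⁻¹ * y₀)⁻¹ * (x.2.2⁻¹ * y₀ * v * (x.2.2⁻¹ * y₀)⁻¹) * ((x.2.2⁻¹ * y₀)⁻¹)⁻¹ = v by group] at this
          exact this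
        · rw [← Nat.card_congr (equivMapOfInjective (core t (centralizer ({v} : Set G)))
            (MulAut.conj (x.2.2⁻¹ * y₀)).toMonoidHom (MulAut.conj (x.2.2⁻¹ * y₀)).injective).toEquiv.symm]
          refine Nat.card_le_card_of_injective (Subgroup.inclusion ?_) (Subgroup.inclusion_injective _)
          rintro _ ⟨z, hz, rfl⟩
          exact conj_mem_core _ hz
      rw [Finset.sum_congr rfl hwc, Finset.sum_const, hcardfib, nsmul_eq_mul]
      have hc' := congrArg (fun k : ℕ => (k : ℂ)) (card_conj_into hT hsolv hv hv1)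
      simp only [Nat.cast_mul] at hc'
      have hne : (Nat.card (core t (centralizer ({v} : Set G))) : ℂ) ≠ 0 := Nat.cast_ne_zero.mpr Nat.card_pos.ne'
      rw [show (Nat.card D : ℂ) * ((Nat.card {z : G // z * v * z⁻¹ ∈ (T : Subgroup G)} : ℂ) *
        ((Nat.card (core t (centralizer ({v} : Set G))) : ℂ)⁻¹ * (F g * conj (F g)))) =
        ((Nat.card {z : G // z * v * z⁻¹ ∈ (T : Subgroup G)} : ℂ) * (Nat.card D : ℂ)) *
          ((Nat.card (core t (centralizer ({v} : Set G))) : ℂ)⁻¹ * (F g * conj (F g))) by ring, hc']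
      field_simp
      simp only [← hN]
      ring
    · push Not at hg
      rw [show Tr.filter (fun x => φ x = g) = ∅ from Finset.filter_eq_empty_iff.mpr fun x hx h =>
        hg _ (h ▸ hpair x hx)]
      simp [hF, lift_eq_zero hg]
  have hsum : (Nat.card D : ℂ) * ((Nat.card G : ℂ) * ∑ v : (T : Subgroup G), f v * conj (f v)) =
      (Nat.card N : ℂ) * ∑ g : G, F g * conj (F g) := by
    rw [← hL, ← Finset.sum_fiberwise Tr φ, Finset.mul_sum, Finset.mul_sum]
    exact Finset.sum_congr rfl fun g _ => hR g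
  have horth := classInner_family (T := T) hd
  rw [classInner] at horth
  have hfun : ∑ v : (T : Subgroup G), f v * conj (f v) =
      (Nat.card (T : Subgroup G) : ℂ) * ((S.card + S'.card : ℕ) : ℂ) := by
    rw [← horth, mul_inv_cancel_left₀ (Nat.cast_ne_zero.mpr Nat.card_pos.ne')]
    simp only [hfT]
  rw [hfun] at hsum
  show (Nat.card N : ℂ) * ((Nat.card G : ℂ)⁻¹ * ∑ g : G, F g * conj (F g)) = _
  rw [mul_left_comm, ← hsum, card_centralizer hT hsC, Nat.cast_mul, ← hDdef]
  have hG0 : (Nat.card G : ℂ) ≠ 0 := Nat.cast_ne_zero.mpr Nat.card_pos.ne'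
  field_simp

end Cfsg.Agent.Lib.OddTypes.SylowLift
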