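import Cfsg.Agent.Lib.OddTypes.AbelianSylow
import Mathlib.GroupTheory.Transfer
import Mathlib.GroupTheory.Complement

/-! Burnside's transfer, as a retraction onto a Sylow subgroup central in its normalizer. -/

set_option autoImplicit false

namespace Cfsg.Agent.Lib.OddTypes.SylowLift

open Subgroup Cfsg Cfsg.Agent.Lib

universe u

variable {G : Type u} [Group G] [Finite G] {t : ℕ} [ht : Fact t.Prime]

/-- A retraction onto `T` killing the elements of order prime to `t`. -/
theorem exists_retraction (T : Sylow t G) {M : Subgroup G} (hTM : (T : Subgroup G) ≤ M)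
    (hT : IsMulCommutative (T : Subgroup G))
    (hN : M ⊓ normalizer ((T : Subgroup G) : Set G) ≤ centralizer ((T : Subgroup G) : Set G)) :
    ∃ π : M →* (T : Subgroup G), (∀ (v : G) (hv : v ∈ (T : Subgroup G)), π ⟨v, hTM hv⟩ = ⟨v, hv⟩) ∧
      (∀ m : M, ¬ t ∣ orderOf m → π m = 1) ∧ (∀ m n : M, π (n * m * n⁻¹) = π m) ∧
      (Nat.card π.ker).Coprime t := by
  set P := T.subtype hTM with hP
  have hle : normalizer ((P : Subgroup M) : Set M) ≤ centralizer ((P : Subgroup M) : Set M) := by
    intro m hm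
    have hmN : (m : G) ∈ normalizer ((T : Subgroup G) : Set G) := mem_normalizer_iff.mpr fun y => by
      constructor
      · intro hy
        exact (mem_subtype_iff hTM).mp
          ((mem_normalizer_iff.mp hm ⟨y, hTM hy⟩).mp ((mem_subtype_iff hTM).mpr hy))
      · intro hy
        have hyM : y ∈ M := by
          have := mul_mem (mul_mem (inv_mem m.2) (hTM hy)) m.2
          simpa [mul_assoc] using this
        exact (mem_subtype_iff hTM).mp ((mem_normalizer_iff.mp hm ⟨y, hyM⟩).mpr ((mem_subtype_iff hTM).mpr hy))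
    exact mem_centralizer_iff.mpr fun a ha =>
      Subtype.ext (mem_centralizer_iff.mp (hN ⟨m.2, hmN⟩) _ ((mem_subtype_iff hTM).mp ha))
  set τ := MonoidHom.transferSylow P hle
  have hcompl := MonoidHom.ker_transferSylow_isComplement' P hle
  let e : (P : Subgroup M) ≃* (T : Subgroup G) := by
    refine (MulEquiv.subgroupCongr ?_).trans (subgroupOfEquivOfLe hTM)
    rw [hP, Sylow.coe_subtype]
  set π : M →* (T : Subgroup G) :=
    (e.toMonoidHom.comp hcompl.symm.QuotientMulEquiv.toMonoidHom).comp (QuotientGroup.mk' τ.ker) with hπ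
  have hker : π.ker = τ.ker := by
    ext m
    simp only [hπ, MonoidHom.mem_ker, MonoidHom.comp_apply, MulEquiv.coe_toMonoidHom,
      EmbeddingLike.map_eq_one_iff, QuotientGroup.mk'_apply, QuotientGroup.eq_one_iff]
  have hcop : (Nat.card π.ker).Coprime t := by
    rw [hker]
    have h1 : Nat.card τ.ker = (P : Subgroup M).index := (IsComplement'.index_eq_card hcompl).symm
    rw [h1]
    exact ((ht.out.coprime_iff_not_dvd).mpr P.not_dvd_index).symm
  refine ⟨π, fun v hv => ?_, fun m hm => ?_, fun m n => ?_, hcop⟩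
  · have h1 : hcompl.symm.QuotientMulEquiv (QuotientGroup.mk' τ.ker ⟨v, hTM hv⟩) =
        (⟨⟨v, hTM hv⟩, (mem_subtype_iff hTM).mpr hv⟩ : (P : Subgroup M)) := by
      rw [← MulEquiv.eq_symm_apply]
      rfl
    simp only [hπ, MonoidHom.comp_apply, MulEquiv.coe_toMonoidHom, h1]
    rfl
  · obtain ⟨k, hk⟩ := IsPGroup.iff_orderOf.mp T.2 (π m)
    rcases Nat.eq_zero_or_pos k with rfl | hk0
    · rwa [pow_zero, orderOf_eq_one_iff] at hk
    · exact absurd ((dvd_pow_self t hk0.ne').trans (hk ▸ orderOf_map_dvd π m)) hm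
  · rw [map_mul, map_mul, hT.is_comm.comm (π n) (π m), map_inv, mul_inv_cancel_right]

end Cfsg.Agent.Lib.OddTypes.SylowLift
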