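import Cfsg.Agent.Lib.OddTypes.Orbit
import Cfsg.Agent.Lib.OddTypes.LiftNorm
import Cfsg.Agent.Lib.OddTypes.CentralCongr
import Cfsg.Agent.Lib.OddTypes.Retraction
import Cfsg.Agent.Lib.Block.Exist

/-!
An abelian Sylow `t`-subgroup `T` of a maximal subgroup `M`, with `N(T) ∩ M = C(T)`, cannot act on a normal abelian
Sylow `q`-subgroup `Q` of `M`, `t < q`, with a cyclic kernel of order divisible by `t ^ 2` and cyclic image.
-/

set_option autoImplicit false

namespace Cfsg.Agent.Lib.OddTypes.BlockGap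

open Subgroup Cfsg Cfsg.Agent.Lib SylowLift
open scoped Pointwise

universe u

variable {G : Type u} [Group G] [Finite G] {t q : ℕ} [ht : Fact t.Prime] [hq : Fact q.Prime]

/-- The configuration to be refuted. -/
structure Config (M : Subgroup G) (T : Sylow t G) (Q : Sylow q G) (z : G) : Prop where
  simpleOdd : IsMinSimpleOddOrder G
  coatom : IsCoatom M
  comm : IsMulCommutative (T : Subgroup G)
  le : (T : Subgroup G) ≤ M
  commQ : IsMulCommutative (Q : Subgroup G)
  neQ : (Q : Subgroup G) ≠ ⊥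
  leQ : (Q : Subgroup G) ≤ M
  normQ : M ≤ normalizer ((Q : Subgroup G) : Set G)
  order : orderOf z = t
  memT : z ∈ (T : Subgroup G)
  memQ : z ∈ centralizer ((Q : Subgroup G) : Set G)
  norm : normalizer (zpowers z : Set G) ≤ M
  fused : M ⊓ normalizer ((T : Subgroup G) : Set G) ≤ centralizer ((T : Subgroup G) : Set G)
  cyc : IsCyclic ↥((T : Subgroup G) ⊓ centralizer ((Q : Subgroup G) : Set G))
  sq_dvd : t ^ 2 ∣ Nat.card ↥((T : Subgroup G) ⊓ centralizer ((Q : Subgroup G) : Set G))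
  lt : t < q

variable {M : Subgroup G} {T : Sylow t G} {Q : Sylow q G} {z : G}

namespace Config

variable (h : Config M T Q z)
include h

theorem centralizer_le_M : centralizer ((Q : Subgroup G) : Set G) ≤ M := by
  refine (centralizer_le_normalizer _).trans ?_
  rcases h.normQ.eq_or_lt with he | hlt
  · exact he.ge
  · haveI := h.simpleOdd.2.1
    have hn : (Q : Subgroup G).Normal := normalizer_eq_top_iff.mp (h.coatom.2 _ hlt)
    rcases hn.eq_bot_or_eq_top with hb | htop
    · exact absurd hb h.neQ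
    · exact absurd (eq_top_iff.mpr (htop ▸ h.leQ)) h.coatom.1

theorem two_ne : t ≠ 2 := by
  intro he
  have hd : t ∣ Nat.card G := h.order ▸ orderOf_dvd_natCard z
  exact Nat.not_even_iff_odd.mpr h.simpleOdd.1 (even_iff_two_dvd.mpr (he ▸ hd))

theorem zpowers_eq {e : G} (heT : e ∈ (T : Subgroup G)) (heQ : e ∈ centralizer ((Q : Subgroup G) : Set G))
    (he : e ^ t = 1) : e ∈ zpowers z := by
  classical
  set A := (T : Subgroup G) ⊓ centralizer ((Q : Subgroup G) : Set G)
  haveI := h.cyc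
  haveI := Fintype.ofFinite A
  haveI := Fintype.ofFinite (zpowers z)
  by_contra hne
  let f : Option (zpowers z) → A := fun o => o.elim ⟨e, heT, heQ⟩
    fun x => ⟨x, (zpowers_le.mpr ⟨h.memT, h.memQ⟩ : zpowers z ≤ A) x.2⟩
  have hf : Function.Injective f := by
    rintro (_ | x) (_ | x') he'
    · rfl
    · have e' : e = (x' : G) := congrArg Subtype.val he'
      exact absurd (by rw [e']; exact x'.2) hne
    · have e' : (x : G) = e := congrArg Subtype.val he'
      exact absurd (by rw [← e']; exact x.2) hne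
    · have e' : (x : G) = (x' : G) := congrArg (fun a : A => (a : G)) he'
      exact congrArg some (Subtype.ext e')
  have hle : Nat.card (Option (zpowers z)) ≤ (Finset.univ.filter fun a : A => a ^ t = 1).card := by
    rw [← Nat.card_eq_finsetCard]
    refine Nat.card_le_card_of_injective (fun o => ⟨f o, Finset.mem_filter.mpr ⟨Finset.mem_univ _, ?_⟩⟩)
      fun o o' ho => hf (congrArg Subtype.val ho)
    refine Subtype.ext ?_
    rcases o with _ | x
    · exact he
    · show (x : G) ^ t = 1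
      rw [← h.order]
      obtain ⟨i, hi⟩ := mem_zpowers_iff.mp x.2
      rw [← hi, ← zpow_natCast, ← zpow_mul, mul_comm, zpow_mul, zpow_natCast, pow_orderOf_eq_one, one_zpow]
  have h2 := IsCyclic.card_pow_eq_one_le (α := A) ht.out.pos
  rw [Nat.card_eq_fintype_card, Fintype.card_option, ← Nat.card_eq_fintype_card, Nat.card_zpowers, h.order] at hle
  omega

/-- An element of `N(T)` moving `z` into `C(Q)` centralizes `T`. -/
theorem mem_centralizer_T {n : G} (hn : n ∈ normalizer ((T : Subgroup G) : Set G))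
    (hz : n⁻¹ * z * n ∈ centralizer ((Q : Subgroup G) : Set G)) :
    n ∈ centralizer ((T : Subgroup G) : Set G) := by
  refine h.fused ⟨h.norm ?_, hn⟩
  have hT' : n⁻¹ * z * n ∈ (T : Subgroup G) := by
    have := (mem_normalizer_iff.mp (inv_mem hn) z).mp h.memT
    rwa [inv_inv] at this
  have hord : orderOf (n⁻¹ * z * n) = t := by
    have := Block.orderOf_conj_eq n⁻¹ z
    rwa [inv_inv, h.order] at this
  have hmem := h.zpowers_eq hT' hz (hord ▸ pow_orderOf_eq_one _)
  have heq : zpowers (n⁻¹ * z * n) = zpowers z := eq_of_le_of_card_ge (zpowers_le.mpr hmem)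
    (by rw [Nat.card_zpowers, Nat.card_zpowers, hord, h.order])
  refine inv_mem_iff.mp (mem_normalizer_iff.mpr fun a => ?_)
  rw [inv_inv]
  conv_rhs => rw [← heq]
  simp only [mem_zpowers_iff]
  refine exists_congr fun i => ?_
  rw [show (n⁻¹ * z * n) ^ i = n⁻¹ * z ^ i * n by
    have := conj_zpow (i := i) (a := n⁻¹) (b := z)
    rwa [inv_inv] at this]
  exact ⟨fun hi => by rw [hi], fun hi => mul_left_cancel (mul_right_cancel hi)⟩

/-- `N(T) ≠ C(T)`. -/
theorem exists_moving : ∃ n ∈ normalizer ((T : Subgroup G) : Set G), n ∉ centralizer ((T : Subgroup G) : Set G) := by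
  by_contra hno
  push Not at hno
  haveI := h.simpleOdd.2.1
  have hle : normalizer ((T : Subgroup G) : Set G) ≤ centralizer ((T : Subgroup G) : Set G) := hno
  have hc := MonoidHom.ker_transferSylow_isComplement' T hle
  rcases (inferInstance : (MonoidHom.transferSylow T hle).ker.Normal).eq_bot_or_eq_top with hb | htop
  · rw [hb] at hc
    exact h.coatom.1 (eq_top_iff.mpr ((isComplement'_bot_left.mp hc) ▸ h.le))
  · rw [htop] at hc
    have hb := isComplement'_top_left.mp hc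
    have h1 : z = 1 := mem_bot.mp (hb ▸ h.memT)
    exact ht.out.ne_one (by rw [← h.order, h1, orderOf_one])

variable {l : (T : Subgroup G) →* ℂˣ}
  (hl : ∀ v : (T : Subgroup G), l v = 1 ↔ (v : G) ∈ centralizer ((Q : Subgroup G) : Set G))
include hl

theorem act_eq_one_iff (n : normalizer ((T : Subgroup G) : Set G)) :
    act n l ⟨z, h.memT⟩ = 1 ↔ (n : G) ∈ centralizer ((T : Subgroup G) : Set G) := by
  constructor
  · intro h1
    exact h.mem_centralizer_T n.2 ((hl _).mp h1)
  · intro hc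
    rw [act_eq_of_centralizer hc]
    exact (hl _).mpr h.memQ

omit hl in
theorem pow_apply (L : (T : Subgroup G) →* ℂˣ) {y : (T : Subgroup G)} (hy : (y : G) ^ t = z)
    (n : normalizer ((T : Subgroup G) : Set G)) : act n (L ^ t) y = act n L ⟨z, h.memT⟩ := by
  rw [act_pow]
  show act n L y ^ t = _
  rw [← map_pow]
  exact congrArg _ (Subtype.ext hy)

/-- At most `t` translates of a character have a given value. -/
theorem card_le (L : (T : Subgroup G) →* ℂˣ) (c : ℂˣ) {U : Finset ((T : Subgroup G) →* ℂˣ)}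
    (hU : ∀ u ∈ U, ∃ m, act m L = u ∧ act m l ⟨z, h.memT⟩ = c) : U.card ≤ t := by
  classical
  rcases U.eq_empty_or_nonempty with rfl | ⟨u₀, hu₀⟩
  · simp
  choose m hm hc using hU
  let e : normalizer ((T : Subgroup G) : Set G) → (T : Subgroup G) := fun n =>
    ⟨(n : G)⁻¹ * z * n, by
      have := (mem_normalizer_iff.mp (inv_mem n.2) z).mp h.memT
      rwa [inv_inv] at this⟩
  have hle : ∀ u (hu : u ∈ U), (((e (m u₀ hu₀))⁻¹ * e (m u hu) : (T : Subgroup G)) : G) ∈ zpowers z := by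
    intro u hu
    set d : (T : Subgroup G) := (e (m u₀ hu₀))⁻¹ * e (m u hu)
    refine h.zpowers_eq d.2 ((hl d).mp ?_) ?_
    · show l ((e (m u₀ hu₀))⁻¹ * e (m u hu)) = 1
      rw [map_mul, map_inv, inv_mul_eq_one]
      exact (hc u₀ hu₀).trans (hc u hu).symm
    · have he : ∀ n, e n ^ t = 1 := fun n => by
        have ho : orderOf (e n) = t := by
          rw [← Subgroup.orderOf_coe]
          have := Block.orderOf_conj_eq (n : G)⁻¹ z
          rwa [inv_inv, h.order] at this
        exact (congrArg (fun k => e n ^ k) ho).symm.trans (pow_orderOf_eq_one _)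
      have : d ^ t = 1 := by
        have hcm : Commute (e (m u₀ hu₀))⁻¹ (e (m u hu)) := h.comm.is_comm.comm _ _
        rw [hcm.mul_pow, inv_pow, he, he, inv_one, one_mul]
      exact congrArg Subtype.val this
  have hinj : Function.Injective (fun u : {x // x ∈ U} => (⟨_, hle u u.2⟩ : zpowers z)) := by
    intro u u' he
    have h1 : e (m u u.2) = e (m u' u'.2) := mul_left_cancel (Subtype.ext (Subtype.mk.inj he))
    have h2 : (m u.1 u.2 : G)⁻¹ * z * (m u.1 u.2 : G) = (m u'.1 u'.2 : G)⁻¹ * z * (m u'.1 u'.2 : G) :=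
      congrArg Subtype.val h1
    have hd : ((m u' u'.2 * (m u u.2)⁻¹ : normalizer ((T : Subgroup G) : Set G)) : G) ∈
        centralizer ((T : Subgroup G) : Set G) := by
      refine h.mem_centralizer_T (Subtype.coe_prop _) ?_
      convert h.memQ using 1
      show ((m u'.1 u'.2 : G) * (m u.1 u.2 : G)⁻¹)⁻¹ * z * ((m u'.1 u'.2 : G) * (m u.1 u.2 : G)⁻¹) = z
      calc _ = (m u.1 u.2 : G) * ((m u'.1 u'.2 : G)⁻¹ * z * (m u'.1 u'.2 : G)) * (m u.1 u.2 : G)⁻¹ := by group
        _ = z := by rw [← h2]; group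
    refine Subtype.ext ?_
    rw [← hm u u.2, ← hm u' u'.2]
    conv_rhs => rw [← inv_mul_cancel_right (m u'.1 u'.2) (m u.1 u.2), act_mul, act_eq_of_centralizer hd]
  have := Nat.card_le_card_of_injective _ hinj
  rwa [Nat.card_zpowers, h.order, Nat.card_eq_finsetCard] at this

/-- The values at `z` of the moved characters are not all equal. -/
theorem exists_two : ∃ a b : normalizer ((T : Subgroup G) : Set G),
    (a : G) ∉ centralizer ((T : Subgroup G) : Set G) ∧ (b : G) ∉ centralizer ((T : Subgroup G) : Set G) ∧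
      act a l ⟨z, h.memT⟩ ≠ act b l ⟨z, h.memT⟩ := by
  by_contra hno
  push Not at hno
  obtain ⟨w, hw, hwC⟩ := h.exists_moving
  set N := normalizer ((T : Subgroup G) : Set G)
  have hmem : ∀ n ∈ N, ∀ v ∈ (T : Subgroup G), n⁻¹ * v * n ∈ (T : Subgroup G) := fun n hn v hv => by
    have := (mem_normalizer_iff.mp (inv_mem hn) v).mp hv
    rwa [inv_inv] at this
  have hw2 : w * w ∉ centralizer ((T : Subgroup G) : Set G) := by
    intro h2
    obtain ⟨k, hk⟩ : Odd (orderOf w) := h.simpleOdd.1.of_dvd_nat (orderOf_dvd_natCard w)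
    refine hwC ?_
    have : w = (w * w) ^ (k + 1) := by
      rw [← pow_two, ← pow_mul, show 2 * (k + 1) = orderOf w + 1 by omega, pow_succ, pow_orderOf_eq_one, one_mul]
    rw [this]
    exact pow_mem h2 _
  set e₁ := w⁻¹ * z * w with he₁
  set e₂ := w⁻¹ * e₁ * w with he₂
  set e₃ := w⁻¹ * e₂ * w with he₃
  have m₁ : e₁ ∈ (T : Subgroup G) := hmem w hw z h.memT
  have m₂ : e₂ ∈ (T : Subgroup G) := hmem w hw _ m₁
  have m₃ : e₃ ∈ (T : Subgroup G) := hmem w hw _ m₂
  have hcomm : ∀ a ∈ (T : Subgroup G), ∀ b ∈ (T : Subgroup G), Commute a b := fun a ha b hb =>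
    congrArg Subtype.val (h.comm.is_comm.comm (⟨a, ha⟩ : (T : Subgroup G)) ⟨b, hb⟩)
  have hpt : ∀ {e : G}, IsConj z e → e ^ t = 1 := fun {e} hc => by
    rw [← h.order, ← Block.orderOf_of_isConj hc, pow_orderOf_eq_one]
  have ht₁ : e₁ ^ t = 1 := hpt (isConj_iff.mpr ⟨w⁻¹, by simp [he₁]⟩)
  have ht₂ : e₂ ^ t = 1 := hpt (isConj_iff.mpr ⟨w⁻¹ * w⁻¹, by simp [he₂, he₁, mul_assoc]⟩)
  set c := l ⟨e₁, m₁⟩ with hc
  have hc1 : c ≠ 1 := fun e => hwC ((h.act_eq_one_iff hl ⟨w, hw⟩).mp e)
  have hct : c ^ t = 1 := by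
    rw [hc, ← map_pow, show (⟨e₁, m₁⟩ : (T : Subgroup G)) ^ t = 1 from Subtype.ext ht₁, map_one]
  have hc2 : l ⟨e₂, m₂⟩ = c := by
    have h0 := hno ⟨w * w, mul_mem hw hw⟩ ⟨w, hw⟩ hw2 hwC
    refine Eq.trans (congrArg l (Subtype.ext ?_)) h0
    show e₂ = (w * w)⁻¹ * z * (w * w)
    rw [he₂, he₁]; group
  have hz1 : l ⟨z, h.memT⟩ = 1 := (hl _).mpr h.memQ
  -- `e₂` lies in the coset of `e₁`
  have hd : e₁⁻¹ * e₂ ∈ zpowers z := by
    refine h.zpowers_eq (mul_mem (inv_mem m₁) m₂) ((hl ⟨_, mul_mem (inv_mem m₁) m₂⟩).mp ?_) ?_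
    · show l ((⟨e₁, m₁⟩ : (T : Subgroup G))⁻¹ * ⟨e₂, m₂⟩) = 1
      rw [map_mul, map_inv, hc2, inv_mul_cancel]
    · rw [((hcomm _ m₁ _ m₂).inv_left).mul_pow, inv_pow, ht₁, ht₂, inv_one, one_mul]
  obtain ⟨i, hi⟩ := mem_zpowers_iff.mp hd
  have hi2 : e₂ = e₁ * z ^ i := by rw [hi, mul_inv_cancel_left]
  have hi3 : e₃ = e₁ * z ^ i * e₁ ^ i := by
    rw [← hi2, he₃]
    conv_lhs => rw [hi2]
    rw [show w⁻¹ * (e₁ * z ^ i) * w = w⁻¹ * e₁ * w * (w⁻¹ * z ^ i * w) by group, ← he₂]
    congr 1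
    have := conj_zpow (i := i) (a := w⁻¹) (b := z)
    rw [inv_inv] at this
    exact this.symm
  have hl3 : l ⟨e₃, m₃⟩ = c * c ^ i := by
    have : (⟨e₃, m₃⟩ : (T : Subgroup G)) = ⟨e₁, m₁⟩ * ⟨z, h.memT⟩ ^ i * ⟨e₁, m₁⟩ ^ i :=
      Subtype.ext hi3
    rw [this, map_mul, map_mul, map_zpow, map_zpow, hz1, one_zpow, mul_one]
  have hw3 : e₃ = (w * w * w)⁻¹ * z * (w * w * w) := by rw [he₃, he₂, he₁]; group
  have hoc : (orderOf c : ℤ) = t := by rw [orderOf_eq_prime hct hc1]
  by_cases hC : w * w * w ∈ centralizer ((T : Subgroup G) : Set G)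
  · have he : e₃ = z := by
      rw [hw3, mul_assoc, mem_centralizer_iff.mp hC z h.memT, inv_mul_cancel_left]
    have hci : c ^ (1 + i) = 1 := by
      rw [zpow_add, zpow_one, ← hl3]
      exact (congrArg l (Subtype.ext he : (⟨e₃, m₃⟩ : (T : Subgroup G)) = ⟨z, h.memT⟩)).trans hz1
    have hti : (t : ℤ) ∣ 1 + i := hoc ▸ orderOf_dvd_iff_zpow_eq_one.mpr hci
    have hzi : z ^ (1 + i) = 1 := orderOf_dvd_iff_zpow_eq_one.mp (by rwa [h.order])
    have hei : e₁ ^ (1 + i) = 1 := orderOf_dvd_iff_zpow_eq_one.mp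
      ((Int.natCast_dvd_natCast.mpr (orderOf_dvd_of_pow_eq_one ht₁)).trans hti)
    have : z * z = 1 := by
      have hcc : Commute e₁ (z ^ i) := (hcomm _ m₁ _ h.memT).zpow_right i
      rw [hi3, hcc.eq, mul_assoc, ← zpow_one_add, hei, mul_one] at he
      rwa [zpow_one_add, he] at hzi
    have hd2 : t ∣ 2 := h.order ▸ orderOf_dvd_of_pow_eq_one (by rw [pow_two, this])
    exact h.two_ne ((Nat.prime_dvd_prime_iff_eq ht.out Nat.prime_two).mp hd2)
  · have h0 := hno ⟨w * w * w, mul_mem (mul_mem hw hw) hw⟩ ⟨w, hw⟩ hC hwC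
    have h3 : l ⟨e₃, m₃⟩ = c := Eq.trans (congrArg l (Subtype.ext hw3)) h0
    rw [hl3] at h3
    have hti : (t : ℤ) ∣ i := hoc ▸ orderOf_dvd_iff_zpow_eq_one.mpr (mul_eq_left.mp h3)
    have hzi : z ^ i = 1 := orderOf_dvd_iff_zpow_eq_one.mp (by rwa [h.order])
    rw [hzi, mul_one] at hi2
    have : e₁ = z := by
      have h4 : w⁻¹ * e₁ * w = w⁻¹ * z * w := by rw [← he₂, hi2, he₁]
      exact mul_left_cancel (mul_right_cancel h4)
    exact hwC (h.mem_centralizer_T hw (by rw [← he₁, this]; exact h.memQ))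

end Config

omit [Finite G] ht hq in
theorem conj_mem_centralizer {S : Subgroup G} {m x : G} (hm : m ∈ normalizer (S : Set G))
    (hx : x ∈ centralizer (S : Set G)) : m * x * m⁻¹ ∈ centralizer (S : Set G) := by
  refine mem_centralizer_iff.mpr fun a ha => ?_
  have h1 : m⁻¹ * a * m ∈ S := by
    have := (mem_normalizer_iff.mp (inv_mem hm) a).mp ha
    rwa [inv_inv] at this
  calc a * (m * x * m⁻¹) = m * ((m⁻¹ * a * m) * x) * m⁻¹ := by group
    _ = m * (x * (m⁻¹ * a * m)) * m⁻¹ := by rw [mem_centralizer_iff.mp hx _ h1]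
    _ = _ := by group

theorem Config.exists_conj_mem (h : Config M T Q z) {x : G} (hx : Block.IsPElem t x)
    (hxQ : x ∈ centralizer ((Q : Subgroup G) : Set G)) :
    ∃ m ∈ M, m * x * m⁻¹ ∈ (T : Subgroup G) ⊓ centralizer ((Q : Subgroup G) : Set G) := by
  have hxM := h.centralizer_le_M hxQ
  have hpg : IsPGroup t (zpowers (⟨x, hxM⟩ : M)) :=
    Block.IsPElem.isPGroup_zpowers (by obtain ⟨k, hk⟩ := hx; exact ⟨k, by rwa [Subgroup.orderOf_mk]⟩)
  obtain ⟨S, hS⟩ := hpg.exists_le_sylow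
  obtain ⟨m, hm⟩ := MulAction.exists_smul_eq M S (T.subtype h.le)
  refine ⟨m, m.2, ?_, conj_mem_centralizer (h.normQ m.2) hxQ⟩
  have h1 : m * (⟨x, hxM⟩ : M) * m⁻¹ ∈ (T.subtype h.le : Subgroup M) := by
    rw [← hm, Sylow.coe_subgroup_smul]
    exact ⟨_, hS (mem_zpowers _), rfl⟩
  exact (mem_subtype_iff h.le).mp h1

open scoped Classical in
/-- The configuration does not exist. -/
theorem Config.false (h : Config M T Q z) (l : (T : Subgroup G) →* ℂˣ)
    (hl : ∀ v : (T : Subgroup G), l v = 1 ↔ (v : G) ∈ centralizer ((Q : Subgroup G) : Set G))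
    {y : (T : Subgroup G)} (hyQ : (y : G) ∈ centralizer ((Q : Subgroup G) : Set G)) (hy : (y : G) ^ t = z) :
    False := by
  haveI := Fintype.ofFinite G
  set N := normalizer ((T : Subgroup G) : Set G) with hN
  set CT := centralizer ((T : Subgroup G) : Set G) with hCT
  set CQ := centralizer ((Q : Subgroup G) : Set G) with hCQ
  set zT : (T : Subgroup G) := ⟨z, h.memT⟩ with hzT
  set μ := l ^ t with hμ
  -- stabilisers
  have hval : ∀ n : N, act n μ y = act n l zT := fun n => h.pow_apply l hy n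
  have hμy : μ y = 1 := by
    show l y ^ t = 1
    rw [(hl y).mpr hyQ, one_pow]
  have stabμ : ∀ n : N, act n μ = μ → (n : G) ∈ CT := fun n hn =>
    (h.act_eq_one_iff hl n).mp (by rw [← hval, hn, hμy])
  have stabl : ∀ n : N, act n l = l → (n : G) ∈ CT := fun n hn =>
    stabμ n (by rw [hμ, act_pow, hn])
  have hfl := freeFamily_orbit stabl
  have hfμ := freeFamily_orbit stabμ
  have hcard : (orbit l).card = (orbit μ).card :=
    Nat.eq_of_mul_eq_mul_right Nat.card_pos ((card_orbit stabl).trans (card_orbit stabμ).symm)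
  have hdis : Disjoint (orbit l) (orbit μ) := by
    rw [Finset.disjoint_left]
    intro u hu hu'
    obtain ⟨n, rfl⟩ := mem_orbit.mp hu
    obtain ⟨n', he⟩ := mem_orbit.mp hu'
    have ho : orderOf μ = orderOf l := by rw [← orderOf_act n' μ, he, orderOf_act]
    obtain ⟨k, hk⟩ := IsPGroup.iff_card.mp T.2
    have hdvd : orderOf l ∣ t ^ k := orderOf_dvd_of_pow_eq_one (MonoidHom.ext fun v => by
      show l v ^ (t ^ k) = 1
      rw [← map_pow, ← hk, pow_card_eq_one', map_one])
    obtain ⟨j, -, hj⟩ := (Nat.dvd_prime_pow ht.out).mp hdvd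
    have hl1 : l ≠ 1 := fun e => by
      obtain ⟨w, hw, hwC⟩ := h.exists_moving
      exact hwC (stabl ⟨w, hw⟩ (by rw [e]; exact act_eq_one _))
    rcases Nat.eq_zero_or_pos j with rfl | hj0
    · exact hl1 (orderOf_eq_one_iff.mp hj)
    · have h1 : ∀ v, μ v ^ (t ^ (j - 1)) = 1 := fun v => by
        show (l v ^ t) ^ (t ^ (j - 1)) = 1
        rw [← pow_mul, ← pow_succ', Nat.sub_add_cancel hj0, ← hj]
        exact DFunLike.congr_fun (pow_orderOf_eq_one l) v
      have : orderOf μ ∣ t ^ (j - 1) := orderOf_dvd_of_pow_eq_one (MonoidHom.ext h1)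
      rw [ho, hj, Nat.pow_dvd_pow_iff_le_right ht.out.one_lt] at this
      omega
  -- the virtual character
  have hsT : ∀ v ∈ (T : Subgroup G), v ≠ 1 → Group.IsSolvable (centralizer ({v} : Set G)) := by
    intro v _ hv
    refine h.simpleOdd.2.2.2 _ fun htop => ?_
    haveI := h.simpleOdd.2.1
    have hvc : v ∈ Subgroup.center G := mem_center_iff.mpr fun a =>
      mem_centralizer_singleton_iff.mp (htop.ge (mem_top a))
    rcases (inferInstance : (Subgroup.center G).Normal).eq_bot_or_eq_top with hb | ht'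
    · exact hv (mem_bot.mp (hb ▸ hvc))
    · exact h.simpleOdd.2.2.1 ⟨⟨fun a b => mem_center_iff.mp (ht'.ge (mem_top b)) a⟩⟩
  have hsC : Group.IsSolvable CT := by
    haveI := hsT z h.memT fun e => ht.out.ne_one (by rw [← h.order, e, orderOf_one])
    exact Group.isSolvable_of_isSolvable_injective
      (inclusion_injective (centralizer_le (Set.singleton_subset_iff.mpr h.memT) : CT ≤ centralizer ({z} : Set G)))
  set f : G → ℂ := fun g => famSum (orbit l) g - famSum (orbit μ) g with hf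
  set F := lift T f with hF
  have hgen : IsGeneralizedCharacter G F := isGeneralizedCharacter_lift h.comm hsT hfl hfμ hcard
  have hnorm : classInner F F = 2 := by
    have h1 := classInner_lift h.comm hsT hsC hfl hfμ hdis hcard
    rw [← card_orbit stabl, ← hcard] at h1
    have hC0 : (Nat.card CT : ℂ) ≠ 0 := Nat.cast_ne_zero.mpr Nat.card_pos.ne'
    have hS0 : ((orbit l).card : ℂ) ≠ 0 := Nat.cast_ne_zero.mpr
      (Finset.card_ne_zero.mpr ⟨l, mem_orbit.mpr ⟨1, act_one l⟩⟩)
    push_cast at h1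
    refine mul_left_cancel₀ (mul_ne_zero hS0 hC0) (h1.trans ?_)
    ring
  have hinv : Invariant T f := fun n hn v hv => by
    simp only [hf, invariant_famSum hfl.stable n hn v hv, invariant_famSum hfμ.stable n hn v hv]
  have hfT : ∀ v : (T : Subgroup G), f v = (∑ u ∈ orbit l, (u v : ℂ)) - ∑ u ∈ orbit μ, (u v : ℂ) := fun v => by
    simp only [hf, famSum_apply]
  have hf1 : f 1 = 0 := by
    rw [show (1 : G) = ((1 : (T : Subgroup G)) : G) from rfl, hfT]
    simp [hcard]
  -- the `q'`-part of `C(Q)`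
  set C₀ := core q CQ with hC₀
  have hQC : (Q : Subgroup G) ≤ CQ := fun a ha => mem_centralizer_iff.mpr fun b hb =>
    congrArg Subtype.val (h.commQ.is_comm.comm (⟨b, hb⟩ : (Q : Subgroup G)) ⟨a, ha⟩)
  have hCQs : Group.IsSolvable CQ := h.simpleOdd.2.2.2 _ fun htop =>
    h.coatom.1 (eq_top_iff.mpr (htop ▸ h.centralizer_le_M))
  have hC₀M : C₀ ≤ M := (core_le CQ).trans h.centralizer_le_M
  have hreg : ∀ x : G, Block.IsPElem t x → ¬ q ∣ orderOf x := by
    rintro x ⟨k, hk⟩ hd
    rw [hk] at hd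
    exact h.lt.ne' ((Nat.prime_dvd_prime_iff_eq hq.out ht.out).mp (hq.out.dvd_of_dvd_pow hd))
  have hT₀ : ∀ x ∈ (T : Subgroup G), x ∈ CQ → x ∈ C₀ := fun x hx hxQ =>
    mem_core_of_centralizes h.commQ hCQs hQC hxQ (hreg x (Block.isPElem_of_mem T.2 hx))
      fun a ha => mem_centralizer_iff.mp hxQ a ha
  obtain ⟨π, hπT, hπreg, hπconj, hπker⟩ := exists_retraction T h.le h.comm h.fused
  let ι : C₀ →* M := inclusion hC₀M
  -- values on `C₀`
  have hdec : ∀ g : C₀, (π (ι g) : G) ∈ CQ ∧ F g = f (π (ι g)) := by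
    rintro ⟨g, hg⟩
    obtain ⟨x, hx⟩ := Block.exists_isPPart (p := t) g
    obtain ⟨b, hxb, hcxb, hxe, hbe⟩ := id hx
    have hxQ : x ∈ CQ := by
      obtain ⟨i, hi⟩ := mem_zpowers_iff.mp (Block.IsPPart.mem_zpowers hx)
      exact hi ▸ zpow_mem (core_le CQ hg) i
    obtain ⟨m, hm, hmT, hmQ⟩ := h.exists_conj_mem hxe hxQ
    set τ := m * x * m⁻¹ with hτ
    set b' := m * b * m⁻¹ with hb'
    have hbM : b ∈ M := by
      rw [show b = x⁻¹ * g by rw [← hxb, inv_mul_cancel_left]]
      exact mul_mem (inv_mem (h.centralizer_le_M hxQ)) (hC₀M hg)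
    have hb'M : b' ∈ M := mul_mem (mul_mem hm hbM) (inv_mem hm)
    have hb'e : ¬ t ∣ orderOf b' := by rwa [hb', Block.orderOf_conj_eq]
    have hcτ : Commute τ b' := hcxb.map (MulAut.conj m).toMonoidHom
    have hπb : π ⟨b', hb'M⟩ = 1 := hπreg _ (by rwa [Subgroup.orderOf_mk])
    have hgM : (⟨g, hC₀M hg⟩ : M) = ⟨m, hm⟩⁻¹ * (⟨τ, h.le hmT⟩ * ⟨b', hb'M⟩) * ⟨m, hm⟩ := by
      refine Subtype.ext ?_
      show g = m⁻¹ * (m * x * m⁻¹ * (m * b * m⁻¹)) * m
      rw [← hxb]; group
    have hπg : π (ι ⟨g, hg⟩) = ⟨τ, hmT⟩ := by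
      show π ⟨g, hC₀M hg⟩ = _
      have := hπconj (⟨τ, h.le hmT⟩ * ⟨b', hb'M⟩) (⟨m, hm⟩ : M)⁻¹
      rw [inv_inv] at this
      rw [hgM, this, map_mul, hπb, mul_one, hπT τ hmT]
    refine ⟨by rw [hπg]; exact hmQ, ?_⟩
    rw [hπg]
    show F g = f τ
    have hFc := isClassFunction_lift h.comm hinv g m
    rw [← hF] at hFc
    rw [← hFc, show m * g * m⁻¹ = τ * b' by rw [← hxb, hτ, hb']; group, hF,
      lift_mul h.comm hinv hf1 hmT hb'e hcτ]
    by_cases hτ1 : τ = 1
    · rw [hτ1, hf1, ite_self]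
    refine if_pos ?_
    -- `C(τ) ≤ M`
    have hτM : centralizer ({τ} : Set G) ≤ M := by
      obtain ⟨k, hk⟩ := IsPGroup.iff_orderOf.mp T.2 ⟨τ, hmT⟩
      rw [Subgroup.orderOf_mk] at hk
      rcases k with - | k
      · exact absurd (orderOf_eq_one_iff.mp (by rwa [pow_zero] at hk)) hτ1
      have ho : orderOf (τ ^ t ^ k) = t := by
        rw [orderOf_pow_of_dvd (pow_ne_zero _ ht.out.ne_zero) (hk ▸ pow_dvd_pow t k.le_succ), hk, pow_succ,
          Nat.mul_div_cancel_left _ (pow_pos ht.out.pos k)]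
      have hmem := h.zpowers_eq (pow_mem hmT _) (pow_mem hmQ (t ^ k)) (by
        conv_lhs => rw [← ho]
        rw [ho]; exact orderOf_dvd_iff_pow_eq_one.mp ho.dvd)
      have heq : zpowers (τ ^ t ^ k) = zpowers z := eq_of_le_of_card_ge (zpowers_le.mpr hmem)
        (by rw [Nat.card_zpowers, Nat.card_zpowers, ho, h.order])
      intro a ha
      refine h.norm (centralizer_le_normalizer _ ?_)
      rw [← heq]
      refine mem_centralizer_iff.mpr fun c hc => ?_
      obtain ⟨i, rfl⟩ := mem_zpowers_iff.mp hc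
      exact ((Commute.pow_right (mem_centralizer_singleton_iff.mp ha) _).zpow_right i).symm.eq
    refine le_core (N := π.ker.map M.subtype ⊓ centralizer ({τ} : Set G)) inf_le_right (fun a ha => ?_) ?_
      ⟨⟨⟨b', hb'M⟩, MonoidHom.mem_ker.mpr hπb, rfl⟩, mem_centralizer_singleton_iff.mpr hcτ.symm.eq⟩
    · have h1 : M ≤ normalizer (π.ker.map M.subtype : Set G) := by
        refine le_trans ?_ (le_normalizer_map M.subtype)
        rw [normalizer_eq_top, ← MonoidHom.range_eq_map, range_subtype]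
      exact mem_normalizer_iff.mpr fun c => and_congr (mem_normalizer_iff.mp (h1 (hτM ha)) c)
        (mem_normalizer_iff.mp (le_normalizer ha) c)
    · exact hπker.coprime_dvd_left ((card_dvd_of_le inf_le_left).trans
        (card_map_of_injective M.subtype_injective).dvd)
  -- twists
  let res : ((T : Subgroup G) →* ℂˣ) → (C₀ →* ℂˣ) := fun u => u.comp (π.comp ι)
  have hresT : ∀ (u : (T : Subgroup G) →* ℂˣ) (v : (T : Subgroup G)) (hv : (v : G) ∈ CQ), res u ⟨v, hT₀ v v.2 hv⟩ = u v := fun u v hv => congrArg u (hπT v v.2)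
  have htw : ∀ ν : C₀ →* ℂˣ, CentralCongr.twist C₀ F ν = (Fintype.card C₀ : ℂ) *
      ((((orbit l).filter fun u => res u = ν).card : ℂ) - ((orbit μ).filter fun u => res u = ν).card) := by
    intro ν
    have hone : ∀ u, ∑ g : C₀, (u (π (ι g)) : ℂ) * ((ν g⁻¹ : ℂˣ) : ℂ) =
        if res u = ν then (Fintype.card C₀ : ℂ) else 0 := by
      intro u
      have h1 := sum_hom_units ((Units.coeHom ℂ).comp (res u * ν⁻¹))
      rw [Nat.cast_ite, Nat.cast_zero] at h1
      refine (Finset.sum_congr rfl fun g _ => ?_).trans (h1.trans (if_congr ?_ rfl rfl))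
      · simp [res, map_inv]
      · constructor
        · intro h2
          refine MonoidHom.ext fun g => ?_
          have h3 : (((res u * ν⁻¹) g : ℂˣ) : ℂ) = ((1 : ℂˣ) : ℂ) := DFunLike.congr_fun h2 g
          have := Units.ext h3
          rwa [MonoidHom.mul_apply, MonoidHom.inv_apply, mul_inv_eq_one] at this
        · rintro rfl
          ext g
          simp
    simp only [CentralCongr.twist]
    rw [Finset.sum_congr rfl fun g _ => by rw [(hdec g).2, hfT, sub_mul, Finset.sum_mul, Finset.sum_mul],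
      Finset.sum_sub_distrib, Finset.sum_comm,
      Finset.sum_comm (t := orbit μ), Finset.sum_congr rfl fun u _ => hone u,
      Finset.sum_congr (s₁ := orbit μ) rfl fun u _ => hone u, ← Finset.sum_filter, ← Finset.sum_filter,
      Finset.sum_const, Finset.sum_const, nsmul_eq_mul, nsmul_eq_mul]
    ring
  obtain ⟨a, b, ha, hb, hab⟩ := h.exists_two hl
  obtain ⟨P, hP⟩ := Block.exists_isPModular hq.out
  haveI : P.IsPrime := hP.2.1.isPrime
  haveI := Block.resField_charP hP
  have hqC : ¬ q ∣ Fintype.card C₀ := by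
    rw [← Nat.card_eq_fintype_card]
    exact (hq.out.coprime_iff_not_dvd).mp (card_core_coprime CQ).symm
  have hnz : ∀ k : ℕ, 1 ≤ k → k ≤ t → Block.redC P ((Fintype.card C₀ : ℂ) * (k : ℂ)) ≠ 0 := by
    intro k h1 h2
    rw [← Nat.cast_mul, Block.redC_natCast, Ne, CharP.cast_eq_zero_iff (Block.ResField P) q]
    intro hd
    rcases hq.out.dvd_mul.mp hd with h3 | h3
    · exact hqC h3
    · exact absurd (Nat.le_of_dvd (by omega) h3) (by have := h.lt; omega)
  -- a moved translate of `l` meets no translate of `μ`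
  have hA : ∀ n : N, (n : G) ∉ CT → Block.redC P (CentralCongr.twist C₀ F (res (act n l))) ≠ 0 := by
    intro n hn
    have h0 : ((orbit μ).filter fun u => res u = res (act n l)) = ∅ := by
      refine Finset.filter_eq_empty_iff.mpr fun u hu he => ?_
      obtain ⟨m, rfl⟩ := mem_orbit.mp hu
      have h1 := DFunLike.congr_fun he ⟨z, hT₀ z h.memT h.memQ⟩
      rw [show res (act m μ) ⟨z, _⟩ = act m μ zT from hresT _ zT h.memQ,
        show res (act n l) ⟨z, _⟩ = act n l zT from hresT _ zT h.memQ] at h1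
      refine hn ((h.act_eq_one_iff hl n).mp ?_)
      rw [← h1, hμ, act_pow]
      show act m l zT ^ t = 1
      rw [← map_pow, show zT ^ t = 1 from Subtype.ext (h.order ▸ pow_orderOf_eq_one z), map_one]
    rw [htw, h0, Finset.card_empty, Nat.cast_zero, sub_zero]
    refine hnz _ (Finset.card_pos.mpr ⟨act n l, Finset.mem_filter.mpr ⟨mem_orbit.mpr ⟨n, rfl⟩, rfl⟩⟩) ?_
    refine h.card_le hl l (act n l zT) fun u hu => ?_
    obtain ⟨hu1, hu2⟩ := Finset.mem_filter.mp hu
    obtain ⟨m, rfl⟩ := mem_orbit.mp hu1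
    refine ⟨m, rfl, ?_⟩
    rw [← hresT (act m l) zT h.memQ, hu2, hresT _ zT h.memQ]
  have hB : Block.redC P (CentralCongr.twist C₀ F (res (act a μ))) ≠ 0 := by
    have h0 : ((orbit l).filter fun u => res u = res (act a μ)) = ∅ := by
      refine Finset.filter_eq_empty_iff.mpr fun u hu he => ?_
      obtain ⟨m, rfl⟩ := mem_orbit.mp hu
      have h1 : act m l zT = act a μ zT := by rw [← hresT (act m l) zT h.memQ, he, hresT _ zT h.memQ]
      have h2 : (m : G) ∈ CT := by
        refine (h.act_eq_one_iff hl m).mp ?_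
        rw [h1, hμ, act_pow]
        show act a l zT ^ t = 1
        rw [← map_pow, show zT ^ t = 1 from Subtype.ext (h.order ▸ pow_orderOf_eq_one z), map_one]
      refine ha ((h.act_eq_one_iff hl a).mp ?_)
      rw [← hval, ← hresT (act a μ) y hyQ, ← he, hresT _ y hyQ, act_eq_of_centralizer h2]
      exact (hl y).mpr hyQ
    rw [htw, h0, Finset.card_empty, Nat.cast_zero, zero_sub, mul_neg]
    intro h3
    set k := ((orbit μ).filter fun u => res u = res (act a μ)).card with hk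
    refine hnz k (Finset.card_pos.mpr ⟨act a μ, Finset.mem_filter.mpr ⟨mem_orbit.mpr ⟨a, rfl⟩, rfl⟩⟩) ?_ ?_
    · refine h.card_le hl μ (act a l zT) fun u hu => ?_
      obtain ⟨hu1, hu2⟩ := Finset.mem_filter.mp hu
      obtain ⟨m, rfl⟩ := mem_orbit.mp hu1
      refine ⟨m, rfl, ?_⟩
      rw [← hval, ← hval, ← hresT (act m μ) y hyQ, hu2, hresT _ y hyQ]
    · rw [← neg_neg ((Fintype.card C₀ : ℂ) * (k : ℂ)), ← zero_sub,
        Block.redC_sub (zero_mem _) (neg_mem (mul_mem (natCast_mem _ _) (natCast_mem _ _))), h3,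
        Block.redC_zero, sub_zero]
  -- a generator
  haveI := h.cyc
  obtain ⟨s₀, hs₀⟩ := IsCyclic.exists_generator (α := ↥((T : Subgroup G) ⊓ CQ))
  set s : C₀ := ⟨s₀, hT₀ s₀ s₀.2.1 s₀.2.2⟩ with hs
  have hdet : ∀ u v, res u s = res v s → ∀ (x : (T : Subgroup G)) (hx : (x : G) ∈ CQ), u x = v x := by
    intro u v huv x hx
    obtain ⟨i, hi⟩ := mem_zpowers_iff.mp (hs₀ ⟨x, x.2, hx⟩)
    have hx' : (⟨x, hT₀ x x.2 hx⟩ : C₀) = s ^ i := Subtype.ext (by
      have := congrArg Subtype.val hi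
      simp only [Subgroup.coe_zpow] at this ⊢
      exact this.symm)
    rw [← hresT u x hx, ← hresT v x hx, hx', map_zpow, map_zpow, huv]
  let ν : Fin 3 → (C₀ →* ℂˣ) := ![res (act a l), res (act b l), res (act a μ)]
  have hμz : ∀ n : N, act n μ zT = 1 := fun n => by
    rw [hμ, act_pow]
    show act n l zT ^ t = 1
    rw [← map_pow, show zT ^ t = 1 from Subtype.ext (h.order ▸ pow_orderOf_eq_one z), map_one]
  have hne : ∀ n : N, (n : G) ∉ CT → act n l zT ≠ 1 := fun n hn e => hn ((h.act_eq_one_iff hl n).mp e)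
  have hinj : Function.Injective fun i => ν i s := by
    have d1 : res (act a l) s ≠ res (act b l) s := fun e => hab (hdet _ _ e zT h.memQ)
    have d2 : res (act a l) s ≠ res (act a μ) s := fun e => hne a ha ((hdet _ _ e zT h.memQ).trans (hμz a))
    have d3 : res (act b l) s ≠ res (act a μ) s := fun e => hne b hb ((hdet _ _ e zT h.memQ).trans (hμz a))
    intro i j hij
    fin_cases i <;> fin_cases j <;> first | rfl | (exfalso; simp [ν] at hij; tauto)
  have hidx : ¬ q ∣ (centralizer ({(s : G)} : Set G)).index := fun hd =>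
    Q.not_dvd_index (hd.trans (index_dvd_of_le fun v hv => mem_centralizer_singleton_iff.mpr
      (mem_centralizer_iff.mp s₀.2.2 v hv)))
  have hcl : ∀ x ∈ CQ, IsConj x (s : G) → ∃ hx : x ∈ C₀, ∀ i, ν i ⟨x, hx⟩ = ν i s := by
    intro x hx hxs
    have hsT' : Block.IsPElem t (s : G) := Block.isPElem_of_mem T.2 s₀.2.1
    have hxe : Block.IsPElem t x := by
      obtain ⟨k, hk⟩ := hsT'
      exact ⟨k, by rwa [← Block.orderOf_of_isConj hxs]⟩
    have hx0 : x ∈ C₀ := mem_core_of_centralizes h.commQ hCQs hQC hx (hreg x hxe)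
      fun v hv => mem_centralizer_iff.mp hx v hv
    obtain ⟨m, hm, hmT, hmQ⟩ := h.exists_conj_mem hxe hx
    set τ := m * x * m⁻¹
    obtain ⟨g, hg⟩ := isConj_iff.mp hxs
    have hτs : τ = s₀ := by
      have hgs : (g * m⁻¹)⁻¹ * (s₀ : G) * (g * m⁻¹) = τ := by
        rw [show (s₀ : G) = g * x * g⁻¹ from hg.symm]; simp [τ, mul_assoc]
      obtain ⟨n, hn, hne'⟩ := Sylow.conj_eq_normalizer_conj_of_mem T (_hP := h.comm) (s₀ : G) (g * m⁻¹) s₀.2.1
        (by rw [hgs]; exact hmT)
      rw [hgs] at hne'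
      obtain ⟨i, hi⟩ := mem_zpowers_iff.mp (hs₀ ⟨z, h.memT, h.memQ⟩)
      have hi' : (s₀ : G) ^ i = z := by
        have := congrArg Subtype.val hi
        simpa only [Subgroup.coe_zpow] using this
      have hnC : n ∈ CT := h.mem_centralizer_T hn (by
        rw [← hi']
        have := conj_zpow (i := i) (a := n⁻¹) (b := (s₀ : G))
        rw [inv_inv] at this
        rw [← this, ← hne']
        exact Subgroup.zpow_mem _ hmQ i)
      rw [hne', mul_assoc, mem_centralizer_iff.mp hnC _ s₀.2.1, inv_mul_cancel_left]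
    have hπx : π (ι ⟨x, hx0⟩) = π (ι s) := by
      have h1 : π (⟨m, hm⟩ * ι ⟨x, hx0⟩ * (⟨m, hm⟩ : M)⁻¹) = π (ι ⟨x, hx0⟩) := hπconj _ _
      rw [← h1]
      exact congrArg π (Subtype.ext hτs)
    refine ⟨hx0, fun i => ?_⟩
    have hu : ∀ u, res u ⟨x, hx0⟩ = res u s := fun u => congrArg u hπx
    fin_cases i <;> exact hu _
  have hqn : ¬ q ∣ orderOf s := by
    rw [← Subgroup.orderOf_coe]
    exact hreg _ (Block.isPElem_of_mem T.2 s₀.2.1)
  refine CentralCongr.false_of_three hP Q.2 (core_le CQ) s hqn (pow_orderOf_eq_one s) hidx ν hcl hinj hgen hnorm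
    fun i => ?_
  fin_cases i
  · exact hA a ha
  · exact hA b hb
  · exact hB

/-- Every element of order `t` in the kernel is a `t`-th power there. -/
theorem Config.exists_root (h : Config M T Q z) :
    ∃ y : (T : Subgroup G), (y : G) ∈ centralizer ((Q : Subgroup G) : Set G) ∧ (y : G) ^ t = z := by
  set A := (T : Subgroup G) ⊓ centralizer ((Q : Subgroup G) : Set G)
  haveI := h.cyc
  obtain ⟨s, hs⟩ := IsCyclic.exists_generator (α := A)
  obtain ⟨i, hi⟩ := mem_zpowers_iff.mp (hs ⟨z, h.memT, h.memQ⟩)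
  have hord : orderOf s = Nat.card A := orderOf_eq_card_of_forall_mem_zpowers hs
  have hti : (t : ℤ) ∣ i := by
    have h1 : s ^ (i * t) = 1 := by
      rw [zpow_mul, hi, zpow_natCast]
      exact Subtype.ext (h.order ▸ pow_orderOf_eq_one z)
    have h2 : ((t ^ 2 : ℕ) : ℤ) ∣ i * t := (Int.natCast_dvd_natCast.mpr (hord ▸ h.sq_dvd)).trans
      (orderOf_dvd_iff_zpow_eq_one.mpr h1)
    rw [Nat.cast_pow, pow_two] at h2
    exact (mul_dvd_mul_iff_right (by exact_mod_cast ht.out.ne_zero)).mp h2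
  obtain ⟨j, rfl⟩ := hti
  refine ⟨⟨(s : G) ^ j, Subgroup.zpow_mem _ s.2.1 j⟩, Subgroup.zpow_mem _ s.2.2 j, ?_⟩
  have h1 := congrArg Subtype.val hi
  simp only [Subgroup.coe_zpow] at h1
  show ((s : G) ^ j) ^ t = z
  rw [← zpow_natCast, ← zpow_mul, mul_comm]
  exact h1

/-- No configuration with cyclic image exists. -/
theorem Config.no_config (h : Config M T Q z) (l : (T : Subgroup G) →* ℂˣ)
    (hl : ∀ v : (T : Subgroup G), l v = 1 ↔ (v : G) ∈ centralizer ((Q : Subgroup G) : Set G)) : False := by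
  obtain ⟨y, hyQ, hy⟩ := h.exists_root
  exact h.false l hl hyQ hy

end Cfsg.Agent.Lib.OddTypes.BlockGap
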