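import Cfsg.Agent.Lib.OddTypes.Types

/-! What each type says about a standard factorisation. -/

set_option autoImplicit false

namespace Cfsg.Agent.Lib.OddTypes

open Subgroup Cfsg
open scoped Pointwise commutatorElement

universe u

variable {G : Type u} [Group G] [Finite G] {M N K U A B X W₁ W₂ V : Subgroup G}

omit [Finite G] in
/-- Conjugation moves normalizers. -/
theorem normalizer_le_of_conj {x : G} (hx : x ∈ M) (h : MulAut.conj x • U = V)
    (hV : normalizer (V : Set G) ≤ M) : normalizer (U : Set G) ≤ M := by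
  intro g hg
  have hmem : ∀ y : G, y ∈ V ↔ x⁻¹ * y * x ∈ U := fun y => by
    rw [← h, Subgroup.mem_pointwise_smul_iff_inv_smul_mem]
    simp [MulAut.smul_def]
  have h' : x * g * x⁻¹ ∈ normalizer (V : Set G) := by
    rw [mem_normalizer_iff]
    intro y
    rw [hmem, hmem, show x⁻¹ * (x * g * x⁻¹ * y * (x * g * x⁻¹)⁻¹) * x = g * (x⁻¹ * y * x) * g⁻¹ by group]
    exact mem_normalizer_iff.mp hg _
  have := M.mul_mem (M.mul_mem (M.inv_mem hx) (hV h')) hx
  simpa [mul_assoc] using this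

theorem solvable_derived (hG : IsMinSimpleOddOrder G) (hM : IsCoatom M) : Group.IsSolvable ↥⁅M, M⁆ :=
  hG.2.2.2 _ fun h => hM.1 (top_le_iff.mp (h ▸ commutator_le_self M))

/-- `M = U M_σ` when `K = 1`. -/
theorem eq_sup_of_trivial_K (hKU : IsSigmaDecomposition M K U) (hK : K = ⊥) : M = U ⊔ sigmaCore M := by
  refine le_antisymm (fun m hm => ?_) (sup_le hKU.compl.1 (map_subtype_le _))
  obtain ⟨u, hu, s, hs, rfl⟩ := hKU.compl.2.2.2 m hm
  rw [hK, bot_sup_eq] at hs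
  exact mul_mem_sup hu hs

theorem ne_sigmaCore (hG : IsMinSimpleOddOrder G) (hM : IsCoatom M) : ¬ M ≤ sigmaCore M := fun h =>
  (derived_lt hG hM).not_ge (h.trans (Uniq.sigmaCore_le_derived hG hM))

/-- `K = 1`, `U ≠ 1` gives Frobenius type. -/
theorem typeF_of (hG : IsMinSimpleOddOrder G) (hM : IsCoatom M)
    (hKU : IsSigmaDecomposition M K U) (hK : K = ⊥) (hU : U ≠ ⊥) : IsOfTypeF M :=
  isOfTypeF_sup hG hM hKU hU (eq_sup_of_trivial_K hKU hK) (fcore_eq_of_U hG hM hKU hU)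

theorem U_ne_of_trivial_K (hG : IsMinSimpleOddOrder G) (hM : IsCoatom M)
    (hKU : IsSigmaDecomposition M K U) (hK : K = ⊥) : U ≠ ⊥ := fun hU =>
  ne_sigmaCore hG hM ((eq_sup_of_trivial_K hKU hK).le.trans (by rw [hU, bot_sup_eq]))

/-- Frobenius type gives `K = 1`. -/
theorem K_eq_bot_of_typeF (hG : IsMinSimpleOddOrder G) (hM : IsCoatom M)
    (hKU : IsSigmaDecomposition M K U) (hF : IsOfTypeF M) : K = ⊥ := by
  by_contra hK
  haveI := solvable hG hM
  obtain ⟨w, hw, hw1⟩ :=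
    (bot_or_exists_ne_one _).resolve_left (Uniq.star_ne_bot hG hM hKU.hall hK)
  exact not_typeF_of_fixed hF hKU.hall.1 (kappa_hall_coprime hKU) hK
    ((derived_coprime hG hM hKU hK).symm.coprime_dvd_right (card_dvd_of_le (fcore_le_derived hG hM)))
    (star_le_fcore hG hM hKU hK hw).1 hw1 fun a ha => mem_centralizer_iff.mp hw.2 a ha

theorem typeI_imp (hG : IsMinSimpleOddOrder G) (hM : IsCoatom M)
    (hKU : IsSigmaDecomposition M K U) (h : IsOfTypeI M) : K = ⊥ ∧ U ≠ ⊥ :=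
  ⟨K_eq_bot_of_typeF hG hM hKU h.1, U_ne_of_trivial_K hG hM hKU (K_eq_bot_of_typeF hG hM hKU h.1)⟩

theorem typeP_imp (hG : IsMinSimpleOddOrder G) (hM : IsCoatom M)
    (hKU : IsSigmaDecomposition M K U) (h : IsTypePWith M W₁ V W₂) : K ≠ ⊥ := fun hK =>
  not_typeF_of_typeP hG hM h (typeF_of hG hM hKU hK (U_ne_of_trivial_K hG hM hKU hK))

theorem typeII_imp (hG : IsMinSimpleOddOrder G) (hM : IsCoatom M)
    (hKU : IsSigmaDecomposition M K U) (h : IsOfTypeII M) : K ≠ ⊥ ∧ U ≠ ⊥ := by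
  obtain ⟨W₁, V, W₂, hP, hV, -, -, -, hN, -, -⟩ := h
  have hK := typeP_imp hG hM hKU hP
  exact ⟨hK, fun hU => hN (normalizer_le_of_trivial_U hG hM hKU hK hU hP.U_compl hP.U_nilpotent hV)⟩

theorem typeIII_IV_imp_aux (hG : IsMinSimpleOddOrder G) (hM : IsCoatom M)
    (hKU : IsSigmaDecomposition M K U) (hP : IsTypePWith M W₁ V W₂) (hV : V ≠ ⊥)
    (hN : normalizer (V : Set G) ≤ M) : K ≠ ⊥ ∧ U = ⊥ ∧ fittingHallOf M ≠ sigmaCore M := by
  have hK := typeP_imp hG hM hKU hP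
  have hD := OddLocal.Decomposition.derived_eq hG hM hKU hK
  have hU : U = ⊥ := by
    by_contra hU
    haveI := solvable_derived hG hM
    have hF := fcore_eq_of_U hG hM hKU hU
    have hUc := OddLocal.card_compl (U_compl hG hM hKU)
    rw [← hD] at hUc
    have hVc := OddLocal.card_compl hP.U_compl
    rw [hF] at hVc
    obtain ⟨x, hx, hxU⟩ := conj_of_compl (X := ⁅M, M⁆) (Uniq.sigmaCore_le_derived hG hM)
      ((commutator_le_self M).trans (OddLocal.le_normalizer_piCoreOf (sigma M) M))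
      (hUc ▸ U_coprime hG hM hKU) (hD ▸ le_sup_left) hP.U_compl.2.1 hUc hVc
    exact (S1363.result hG M hM K U hKU hK).2 (normalizer_le_of_conj (commutator_le_self M hx) hxU hN)
  refine ⟨hK, hU, fun hF => hV (le_bot_iff.mp ?_)⟩
  rw [← hP.U_compl.2.2.1]
  refine le_inf ?_ le_rfl
  rw [hF]
  refine hP.U_compl.2.1.trans ?_
  rw [hD, hU, bot_sup_eq]

theorem typeIII_IV_imp (hG : IsMinSimpleOddOrder G) (hM : IsCoatom M)
    (hKU : IsSigmaDecomposition M K U) (h : IsOfTypeIII M ∨ IsOfTypeIV M) :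
    K ≠ ⊥ ∧ U = ⊥ ∧ fittingHallOf M ≠ sigmaCore M := by
  rcases h with ⟨W₁, V, W₂, hP, hV, -, -, -, hN⟩ | ⟨W₁, V, W₂, hP, hV, -, -, -, hN⟩ <;>
    exact typeIII_IV_imp_aux hG hM hKU hP hV hN

theorem typeV_imp (hG : IsMinSimpleOddOrder G) (hM : IsCoatom M)
    (hKU : IsSigmaDecomposition M K U) (h : IsOfTypeV M) :
    K ≠ ⊥ ∧ U = ⊥ ∧ fittingHallOf M = sigmaCore M := by
  obtain ⟨W₁, V, W₂, hP, rfl, -⟩ := h
  have hK := typeP_imp hG hM hKU hP
  have hD := OddLocal.Decomposition.derived_eq hG hM hKU hK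
  have hle : ⁅M, M⁆ ≤ fittingHallOf M := fun x hx => by
    obtain ⟨a, ha, b, hb, rfl⟩ := hP.U_compl.2.2.2 x hx
    rwa [mem_bot.mp hb, mul_one]
  have hFσ : fittingHallOf M = sigmaCore M := le_antisymm
    (OddLocal.Signalizer.fittingHallOf_le_sigmaCore hG hM) ((Uniq.sigmaCore_le_derived hG hM).trans hle)
  refine ⟨hK, le_bot_iff.mp ?_, hFσ⟩
  rw [← (U_compl hG hM hKU).2.2.1]
  refine le_inf ?_ le_rfl
  rw [← hFσ]
  exact le_trans (hD ▸ le_sup_left) hle

/-- `M_s = M_σ` for every maximal subgroup. -/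
theorem typeCore_eq (hG : IsMinSimpleOddOrder G) (hM : IsCoatom M) : typeCore M = sigmaCore M := by
  obtain ⟨K, U, hKU⟩ := exists_KU hG hM
  unfold typeCore
  split_ifs with h
  · obtain ⟨hK, hU, -⟩ := typeIII_IV_imp hG hM hKU h
    rw [OddLocal.Decomposition.derived_eq hG hM hKU hK, hU, bot_sup_eq]
  · by_contra hne
    have hU := (S1357.result hG M hM K U hKU hne).1
    refine h (typeIII_IV_of hG hM hKU (fun hK => U_ne_of_trivial_K hG hM hKU hK hU) hne)

theorem fcore_le_sigmaCore (hG : IsMinSimpleOddOrder G) (hM : IsCoatom M) :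
    fittingHallOf M ≤ sigmaCore M :=
  OddLocal.Signalizer.fittingHallOf_le_sigmaCore hG hM

/-- `M_F` is a Hall subgroup of `G`. -/
theorem fcore_coprime_index (hG : IsMinSimpleOddOrder G) (hM : IsCoatom M) :
    (Nat.card (fittingHallOf M)).Coprime (fittingHallOf M).index := by
  refine Nat.coprime_of_dvd fun p hp h1 h2 => ?_
  haveI := Fact.mk hp
  have hσ : p ∈ sigma M := OddLocal.piCoreOf_isPi (sigma M) M p hp
    (h1.trans (card_dvd_of_le (fcore_le_sigmaCore hG hM)))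
  rw [← relIndex_mul_index (fcore_le_sigmaCore hG hM)] at h2
  rcases hp.dvd_mul.mp h2 with h | h
  · have hd : (fittingHallOf M).relIndex (sigmaCore M) ∣ (fittingHallOf M).relIndex M :=
      Dvd.intro _ (relIndex_mul_relIndex _ _ _ (fcore_le_sigmaCore hG hM) (map_subtype_le _))
    exact hp.ne_one (Nat.eq_one_of_dvd_coprimes (OddLocal.coprime_fittingHallOf_relIndex M) h1 (h.trans hd))
  · exact (Uniq.sigmaCore_hall hG hM hσ).2 h

/-- `M_σ` is a Hall subgroup of `G`. -/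
theorem sigmaCore_coprime_index (hG : IsMinSimpleOddOrder G) (hM : IsCoatom M) :
    (Nat.card (sigmaCore M)).Coprime (sigmaCore M).index := by
  refine Nat.coprime_of_dvd fun p hp h1 h2 => ?_
  haveI := Fact.mk hp
  exact (Uniq.sigmaCore_hall hG hM (OddLocal.piCoreOf_isPi (sigma M) M p hp h1)).2 h2

end Cfsg.Agent.Lib.OddTypes
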