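import Cfsg.Agent.Lib.OddTypes.Char

/-! Standard factorisations through a given complement of `M_F`. -/

set_option autoImplicit false

namespace Cfsg.Agent.Lib.OddTypes

open Subgroup Cfsg
open scoped Pointwise commutatorElement

universe u

variable {G : Type u} [Group G] [Finite G] {M K U A B X V : Subgroup G}

/-- A standard factorisation conjugated inside `M`. -/
theorem decomposition_conj (hKU : IsSigmaDecomposition M K U) {x : G} (hx : x ∈ M) :
    IsSigmaDecomposition M (K.map (MulAut.conj x).toMonoidHom) (U.map (MulAut.conj x).toMonoidHom) := by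
  set f := (MulAut.conj x).toMonoidHom with hf
  have hinj : Function.Injective f := (MulAut.conj x).injective
  have hMf : M.map f = M := by
    refine le_antisymm ?_ fun m hm => ⟨x⁻¹ * m * x, M.mul_mem (M.mul_mem (M.inv_mem hx) hm) hx, ?_⟩
    · rintro _ ⟨m, hm, rfl⟩
      exact M.mul_mem (M.mul_mem hx hm) (M.inv_mem hx)
    · show x * (x⁻¹ * m * x) * x⁻¹ = m
      group
  have hσf : (sigmaCore M).map f = sigmaCore M := by
    refine le_antisymm ?_ fun s hs => ⟨x⁻¹ * s * x, ?_, ?_⟩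
    · rintro _ ⟨s, hs, rfl⟩
      exact (mem_normalizer_iff.mp (OddLocal.le_normalizer_piCoreOf (sigma M) M hx) s).mp hs
    · have := (mem_normalizer_iff.mp (OddLocal.le_normalizer_piCoreOf (sigma M) M (M.inv_mem hx)) s).mp hs
      rwa [inv_inv] at this
    · show x * (x⁻¹ * s * x) * x⁻¹ = s
      group
  refine ⟨?_, ⟨?_, ?_, ?_⟩, ⟨?_, ?_, ?_, ?_⟩, ?_⟩
  · haveI := hKU.cyclic
    exact (K.equivMapOfInjective f hinj).isCyclic.mp inferInstance
  · exact (map_mono hKU.hall.1).trans hMf.le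
  · intro p hp hd
    rw [card_map_of_injective hinj] at hd
    exact hKU.hall.2.1 p hp hd
  · intro p hp hκ
    have := hKU.hall.2.2 p hp hκ
    rwa [← relIndex_map_map_of_injective K M hinj, hMf] at this
  · exact (map_mono hKU.compl.1).trans hMf.le
  · rw [← hσf, ← Subgroup.map_sup]; exact (map_mono hKU.compl.2.1).trans hMf.le
  · rw [← hσf, ← Subgroup.map_sup, ← Subgroup.map_inf _ _ _ hinj, hKU.compl.2.2.1, Subgroup.map_bot]
  · intro m hm
    obtain ⟨m', hm', rfl⟩ := hMf.ge hm
    obtain ⟨a, ha, b, hb, rfl⟩ := hKU.compl.2.2.2 m' hm'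
    refine ⟨_, mem_map_of_mem f ha, _, ?_, map_mul f a b⟩
    rw [← hσf, ← Subgroup.map_sup]
    exact mem_map_of_mem f hb
  · exact le_trans (map_mono hKU.normal) (le_normalizer_map f)

/-- A complement of `M_F` in a maximal subgroup of type I is the `U` of a standard factorisation. -/
theorem exists_decomposition_typeI (hG : IsMinSimpleOddOrder G) (hM : IsCoatom M) (hI : IsOfTypeI M)
    (hU : IsComplIn (fittingHallOf M) U M) : ∃ K : Subgroup G, K = ⊥ ∧ IsSigmaDecomposition M K U := by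
  obtain ⟨K, U', hKU⟩ := exists_KU hG hM
  obtain ⟨rfl, hU'⟩ := typeI_imp hG hM hKU hI
  rw [fcore_eq_of_U hG hM hKU hU'] at hU
  refine ⟨⊥, rfl, ⟨inferInstance, hKU.hall, ⟨hU.2.1, sup_le bot_le (map_subtype_le _), ?_, ?_⟩, bot_le⟩⟩
  · rw [bot_sup_eq, inf_comm]; exact hU.2.2.1
  · intro m hm
    obtain ⟨a, ha, b, hb, he⟩ := hU.2.2.2 m⁻¹ (M.inv_mem hm)
    refine ⟨b⁻¹, inv_mem hb, a⁻¹, mem_sup_right (inv_mem ha), ?_⟩
    rw [← mul_inv_rev, ← he, inv_inv]

/-- A complement of `M_F` in `M'` for type II is the `U` of a standard factorisation. -/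
theorem exists_decomposition_typeII (hG : IsMinSimpleOddOrder G) (hM : IsCoatom M) (hII : IsOfTypeII M)
    (hV : IsComplIn (fittingHallOf M) V ⁅M, M⁆) :
    ∃ K : Subgroup G, K ≠ ⊥ ∧ IsSigmaDecomposition M K V := by
  obtain ⟨K, U, hKU⟩ := exists_KU hG hM
  obtain ⟨hK, hU⟩ := typeII_imp hG hM hKU hII
  haveI := solvable_derived hG hM
  have hD := OddLocal.Decomposition.derived_eq hG hM hKU hK
  rw [fcore_eq_of_U hG hM hKU hU] at hV
  have hUc := OddLocal.card_compl (U_compl hG hM hKU)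
  rw [← hD] at hUc
  obtain ⟨x, hx, hxU⟩ := conj_of_compl (X := ⁅M, M⁆) (Uniq.sigmaCore_le_derived hG hM)
    ((commutator_le_self M).trans (OddLocal.le_normalizer_piCoreOf (sigma M) M))
    (hUc ▸ U_coprime hG hM hKU) (hD ▸ le_sup_left) hV.2.1 hUc (OddLocal.card_compl hV)
  refine ⟨K.map (MulAut.conj x).toMonoidHom, fun h => hK ((map_eq_bot_iff_of_injective _
    (MulAut.conj x).injective).mp h), ?_⟩
  rw [← hxU]
  exact decomposition_conj hKU (commutator_le_self M hx)

end Cfsg.Agent.Lib.OddTypes
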