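import Cfsg.Agent.Lib.OddTypes.TypeILine
import Cfsg.Agent.Lib.OddTypes.BlockGap
import Cfsg.Agent.S1417
import Mathlib.RingTheory.ZMod.UnitsCyclic
import Mathlib.RingTheory.RootsOfUnity.Complex

/-!
`κ(M) = ∅`, `M_σ` with nonabelian Sylow `p`-subgroup and not TI: `O_{p'}(M)` is cyclic.
-/

set_option autoImplicit false

namespace Cfsg.Agent.Lib.OddTypes.Gap

open Subgroup Cfsg Cfsg.Agent.Lib Cfsg.Agent.Lib.Uniq
open Cfsg.Agent.Lib.Uniq.SupportCase (Data)
open Cfsg.Agent.Lib.Uniq.SupportCase.Data (sylSub)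
open scoped Pointwise commutatorElement

universe u

section Aux

variable {G : Type u} [Group G] [Finite G]

/-- Conjugation by an element of a cyclic subgroup's normalizer acts as a power. -/
theorem conj_eq_zpow {W : Subgroup G} [IsCyclic W] [Finite W] {g x : G} (hx : x ∈ W) (hgx : g * x * g⁻¹ ∈ W) :
    g * x * g⁻¹ ∈ zpowers x := by
  have h1 : zpowers (g * x * g⁻¹) = zpowers x := OddLocal.eq_of_card_eq_of_le_cyclic (zpowers_le.mpr hgx)
    (zpowers_le.mpr hx) (by rw [Nat.card_zpowers, Nat.card_zpowers]; exact MulEquiv.orderOf_eq (MulAut.conj g) x)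
  exact h1 ▸ mem_zpowers _

/-- A coprime automorphism trivial on a quotient by fixed points is trivial. -/
theorem commute_of_fixed {W : Subgroup G} {g v : G} (hd : g * v * g⁻¹ * v⁻¹ ∈ W)
    (hfix : g * (g * v * g⁻¹ * v⁻¹) * g⁻¹ = g * v * g⁻¹ * v⁻¹) {t : ℕ} [ht : Fact t.Prime] (hW : IsPGroup t W)
    (hg : ¬ t ∣ orderOf g) : g * v = v * g := by
  set d := g * v * g⁻¹ * v⁻¹ with hdd
  have hit : ∀ n : ℕ, g ^ n * v * (g ^ n)⁻¹ = d ^ n * v := by
    intro n
    induction n with
    | zero => simp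
    | succ n ih =>
      calc g ^ (n + 1) * v * (g ^ (n + 1))⁻¹ = g * (g ^ n * v * (g ^ n)⁻¹) * g⁻¹ := by rw [pow_succ']; group
        _ = (g * d ^ n * g⁻¹) * (g * v * g⁻¹) := by rw [ih]; group
        _ = d ^ n * (d * v) := by rw [← conj_pow, hfix]; congr 1; rw [hdd, inv_mul_cancel_right]
        _ = _ := by rw [pow_succ]; exact (mul_assoc _ _ _).symm
  have h1 := hit (orderOf g)
  rw [pow_orderOf_eq_one, one_mul, inv_one, mul_one] at h1
  have hdn : d ^ orderOf g = 1 := right_eq_mul.mp h1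
  obtain ⟨k, hk⟩ := IsPGroup.iff_orderOf.mp hW ⟨d, hd⟩
  rw [Subgroup.orderOf_mk] at hk
  have hd1 : d = 1 := by
    rw [← orderOf_eq_one_iff]
    exact Nat.eq_one_of_dvd_coprimes (((ht.out.coprime_iff_not_dvd).mpr hg).pow_left k) (hk ▸ dvd_rfl)
      (orderOf_dvd_of_pow_eq_one hdn)
  rwa [hdd, mul_inv_eq_one, mul_inv_eq_iff_eq_mul] at hd1

/-- The centralizer of a cyclic `q`-group, `q` odd, in an abelian subgroup normalizing it is the kernel of a
linear character. -/
theorem exists_character {q : ℕ} [hq : Fact q.Prime] (hq2 : q ≠ 2) {T Q : Subgroup G} (hQ : IsPGroup q Q)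
    [IsCyclic Q] (hTQ : T ≤ normalizer (Q : Set G)) :
    ∃ l : T →* ℂˣ, ∀ v : T, l v = 1 ↔ (v : G) ∈ centralizer (Q : Set G) := by
  obtain ⟨n, hn⟩ := IsPGroup.iff_card.mp hQ
  haveI : IsCyclic (ZMod (Nat.card Q))ˣ := by rw [hn]; exact ZMod.isCyclic_units_of_prime_pow q hq.out hq2 n
  haveI : IsCyclic (MulAut Q) := isCyclic_of_surjective _ (IsCyclic.mulAutMulEquiv Q).symm.surjective
  let f : T →* MulAut Q := (MulAut.conjNormal (H := Q.subgroupOf (normalizer (Q : Set G)))).comp (inclusion hTQ) |>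
    fun φ => (MulAut.congr (subgroupOfEquivOfLe le_normalizer)).toMonoidHom.comp φ
  haveI : IsCyclic f.range := inferInstance
  haveI : NeZero (Nat.card f.range) := ⟨Nat.card_pos.ne'⟩
  haveI : IsCyclic (rootsOfUnity (Nat.card f.range) ℂ) := inferInstance
  let e : f.range ≃* rootsOfUnity (Nat.card f.range) ℂ := mulEquivOfCyclicCardEq (Complex.card_rootsOfUnity _).symm
  refine ⟨((rootsOfUnity _ ℂ).subtype.comp e.toMonoidHom).comp f.rangeRestrict, fun v => ?_⟩
  have hval : ∀ a : Q, ((f v a : Q) : G) = (v : G) * a * (v : G)⁻¹ := fun a => rfl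
  simp only [MonoidHom.comp_apply, MulEquiv.coe_toMonoidHom, Subgroup.coe_subtype, OneMemClass.coe_eq_one,
    EmbeddingLike.map_eq_one_iff]
  rw [mem_centralizer_iff]
  constructor
  · intro h a ha
    have h1 : f v = 1 := congrArg Subtype.val h
    have h2 := hval ⟨a, ha⟩
    rw [h1] at h2
    exact (mul_inv_eq_iff_eq_mul.mp h2.symm).symm
  · intro h
    refine Subtype.ext (MulEquiv.ext fun a => Subtype.ext ?_)
    show ((f v a : Q) : G) = a
    rw [hval, ← h a a.2, mul_inv_cancel_right]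

/-- Automorphisms of a cyclic group commute: commutators of normalizing elements centralize it. -/
theorem commutator_centralizes_cyclic {Q : Subgroup G} [IsCyclic Q] {a b : G} (ha : a ∈ normalizer (Q : Set G))
    (hb : b ∈ normalizer (Q : Set G)) : a * b * a⁻¹ * b⁻¹ ∈ centralizer (Q : Set G) := by
  refine mem_centralizer_iff.mpr fun w hw => ?_
  have hpow : ∀ g ∈ normalizer (Q : Set G), ∃ i : ℤ, g * w * g⁻¹ = w ^ i := fun g hg => by
    obtain ⟨i, hi⟩ := mem_zpowers_iff.mp (conj_eq_zpow hw ((mem_normalizer_iff.mp hg w).mp hw))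
    exact ⟨i, hi.symm⟩
  obtain ⟨i, hi⟩ := hpow a⁻¹ (inv_mem ha)
  obtain ⟨j, hj⟩ := hpow b⁻¹ (inv_mem hb)
  rw [inv_inv] at hi hj
  have hi' : ∀ k : ℤ, a⁻¹ * w ^ k * a = w ^ (i * k) := fun k => by
    rw [zpow_mul, ← hi]
    have := conj_zpow (i := k) (a := a⁻¹) (b := w)
    rw [inv_inv] at this
    exact this.symm
  have hj' : ∀ k : ℤ, b⁻¹ * w ^ k * b = w ^ (j * k) := fun k => by
    rw [zpow_mul, ← hj]
    have := conj_zpow (i := k) (a := b⁻¹) (b := w)
    rw [inv_inv] at this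
    exact this.symm
  have e1 : b⁻¹ * (a⁻¹ * w * a) * b = w ^ (j * i) := by rw [hi, hj']
  have e2 : a⁻¹ * (b⁻¹ * w * b) * a = w ^ (i * j) := by rw [hj, hi']
  calc w * (a * b * a⁻¹ * b⁻¹) = a * b * (b⁻¹ * (a⁻¹ * w * a) * b) * a⁻¹ * b⁻¹ := by group
    _ = a * b * (a⁻¹ * (b⁻¹ * w * b) * a) * a⁻¹ * b⁻¹ := by rw [e1, e2, mul_comm i j]
    _ = a * b * a⁻¹ * b⁻¹ * w := by group

/-- Two `t`-elements of a nilpotent subgroup generate a `t`-group. -/
theorem isPGroup_sup_of_nilpotent {F : Subgroup G} (hF : Group.IsNilpotent F) {t : ℕ} [Fact t.Prime] {a b : G}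
    (ha : a ∈ F) (hb : b ∈ F) (hat : a ^ t = 1) (hbt : b ^ t = 1) : IsPGroup t ↥(zpowers a ⊔ zpowers b) := by
  haveI := hF
  haveI : Group.IsNilpotent (⊤ : Subgroup F) := inferInstance
  have hmem : ∀ c : G, ∀ hc : c ∈ F, c ^ t = 1 → (⟨c, hc⟩ : F) ∈ pCore t F := fun c hc hct =>
    OddLocal.Fcore.mem_pCore_of_nilpotent (F := (⊤ : Subgroup F)) (n := 1) inferInstance (mem_top _)
      (Subtype.ext (by simpa using hct))
  refine ((Hall.isPGroup_pCore t).map F.subtype).to_le (sup_le (zpowers_le.mpr ?_) (zpowers_le.mpr ?_))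
  · exact ⟨_, hmem a ha hat, rfl⟩
  · exact ⟨_, hmem b hb hbt, rfl⟩

end Aux

variable {G : Type u} [Group G] [Finite G] {M : Subgroup G} {p : ℕ} {y : G} [hp : Fact p.Prime]

section Main

variable (hG : IsMinSimpleOddOrder G) (h : Data M p y) (hκ : kappa M = ∅) (S : Sylow p ↥(sigmaCore M))
  (hPna : ¬ IsMulCommutative (sylSub S))
include hG h hκ S hPna

/-- An element of prime order outside `σ` of `O_{p'}(M)` centralizes `M_σ`. -/
theorem mem_centralizer_of_prime {t : ℕ} [ht : Fact t.Prime] (htσ : t ∉ sigma M) {x : G}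
    (hx : x ∈ SylowLift.core p M) (hxo : orderOf x = t) : x ∈ centralizer (sigmaCore M : Set G) := by
  refine mem_centralizer_sigmaCore_of_sylows h fun q _ T => ?_
  by_cases hqp : q = p
  · subst hqp
    exact core_le_centralizer_sylow h hx
  by_cases hqd : q ∣ Nat.card (sigmaCore M)
  swap
  · have hb : sylSub T = ⊥ := by
      obtain ⟨k, hk⟩ := IsPGroup.iff_card.mp (T.2.map (sigmaCore M).subtype)
      rcases Nat.eq_zero_or_pos k with rfl | hk0
      · exact eq_bot_of_card_eq _ (by rw [hk, pow_zero])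
      · exact absurd (((dvd_pow_self q hk0.ne').trans hk.symm.dvd).trans (card_dvd_of_le (map_subtype_le _))) hqd
    exact mem_centralizer_iff.mpr fun a ha => by
      have ha' : a ∈ (⊥ : Subgroup G) := hb ▸ ha
      rw [mem_bot.mp ha', one_mul, mul_one]
  refine mem_centralizer_sylow_of_lines hG h T (SylowLift.core_le M hx) ?_ fun z hz hzo =>
    commute_line hG h hκ S hPna htσ hx hxo hqp (map_subtype_le _ hz) hzo
  rw [hxo]
  exact (Nat.coprime_primes ht.out Fact.out).mpr fun e =>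
    htσ (e ▸ OddLocal.piCoreOf_isPi (sigma M) M q Fact.out hqd)

/-- `O_{p'}(M) ∩ C(M_σ)` has only one line for each prime outside `σ`. -/
theorem normalizer_line_le {t : ℕ} [ht : Fact t.Prime] (htσ : t ∉ sigma M) {x : G}
    (hx : x ∈ SylowLift.core p M) (hxo : orderOf x = t) : normalizer (zpowers x : Set G) ≤ M := by
  have hM := h.coatom
  have hxM := SylowLift.core_le M hx
  refine normalizer_line hG hM hxM (fun e => ht.out.ne_one (by rw [← hxo, e, orderOf_one])) fun g hg => ?_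
  set x' := g * x * g⁻¹ with hx'
  have hx'X : x' ∈ SylowLift.core p M := (mem_normalizer_iff.mp (SylowLift.le_normalizer_core M hg) x).mp hx
  have hx'o : orderOf x' = t := (MulEquiv.orderOf_eq (MulAut.conj g) x).trans hxo
  have hFn : Group.IsNilpotent (fittingOf M) := by
    haveI := Hall.fittingSubgroup_isNilpotent (G := M)
    exact Group.nilpotent_of_mulEquiv ((fittingSubgroup ↥M).equivMapOfInjective _ M.subtype_injective)
  have hmem : ∀ v ∈ SylowLift.core p M, orderOf v = t → v ∈ fittingOf M := fun v hv hvo => by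
    rw [(S1356.result hG M hM).2.1, h.core]
    exact mem_sup_left ⟨SylowLift.core_le M hv, mem_centralizer_of_prime hG h hκ S hPna htσ hv hvo⟩
  set W := zpowers x ⊔ zpowers x' with hW
  have hWt : IsPGroup t W := isPGroup_sup_of_nilpotent hFn (hmem x hx hxo) (hmem x' hx'X hx'o)
    (hxo ▸ pow_orderOf_eq_one x) (hx'o ▸ pow_orderOf_eq_one x')
  have hWX : W ≤ SylowLift.core p M := sup_le (zpowers_le.mpr hx) (zpowers_le.mpr hx'X)
  haveI : IsCyclic W := cyclic_of_commute hG hM hκ (hWX.trans (SylowLift.core_le M))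
    (fun r hr hd => (isPGroup_ne_dvd hWt hr hd) ▸ htσ) h.mem h.ne_one
    (hWX.trans (core_le_centralizer_y h S))
  exact conj_eq_zpow (W := W) (mem_sup_left (mem_zpowers x)) (mem_sup_right (mem_zpowers x'))

/-- A `t`-element of `O_{p'}(M)`, `t ∉ σ`, centralizes the Sylow subgroups of `M_σ`. -/
theorem mem_centralizer_sylow {t : ℕ} [ht : Fact t.Prime] (htσ : t ∉ sigma M) {x : G}
    (hx : x ∈ SylowLift.core p M) {k : ℕ} (hxk : orderOf x = t ^ k) {q : ℕ} [hq : Fact q.Prime] (hqp : q ≠ p)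
    (Tq : Sylow q ↥(sigmaCore M)) : x ∈ centralizer (sylSub Tq : Set G) := by
  classical
  by_contra hne
  have hM := h.coatom
  have hxM : x ∈ M := SylowLift.core_le M hx
  haveI := h.cyclic_of_ne S hG hPna hqp Tq
  set Q := sylSub Tq with hQ
  have hQσ : Q ≤ sigmaCore M := map_subtype_le _
  have hQM : Q ≤ M := hQσ.trans (map_subtype_le _)
  have hQp : IsPGroup q Q := Tq.2.map _
  have hQn : M ≤ normalizer (Q : Set G) := h.normal_sylow Tq
  have hQ1 : Q ≠ ⊥ := fun e => hne (mem_centralizer_iff.mpr fun a ha => by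
    have ha' : a ∈ (⊥ : Subgroup G) := e ▸ ha
    rw [mem_bot.mp ha', one_mul, mul_one])
  have hqσ : q ∈ sigma M := by
    obtain ⟨j, hj⟩ := IsPGroup.iff_card.mp hQp
    have hj0 : j ≠ 0 := fun e => hQ1 (eq_bot_of_card_eq _ (by rw [hj, e, pow_zero]))
    exact OddLocal.piCoreOf_isPi (sigma M) M q hq.out
      (((dvd_pow_self q hj0).trans hj.symm.dvd).trans (card_dvd_of_le hQσ))
  have htq : t ≠ q := fun e => htσ (e ▸ hqσ)
  have hq2 : q ≠ 2 := ne_two_of_pgroup hG hQp hQ1
  have hxcop : ∀ {v : G}, (∃ j, orderOf v = t ^ j) → (orderOf v).Coprime q := fun {v} ⟨j, hj⟩ => by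
    rw [hj]; exact ((Nat.coprime_primes ht.out hq.out).mpr htq).pow_left j
  -- a line moved by `x`
  obtain ⟨z, hzQ, hzo, hzc⟩ : ∃ z ∈ Q, orderOf z = q ∧ ¬ Commute x z := by
    by_contra hno
    push Not at hno
    exact hne (mem_centralizer_sylow_of_lines hG h Tq hxM (hxcop ⟨k, hxk⟩) hno)
  have hk0 : k ≠ 0 := fun e => hne (by
    rw [show x = 1 from orderOf_eq_one_iff.mp (by rw [hxk, e, pow_zero])]; exact one_mem _)
  set x₁ := x ^ t ^ (k - 1) with hx₁
  have hx₁o : orderOf x₁ = t := by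
    rw [hx₁, orderOf_pow_of_dvd (pow_ne_zero _ ht.out.ne_zero) (hxk ▸ pow_dvd_pow t (Nat.sub_le k 1)), hxk,
      Nat.pow_div (Nat.sub_le k 1) ht.out.pos, show k - (k - 1) = 1 by omega, pow_one]
  have hx₁X : x₁ ∈ SylowLift.core p M := pow_mem hx _
  have hx₁H := mem_centralizer_of_prime hG h hκ S hPna htσ hx₁X hx₁o
  have hx₁Q : x₁ ∈ centralizer (Q : Set G) := centralizer_le hQσ hx₁H
  have hNx₁ := normalizer_line_le hG h hκ S hPna htσ hx₁X hx₁o
  -- `t < q`
  have htlt : t < q := by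
    have hcop : ¬ (q - 1).Coprime (orderOf x) := fun hc => hzc (by
      have hcomm := SupportCase.pow_pred_commute hq.out hzo (line_normal h Tq hzQ x hxM)
      obtain ⟨m, hm⟩ := Nat.exists_mul_mod_eq_one_of_coprime hc (by
        rw [hxk]; exact Nat.one_lt_pow hk0 ht.out.one_lt)
      have e : x = (x ^ (q - 1)) ^ m := by
        rw [← pow_mul, ← pow_mod_orderOf, hm.2, pow_one]
      rw [e]
      exact hcomm.pow_left m)
    rw [hxk, Nat.coprime_pow_right_iff (Nat.pos_of_ne_zero hk0), Nat.coprime_comm, ht.out.coprime_iff_not_dvd,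
      not_not] at hcop
    have := Nat.le_of_dvd (by have := hq.out.two_le; omega) hcop
    omega
  -- the Sylow `t`-subgroup
  have hxpg : IsPGroup t (zpowers (⟨x, hxM⟩ : M)) :=
    IsPGroup.of_card (n := k) (by rw [Nat.card_zpowers, Subgroup.orderOf_mk, hxk])
  obtain ⟨PT, hPT⟩ := hxpg.exists_le_sylow
  set T := (PT : Subgroup M).map M.subtype with hT
  have hTM : T ≤ M := map_subtype_le _
  have hxT : x ∈ T := ⟨_, hPT (mem_zpowers _), rfl⟩
  have hTp : IsPGroup t T := PT.2.map _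
  have hτ2 : t ∈ tau2 M := tau2_of_commute hG hM hκ htσ (SylowLift.core_le M hx₁X) hx₁o h.mem h.ne_one
    (mem_centralizer_singleton_iff.mp (core_le_centralizer_y h S hx₁X))
  obtain ⟨B, hBM, hB, hBc⟩ := elem_of_not_pRankLE hτ2.2.2.2
  obtain ⟨PB, hPB⟩ := ((elem_isPGroup hB).comap_subtype (K := M)).exists_le_sylow
  obtain ⟨m, hm⟩ := MulAction.exists_smul_eq M PB PT
  set A := MulAut.conj (m : G) • B with hA
  have hAM : A ≤ M := fun a ha => by
    obtain ⟨b, hb, rfl⟩ := ha
    exact mul_mem (mul_mem m.2 (hBM hb)) (inv_mem m.2)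
  have hAe : IsElementaryAbelian t A := elem_of_conj (m : G) hB
  have hAc : Nat.card A = t ^ 2 := (Coprime.card_conj_smul _ _).trans hBc
  have hAT : A ≤ T := fun a ha => by
    obtain ⟨b, hb, rfl⟩ := ha
    refine ⟨m * ⟨b, hBM hb⟩ * m⁻¹, ?_, rfl⟩
    rw [← hm, Sylow.coe_subgroup_smul]
    exact ⟨_, hPB hb, rfl⟩
  obtain ⟨hab, hΩ'⟩ := (S1417.result hG M hM t hτ2 A ⟨hAM, hAe, hAc⟩).2.1 PT
  obtain ⟨hΩ, -⟩ := hΩ' hAT
  have hTcomm : ∀ a ∈ T, ∀ b ∈ T, a * b = b * a := by
    rintro _ ⟨a, ha, rfl⟩ _ ⟨b, hb, rfl⟩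
    exact congrArg Subtype.val (congrArg Subtype.val (hab.is_comm.comm (⟨a, ha⟩ : (PT : Subgroup M)) ⟨b, hb⟩))
  have hmaxT : ∀ R : Subgroup G, IsPGroup t R → R ≤ M → T ≤ R → R = T := fun R hR hRM hTR => by
    have h1 : R.subgroupOf M = (PT : Subgroup M) := PT.3 hR.comap_subtype (fun a ha => hTR (mem_map_of_mem _ ha))
    rw [hT, ← h1, map_subgroupOf_eq_of_le hRM]
  have hx₁T : x₁ ∈ T := pow_mem hxT _
  have hcent : centralizer ({x₁} : Set G) ≤ M := fun c hc =>
    hNx₁ (centralizer_le_normalizer _ (by rwa [Uniq.centralizer_zpowers]))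
  -- `T` is a Sylow subgroup of `G`
  obtain ⟨SG, hSG⟩ := hTp.exists_le_sylow
  have hST : (SG : Subgroup G) = T := by
    by_cases hSab : IsMulCommutative (SG : Subgroup G)
    · refine hmaxT _ SG.2 (fun a ha => hcent (mem_centralizer_singleton_iff.mpr ?_)) hSG
      exact congrArg Subtype.val (hSab.is_comm.comm (⟨a, ha⟩ : (SG : Subgroup G)) ⟨x₁, hSG hx₁T⟩)
    · exfalso
      obtain ⟨XA, hXA⟩ := exists_exc hG hM htσ hAM hAe hAc
      have hTA : T ≤ (SG : Subgroup G) ⊓ centralizer (A : Set G) := le_inf hSG fun a ha =>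
        mem_centralizer_iff.mpr fun b hb => hTcomm b (hAT hb) a ha
      rcases Nat.lt_or_ge k 2 with hk | hk
      · have : x = x₁ := by rw [hx₁, show k - 1 = 0 by omega, pow_zero, pow_one]
        exact hne (this ▸ hx₁Q)
      set w := x ^ t ^ (k - 2) with hw
      have hwt : w ^ t = x₁ := by rw [hw, hx₁, ← pow_mul, ← pow_succ, show k - 2 + 1 = k - 1 by omega]
      have hwT : w ∈ T := pow_mem hxT _
      have hN : normalizer (T : Set G) ⊓ (SG : Subgroup G) ≤ T := by
        rintro s ⟨hsN, hsS⟩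
        set w' := s * w * s⁻¹ with hw'
        have hw'T : w' ∈ T := (mem_normalizer_iff.mp hsN w).mp hwT
        have hw't : w' ^ t = s * x₁ * s⁻¹ := by rw [hw', conj_pow, hwt]
        have hmem := pow_line_unique hG (ne_two_of_pgroup hG hTp fun e => ht.out.ne_one
            (by rw [← hx₁o, show x₁ = 1 from mem_bot.mp (e ▸ hx₁T), orderOf_one])) SG hAe hAc (hXA.hmax hG) (hAT.trans hSG) hSab
          (hTA hwT) (hTA hw'T) (by rw [hwt, ← hx₁o, pow_orderOf_eq_one])
          (by rw [hw't, conj_pow, ← hx₁o, pow_orderOf_eq_one, mul_one, mul_inv_cancel])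
          (by rw [hwt]; exact fun e => ht.out.ne_one (by rw [← hx₁o, e, orderOf_one]))
        rw [hwt, hw't] at hmem
        have hsM : s ∈ M := hNx₁ (Coprime.mem_normalizer_of_conj_smul_eq (by
          show (zpowers x₁).map (MulAut.conj s).toMonoidHom = _
          rw [MonoidHom.map_zpowers]
          exact eq_of_le_of_card_ge (zpowers_le.mpr hmem) (by
            rw [Nat.card_zpowers, Nat.card_zpowers]; exact (MulEquiv.orderOf_eq (MulAut.conj s) x₁).ge)))
        rw [← hmaxT (M ⊓ (SG : Subgroup G)) (SG.2.to_le inf_le_right) inf_le_left (le_inf hTM hSG)]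
        exact ⟨hsM, hsS⟩
      have hlt : T < (SG : Subgroup G) := lt_of_le_of_ne hSG fun e => hSab (e ▸
        ⟨⟨fun a b => Subtype.ext (hTcomm a a.2 b b.2)⟩⟩)
      haveI := SG.2.isNilpotent
      have hncd := Group.normalizerCondition_of_isNilpotent (G := (SG : Subgroup G)) (T.subgroupOf SG)
        (lt_of_le_of_ne le_top fun e => hlt.not_ge fun a ha => (e.ge (mem_top (⟨a, ha⟩ : (SG : Subgroup G)))))
      obtain ⟨a, ha, haT⟩ := SetLike.exists_of_lt hncd
      refine haT (hN ⟨mem_normalizer_iff.mpr fun c => ?_, a.2⟩)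
      constructor
      · intro hc
        exact (mem_normalizer_iff.mp ha ⟨c, hSG hc⟩).mp hc
      · intro hc
        have hcS : c ∈ (SG : Subgroup G) := by
          have := (SG : Subgroup G).mul_mem ((SG : Subgroup G).mul_mem ((SG : Subgroup G).inv_mem a.2) (hSG hc)) a.2
          simpa [mul_assoc] using this
        exact (mem_normalizer_iff.mp ha ⟨c, hcS⟩).mpr hc
  -- `Q` is a Sylow subgroup of `G`
  have hQidx : ¬ q ∣ Q.index := by
    intro hd
    rw [← relIndex_mul_index hQσ] at hd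
    rcases hq.out.dvd_mul.mp hd with h1 | h1
    · refine Tq.not_dvd_index ?_
      rwa [relIndex, subgroupOf, hQ, sylSub, comap_map_eq_self_of_injective (sigmaCore M).subtype_injective] at h1
    · exact (sigmaCore_hall hG hM hqσ).2 h1
  set QS := hQp.toSylow hQidx
  have hQS : (QS : Subgroup G) = Q := IsPGroup.toSylow_coe _ _
  -- cyclic subgroups of `T`
  have hcyc : ∀ W : Subgroup G, W ≤ T → ∀ c ∈ sigmaCore M, c ≠ 1 → W ≤ centralizer ({c} : Set G) → IsCyclic W :=
    fun W hW c hc hc1 hWc => cyclic_of_commute hG hM hκ (hW.trans hTM)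
      (fun r hr hd => (isPGroup_ne_dvd (hTp.to_le hW) hr hd) ▸ htσ) hc hc1 hWc
  have hz1 : z ≠ 1 := fun e => hq.out.ne_one (by rw [← hzo, e, orderOf_one])
  set T₀ := T ⊓ centralizer (Q : Set G) with hT₀
  have hT₀c : IsCyclic T₀ := hcyc T₀ inf_le_left z (hQσ hzQ) hz1 fun a ha =>
    mem_centralizer_singleton_iff.mpr (mem_centralizer_iff.mp ha.2 z hzQ).symm
  set T₁ := T ⊓ centralizer (sylSub S : Set G) with hT₁
  have hT₁c : IsCyclic T₁ := hcyc T₁ inf_le_left y h.mem h.ne_one fun a ha =>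
    mem_centralizer_singleton_iff.mpr (mem_centralizer_iff.mp ha.2 y (h.x_mem S)).symm
  have hxT₁ : x ∈ T₁ := ⟨hxT, core_le_centralizer_sylow h hx⟩
  have hline : ∀ e ∈ T₀, e ^ t = 1 → e ∈ zpowers x₁ := by
    intro e he het
    by_cases he1 : e = 1
    · rw [he1]; exact one_mem _
    haveI := hT₀c
    have heo : orderOf e = t := orderOf_eq_prime het he1
    have h2 : zpowers e = zpowers x₁ := OddLocal.eq_of_card_eq_of_le_cyclic (W := T₀) (zpowers_le.mpr he)
      (zpowers_le.mpr ⟨hx₁T, hx₁Q⟩) (by rw [Nat.card_zpowers, Nat.card_zpowers, heo, hx₁o])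
    exact h2 ▸ mem_zpowers e
  -- the action on `Q`
  obtain ⟨l, hl⟩ := exists_character hq2 hQp (hTM.trans hQn)
  have hsq : t ^ 2 ∣ Nat.card T₀ := by
    obtain ⟨j, hj⟩ := IsPGroup.iff_card.mp (hTp.to_le (inf_le_left : T₀ ≤ T))
    rw [hj]
    refine pow_dvd_pow t ?_
    by_contra hj2
    have hT₀' : ∀ e ∈ T₀, e ∈ zpowers x₁ := fun e he => hline e he (by
      have h1 : e ^ Nat.card T₀ = 1 := congrArg Subtype.val (pow_card_eq_one' (x := (⟨e, he⟩ : T₀)))
      have h2 : orderOf e ∣ t ^ 1 := (orderOf_dvd_of_pow_eq_one h1).trans (hj ▸ pow_dvd_pow t (by omega))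
      rw [pow_one] at h2
      exact orderOf_dvd_iff_pow_eq_one.mp h2)
    rcases Nat.lt_or_ge k 2 with hk | hk
    · have : x = x₁ := by rw [hx₁, show k - 1 = 0 by omega, pow_zero, pow_one]
      exact hne (this ▸ hx₁Q)
    set w := x ^ t ^ (k - 2) with hw
    have hwt : w ^ t = x₁ := by rw [hw, hx₁, ← pow_mul, ← pow_succ, show k - 2 + 1 = k - 1 by omega]
    have hwT : w ∈ T := pow_mem hxT _
    obtain ⟨a, haA, hax⟩ : ∃ a ∈ A, a ∉ zpowers x₁ := by
      by_contra hno
      push Not at hno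
      have := card_le_of_le (show A ≤ zpowers x₁ from hno)
      rw [hAc, Nat.card_zpowers, hx₁o] at this
      have := ht.out.two_le
      nlinarith
    have haT := hAT haA
    have hla : l ⟨a, haT⟩ ≠ 1 := fun e => hax (hline a ⟨haT, (hl _).mp e⟩ (hAe.2 a haA))
    have hlat : l ⟨a, haT⟩ ^ t = 1 := by
      rw [← map_pow, show (⟨a, haT⟩ : T) ^ t = 1 from Subtype.ext (by simpa using hAe.2 a haA), map_one]
    have hlwt : l ⟨w, hwT⟩ ^ t = 1 := by
      rw [← map_pow, show (⟨w, hwT⟩ : T) ^ t = ⟨x₁, hx₁T⟩ from Subtype.ext (by simpa using hwt)]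
      exact (hl _).mpr hx₁Q
    have hprim : IsPrimitiveRoot (l ⟨a, haT⟩) t := IsPrimitiveRoot.iff_orderOf.mpr (orderOf_eq_prime hlat hla)
    haveI : NeZero t := ⟨ht.out.ne_zero⟩
    obtain ⟨i, -, hi⟩ := ((IsPrimitiveRoot.coe_units_iff).mpr hprim).eq_pow_of_pow_eq_one
      (by rw [← Units.val_pow_eq_pow_val, hlwt, Units.val_one] : ((l ⟨w, hwT⟩ : ℂˣ) : ℂ) ^ t = 1)
    have hi' : l ⟨a, haT⟩ ^ i = l ⟨w, hwT⟩ := Units.ext (by rw [Units.val_pow_eq_pow_val]; exact hi)
    have hmem : w * (a ^ i)⁻¹ ∈ T₀ := by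
      refine ⟨T.mul_mem hwT (T.inv_mem (T.pow_mem haT i)), (hl ⟨_, T.mul_mem hwT (T.inv_mem (T.pow_mem haT i))⟩).mp ?_⟩
      show l (⟨w, hwT⟩ * (⟨a, haT⟩ ^ i)⁻¹) = 1
      rw [map_mul, map_inv, map_pow, hi', mul_inv_cancel]
    have h1 : (w * (a ^ i)⁻¹) ^ t = 1 := by
      obtain ⟨c, hc⟩ := mem_zpowers_iff.mp (hT₀' _ hmem)
      rw [← hc, ← zpow_natCast, ← zpow_mul, mul_comm, zpow_mul, zpow_natCast, ← hx₁o, pow_orderOf_eq_one, one_zpow]
    rw [(show Commute w (a ^ i)⁻¹ from hTcomm _ hwT _ (T.inv_mem (T.pow_mem haT i))).mul_pow, inv_pow,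
      show (a ^ i) ^ t = 1 by rw [← pow_mul, mul_comm, pow_mul, hAe.2 a haA, one_pow], inv_one, mul_one, hwt] at h1
    exact ht.out.ne_one (by rw [← hx₁o, h1, orderOf_one])
  have hfused : M ⊓ normalizer (T : Set G) ≤ centralizer (T : Set G) := by
    intro g hg
    obtain ⟨g₁, hg₁⟩ := Block.exists_isPPart (p := t) g
    obtain ⟨g₂, he, hc, hg₁e, hg₂e⟩ := id hg₁
    have hg₁m : g₁ ∈ M ⊓ normalizer (T : Set G) := zpowers_le.mpr hg (Block.IsPPart.mem_zpowers hg₁)
    have hg₁C : g₁ ∈ centralizer (T : Set G) := by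
      have hpg : IsPGroup t (zpowers g₁) := Block.IsPElem.isPGroup_zpowers hg₁e
      have h1 : zpowers g₁ ⊓ normalizer ((SG : Subgroup G) : Set G) = zpowers g₁ ⊓ (SG : Subgroup G) :=
        hpg.inf_normalizer_sylow SG
      rw [hST] at h1
      have h2 : g₁ ∈ T := (h1.le ⟨mem_zpowers g₁, hg₁m.2⟩).2
      exact mem_centralizer_iff.mpr fun a ha => hTcomm a ha g₁ h2
    have hg₂m : g₂ ∈ M ⊓ normalizer (T : Set G) := by
      rw [show g₂ = g₁⁻¹ * g by rw [← he, inv_mul_cancel_left]]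
      exact mul_mem (inv_mem hg₁m) hg
    rw [← he]
    refine mul_mem hg₁C ?_
    have hconjQ : ∀ v ∈ centralizer (Q : Set G), g₂ * v * g₂⁻¹ ∈ centralizer (Q : Set G) :=
      fun v hv => BlockGap.conj_mem_centralizer (hQn hg₂m.1) hv
    have hconjT : ∀ v ∈ T, g₂ * v * g₂⁻¹ ∈ T := fun v hv => (mem_normalizer_iff.mp hg₂m.2 v).mp hv
    -- `g₂` fixes `x₁`
    have hgx₁ : g₂ * x₁ * g₂⁻¹ = x₁ := by
      haveI := hT₁c
      obtain ⟨a, ha⟩ := mem_zpowers_iff.mp (conj_eq_zpow (W := T₁) hxT₁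
        ⟨hconjT x hxT, BlockGap.conj_mem_centralizer (h.normal_sylow S hg₂m.1) hxT₁.2⟩)
      have hd : x ^ (a - 1) ∈ centralizer (Q : Set G) := by
        rw [zpow_sub_one, ha]
        exact commutator_centralizes_cyclic (hQn hg₂m.1) (hQn hxM)
      have hta : (t : ℤ) ∣ a - 1 := by
        by_contra hnd
        have hcop : IsCoprime (a - 1) ((orderOf x : ℕ) : ℤ) := by
          rw [hxk, Nat.cast_pow]
          exact ((Prime.coprime_iff_not_dvd (Nat.prime_iff_prime_int.mp ht.out)).mpr hnd).symm.pow_right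
        obtain ⟨u, v, huv⟩ := hcop
        refine hne ?_
        have : x = (x ^ (a - 1)) ^ u := by
          conv_lhs => rw [← zpow_one x, ← huv, zpow_add, mul_comm u, mul_comm v, zpow_mul x (orderOf x : ℤ),
            zpow_natCast, pow_orderOf_eq_one, one_zpow, mul_one, zpow_mul]
        rw [this]
        exact zpow_mem hd u
      have h1 : g₂ * x₁ * g₂⁻¹ = x₁ * x₁ ^ (a - 1) := by
        rw [← zpow_one_add, add_sub_cancel, hx₁, ← conj_pow, ← ha, ← zpow_natCast, ← zpow_natCast, ← zpow_mul,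
          ← zpow_mul, mul_comm]
      rw [h1, orderOf_dvd_iff_zpow_eq_one.mp (by rwa [hx₁o]), mul_one]
    -- `g₂` fixes `T₀`
    have hfix : ∀ v ∈ T₀, g₂ * v * g₂⁻¹ = v := by
      refine LocalFusion.centralizes_of_fix_small ((ht.out.coprime_iff_not_dvd.mpr hg₂e).symm) T₀
        (hTp.to_le inf_le_left) (mem_normalizer_iff.mpr fun v => ?_) fun e he hs => ?_
      · exact and_congr (mem_normalizer_iff.mp hg₂m.2 v)
          (mem_normalizer_iff.mp (mem_normalizer_iff.mpr fun b => ⟨hconjQ b, fun hb => by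
            have := BlockGap.conj_mem_centralizer (inv_mem (hQn hg₂m.1)) hb
            simpa [mul_assoc] using this⟩) v)
      · have het : e ^ t = 1 := by
          rcases hs with e' | ⟨e2, -⟩
          · exact e'
          · exact absurd e2 (ne_two_of_pgroup hG hTp fun e' => ht.out.ne_one
              (by rw [← hx₁o, show x₁ = 1 from mem_bot.mp (e' ▸ hx₁T), orderOf_one]))
        obtain ⟨c, hc⟩ := mem_zpowers_iff.mp (hline e he het)
        rw [← hc, ← conj_zpow, hgx₁]
    refine mem_centralizer_iff.mpr fun v hv => (commute_of_fixed (W := T₀) ?_ ?_ (hTp.to_le inf_le_left) hg₂e).symm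
    · exact ⟨T.mul_mem (hconjT v hv) (T.inv_mem hv), commutator_centralizes_cyclic (hQn hg₂m.1) (hQn (hTM hv))⟩
    · exact hfix _ ⟨T.mul_mem (hconjT v hv) (T.inv_mem hv),
        commutator_centralizes_cyclic (hQn hg₂m.1) (hQn (hTM hv))⟩
  have hcomm : IsMulCommutative (SG : Subgroup G) :=
    ⟨⟨fun a b => Subtype.ext (hTcomm a (hST ▸ a.2) b (hST ▸ b.2))⟩⟩
  have hcfg : BlockGap.Config M SG QS x₁ := {
    simpleOdd := hG
    coatom := hM
    comm := hcomm
    le := hST ▸ hTM
    commQ := by rw [hQS]; infer_instance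
    neQ := by rw [hQS]; exact hQ1
    leQ := by rw [hQS]; exact hQM
    normQ := by rw [hQS]; exact hQn
    order := hx₁o
    memT := hST ▸ hx₁T
    memQ := by rw [hQS]; exact hx₁Q
    norm := hNx₁
    fused := by rw [hST]; exact hfused
    cyc := by rw [hST, hQS]; exact hT₀c
    sq_dvd := by rw [hST, hQS]; exact hsq
    lt := htlt }
  refine hcfg.no_config (l.comp (inclusion hST.le)) fun v => ?_
  rw [hQS]
  exact hl _

/-- `O_{p'}(M)` is cyclic. -/
theorem isCyclic_core : IsCyclic (SylowLift.core p M) := by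
  classical
  have hM := h.coatom
  haveI := solvable hG hM
  set X := SylowLift.core p M with hX
  have hXM : X ≤ M := SylowLift.core_le M
  set Z := X ⊓ sigmaCore M with hZ
  have hσn : X ≤ normalizer (sigmaCore M : Set G) := hXM.trans (OddLocal.le_normalizer_piCoreOf (sigma M) M)
  have hZn : X ≤ normalizer (Z : Set G) := fun a ha => mem_normalizer_iff.mpr fun c =>
    and_congr (mem_normalizer_iff.mp (le_normalizer ha) c) (mem_normalizer_iff.mp (hσn ha) c)
  haveI : (Z.subgroupOf X).Normal := (normal_subgroupOf_iff_le_normalizer inf_le_left).mpr hZn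
  have hidx : ∀ r : ℕ, r.Prime → r ∣ (Z.subgroupOf X).index → r ∉ sigma M := fun r hr hd hrσ => by
    haveI := Fact.mk hr
    refine (sigmaCore_hall hG hM hrσ).1 (hd.trans ?_)
    show Z.relIndex X ∣ (sigmaCore M).relIndex M
    rw [hZ, inf_comm, inf_relIndex_right]
    have : ((sigmaCore M).subgroupOf M).Normal := (normal_subgroupOf_iff_le_normalizer (map_subtype_le _)).mpr
      (OddLocal.le_normalizer_piCoreOf (sigma M) M)
    have h1 := relIndex_dvd_index_of_normal ((sigmaCore M).subgroupOf M) (X.subgroupOf M)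
    rw [relIndex_subgroupOf hXM] at h1
    exact h1
  have hcop : (Nat.card (Z.subgroupOf X)).Coprime (Z.subgroupOf X).index := by
    refine Nat.coprime_of_dvd fun r hr h1 h2 => hidx r hr h2 (OddLocal.piCoreOf_isPi (sigma M) M r hr ?_)
    rw [Coprime.card_subgroupOf inf_le_left] at h1
    exact h1.trans (card_dvd_of_le inf_le_right)
  obtain ⟨W', hW'⟩ := exists_right_complement'_of_coprime hcop
  set W := W'.map X.subtype with hW
  have hWX : W ≤ X := map_subtype_le _
  have hWσ : ∀ r : ℕ, r.Prime → r ∣ Nat.card W → r ∉ sigma M := fun r hr hd => hidx r hr (by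
    rw [hW'.symm.index_eq_card]
    rwa [hW, card_map_of_injective X.subtype_injective] at hd)
  have hWc : IsCyclic W := cyclic_of_commute hG hM hκ (hWX.trans hXM) hWσ h.mem h.ne_one
    (hWX.trans (core_le_centralizer_y h S))
  haveI := hWc
  haveI : Group.IsNilpotent W := by
    letI := IsCyclic.commGroup (α := W)
    infer_instance
  have hWH : W ≤ centralizer (sigmaCore M : Set G) := by
    have hle : (⊤ : Subgroup W) ≤ (centralizer (sigmaCore M : Set G)).comap W.subtype := by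
      refine (Hall.le_iSup_pCore (N := (⊤ : Subgroup W)) inferInstance).trans (iSup_le fun s => ?_)
      haveI := Fact.mk s.2
      intro w hw
      obtain ⟨k, hk⟩ := IsPGroup.iff_orderOf.mp (Hall.isPGroup_pCore (s : ℕ)) (⟨w, hw⟩ : pCore (s : ℕ) W)
      rw [Subgroup.orderOf_mk, ← Subgroup.orderOf_coe] at hk
      rw [mem_comap]
      rcases Nat.eq_zero_or_pos k with rfl | hk0
      · rw [coe_subtype, show (w : G) = 1 from orderOf_eq_one_iff.mp (by rw [hk, pow_zero])]
        exact one_mem _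
      have hsσ : (s : ℕ) ∉ sigma M := hWσ s s.2
        ((dvd_pow_self (s : ℕ) hk0.ne').trans (hk ▸ Subgroup.orderOf_dvd_natCard _ w.2))
      refine mem_centralizer_sigmaCore_of_sylows h fun q _ T => ?_
      by_cases hqp : q = p
      · subst hqp
        exact core_le_centralizer_sylow h (hWX w.2)
      exact mem_centralizer_sylow hG h hκ S hPna hsσ (hWX w.2) hk hqp T
    exact fun w hw => hle (mem_top (⟨w, hw⟩ : W))
  haveI := h.core_cyclic S hG hPna
  haveI hZc : IsCyclic Z := by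
    have hle : Z ≤ (pPrimeCore p ↥(sigmaCore M)).map (sigmaCore M).subtype := by
      refine SylowLift.le_core (X := sigmaCore M) inf_le_right (fun a ha => ?_)
        ((SylowLift.card_core_coprime M).coprime_dvd_left (card_dvd_of_le inf_le_left))
      exact mem_normalizer_iff.mpr fun c => and_congr
        (mem_normalizer_iff.mp (SylowLift.le_normalizer_core M (map_subtype_le _ ha)) c)
        (mem_normalizer_iff.mp (le_normalizer ha) c)
    haveI : IsCyclic ↥((pPrimeCore p ↥(sigmaCore M)).map (sigmaCore M).subtype) :=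
      ((pPrimeCore p ↥(sigmaCore M)).equivMapOfInjective _ (sigmaCore M).subtype_injective).isCyclic.mp inferInstance
    exact Subgroup.isCyclic_of_le hle
  obtain ⟨a, ha⟩ := IsCyclic.exists_generator (α := Z)
  obtain ⟨b, hb⟩ := IsCyclic.exists_generator (α := W)
  have hab : Commute (a : G) b := mem_centralizer_iff.mp (hWH b.2) a a.2.2
  have hcard : Nat.card X = Nat.card Z * Nat.card W := by
    rw [← card_mul_index (Z.subgroupOf X), hW'.symm.index_eq_card, Coprime.card_subgroupOf inf_le_left, hW,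
      card_map_of_injective X.subtype_injective]
  refine isCyclic_of_orderOf_eq_card ⟨(a : G) * b, X.mul_mem a.2.1 (hWX b.2)⟩ ?_
  rw [Subgroup.orderOf_mk, hab.orderOf_mul_eq_mul_orderOf_of_coprime, Subgroup.orderOf_coe, Subgroup.orderOf_coe,
    orderOf_eq_card_of_forall_mem_zpowers ha, orderOf_eq_card_of_forall_mem_zpowers hb, hcard]
  refine Nat.coprime_of_dvd fun r hr h1 h2 => hWσ r hr (h2.trans (Subgroup.orderOf_dvd_natCard _ b.2))
    (OddLocal.piCoreOf_isPi (sigma M) M r hr ?_)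
  exact h1.trans (Subgroup.orderOf_dvd_natCard _ a.2.2)

end Main

/-- `κ(M) = ∅` and `M_F` not TI: the third alternative of type I holds unless `M_F` is abelian of rank two. -/
theorem trichotomy_full (hG : IsMinSimpleOddOrder G) (hM : IsCoatom M) (hκ : kappa M = ∅) :
    IsTISubset (fittingHallOf M : Set G) ∨
      (IsMulCommutative (fittingHallOf M) ∧ RankLE 2 (fittingHallOf M) ∧ ¬ RankLE 1 (fittingHallOf M)) ∨
      ((∀ q : ℕ, q.Prime → q ∣ Nat.card (fittingHallOf M) → Monoid.exponent (M ⧸ fittingHall M) ∣ q - 1) ∧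
        ∃ r : ℕ, r.Prime ∧ r ∣ Nat.card (fittingHallOf M) ∧ IsCyclic (pPrimeCore r M)) := by
  by_cases hTI : IsTISubset (fittingHallOf M : Set G)
  · exact Or.inl hTI
  refine Or.inr ?_
  have hF := SupportCase.core_eq_of_kappa hG hM hκ
  obtain ⟨r, c, h⟩ := SupportCase.exists_data hG hM hF hTI
  haveI := Fact.mk h.prime
  obtain ⟨S⟩ : Nonempty (Sylow r ↥(sigmaCore M)) := inferInstance
  by_cases hP : IsMulCommutative (sylSub S)
  · left; rw [hF]; exact h.abelian_case S hG hP
  refine Or.inr ⟨?_, r, h.prime, ?_, ?_⟩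
  · rw [hF]
    intro q hq hqd
    haveI := Fact.mk hq
    obtain ⟨z, hz, hzo, hzn⟩ := h.exists_normal_line hG S hP hqd
    exact SupportCase.exponent_dvd hG hM hκ hF hq hz hzo hzn
  · rw [hF]
    exact h.order ▸ Subgroup.orderOf_dvd_natCard _ h.mem
  · haveI := isCyclic_core hG h hκ S hP
    exact ((pPrimeCore r ↥M).equivMapOfInjective _ M.subtype_injective).isCyclic.mpr ‹_›

end Cfsg.Agent.Lib.OddTypes.Gap
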