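import Cfsg.Agent.Lib.OddTypes.Complements
import Cfsg.Agent.Lib.Uniq.PairFrobeniusMain
import Cfsg.Agent.Lib.FPF.FrobeniusKernel
import Cfsg.Agent.S1362
import Cfsg.Agent.S1367
import Cfsg.Agent.S1374
import Cfsg.Agent.S1375
import Cfsg.Agent.S1376
import Cfsg.Agent.S1380
import Cfsg.Agent.S1381
import Cfsg.Agent.S1436

/-! The sets `A(M)`, `A₀(M)` in terms of a standard factorisation, and their fusion and centralisers. -/

set_option autoImplicit false

namespace Cfsg.Agent.Lib.OddTypes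

open Subgroup Cfsg Cfsg.Agent.Lib Cfsg.Agent.Lib.Uniq
open scoped Pointwise commutatorElement

universe u

/-- The kernel of a Frobenius complement is `fittingHall`. -/
theorem frobeniusKernel_eq_fittingHall {X : Type u} [Group X] [Finite X] {E : Subgroup X}
    (hE : IsFrobeniusComplement E) : frobeniusKernel E = (fittingHall X : Set X) := by
  obtain ⟨N, hset, hn, hc, hnil⟩ := FPF.exists_frobenius_kernel_nilpotent hE
  have hidxE : E.index = Nat.card N := hc.index_eq_card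
  have hcop : (Nat.card N).Coprime N.index := by
    rw [hc.symm.index_eq_card, ← hidxE]
    refine Nat.coprime_of_dvd fun r hr h1 h2 => ?_
    have h := Hall.fc_index_mod_card hE
    have h1E : 1 < Nat.card E := (one_lt_card_iff_ne_bot E).mpr hE.1
    rw [Nat.mod_eq_of_lt h1E] at h
    have : r ∣ 1 := by
      rw [← h]
      exact (Nat.dvd_mod_iff h2).mpr h1
    exact hr.not_dvd_one this
  haveI := hn
  obtain ⟨hFn, hFnil, -⟩ := OddLocal.fittingHall_mem X
  have hNF : N ≤ fittingHall X := le_sSup ⟨hn, hnil, hcop⟩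
  have hbot : fittingHall X ⊓ E = ⊥ := by
    rw [eq_bot_iff]
    intro e he
    by_contra he1
    rw [mem_bot] at he1
    obtain ⟨r, hr, hrd⟩ := Nat.exists_prime_and_dvd (mt orderOf_eq_one_iff.mp he1)
    have hN1 : N ≠ ⊥ := fun h => hE.2.1 (isComplement'_bot_left.mp (h ▸ hc))
    obtain ⟨s, hs, hsd⟩ := Nat.exists_prime_and_dvd (fun h => hN1 (eq_bot_of_card_eq N h))
    haveI := Fact.mk hr
    haveI := Fact.mk hs
    obtain ⟨n, hno⟩ := exists_prime_orderOf_dvd_card' s hsd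
    set e₁ := e ^ (orderOf e / r)
    have he₁ : orderOf e₁ = r := orderOf_pow_orderOf_div (orderOf_pos e).ne' hrd
    have he₁1 : e₁ ≠ 1 := fun h => hr.ne_one (by rw [← he₁, h, orderOf_one])
    have hrs : r ≠ s := fun h => by
      have h1 : r ∣ N.index := by
        rw [hc.symm.index_eq_card]; exact hrd.trans (E.orderOf_dvd_natCard he.2)
      exact hr.ne_one (Nat.eq_one_of_dvd_coprimes hcop (h ▸ hsd) h1)
    have hcm := GS.commute_of_nilpotent hFnil (x := (⟨e₁, pow_mem he.1 _⟩ : fittingHall X))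
      (y := ⟨(n : X), hNF n.2⟩) (p := r) (q := s) (a := 1) (b := 1) hr hs hrs
      (by rw [Subgroup.orderOf_mk, he₁, pow_one]) (by rw [Subgroup.orderOf_mk, Subgroup.orderOf_coe, hno, pow_one])
    have hnE : (n : X) ∈ E := Hall.fc_centralizer_le hE (pow_mem he.2 _) he₁1
      (mem_centralizer_singleton_iff.mpr (congrArg Subtype.val hcm.eq).symm)
    have h1 : (n : X) = 1 := disjoint_def.mp hc.disjoint n.2 hnE
    exact hs.ne_one (by rw [← hno, ← Subgroup.orderOf_coe, h1, orderOf_one])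
  rw [← hset]
  refine congrArg _ (le_antisymm hNF fun f hf => ?_)
  obtain ⟨⟨n, e⟩, he⟩ := (hc.existsUnique f).exists
  replace he : (n : X) * (e : X) = f := he
  have : (e : X) ∈ fittingHall X ⊓ E := ⟨by
    rw [show (e : X) = (n : X)⁻¹ * f by rw [← he, inv_mul_cancel_left]]
    exact Subgroup.mul_mem _ (Subgroup.inv_mem _ (hNF n.2)) hf, e.2⟩
  rw [hbot, mem_bot] at this
  rw [← he, this, mul_one]
  exact n.2

variable {G : Type u} [Group G] [Finite G] {M K U L : Subgroup G}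

theorem kappa_eq_empty_iff (hKU : IsSigmaDecomposition M K U) : kappa M = ∅ ↔ K = ⊥ := by
  constructor
  · intro h
    by_contra hK
    obtain ⟨r, hr, hrd⟩ := Nat.exists_prime_and_dvd (fun e => hK (K.eq_bot_of_card_eq e))
    exact Set.notMem_empty r (h ▸ hKU.hall.2.1 r hr hrd)
  · intro hK
    rw [Set.eq_empty_iff_forall_notMem]
    intro r hr
    refine hKU.hall.2.2 r hr.1 hr ?_
    rw [hK]
    simpa [Subgroup.relIndex_bot_left] using hr.2.1

/-- `A(M)` is `A(M, U)` without the identity. -/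
theorem typeA_eq (hG : IsMinSimpleOddOrder G) (hM : IsCoatom M) (hKU : IsSigmaDecomposition M K U) :
    typeA M = sigmaA M U \ {1} := by
  have hcore := typeCore_eq hG hM
  have hσM : sigmaCore M ≤ M := map_subtype_le _
  ext a
  by_cases hK : K = ⊥
  · have hU := U_ne_of_trivial_K hG hM hKU hK
    have hI := (S1380.result hG M hM K U hKU).mpr ⟨hK, hU⟩
    have hM' := eq_sup_of_trivial_K hKU hK
    have hF := fcore_eq_of_U hG hM hKU hU
    simp only [typeA, if_pos hI, hF, sigmaA, sigmaHat, Set.mem_diff, Set.mem_setOf_eq, SetLike.mem_coe,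
      Set.mem_singleton_iff, Set.mem_inter_iff, ← hM']
    exact ⟨fun ⟨ha, ha1, hx⟩ => ⟨⟨⟨ha, hx⟩, ha⟩, ha1⟩, fun ⟨⟨⟨ha, hx⟩, _⟩, ha1⟩ => ⟨ha, ha1, hx⟩⟩
  · have hnI : ¬ IsOfTypeI M := fun h => hK (typeI_imp hG hM hKU h).1
    have hD := OddLocal.Decomposition.derived_eq hG hM hKU hK
    simp only [typeA, if_neg hnI, hcore, sigmaA, sigmaHat, hD, Set.mem_diff, Set.mem_setOf_eq, SetLike.mem_coe,
      Set.mem_singleton_iff, Set.mem_inter_iff]
    exact ⟨fun ⟨ha, ha1, hx⟩ => ⟨⟨⟨sup_le hKU.compl.1 hσM ha, hx⟩, ha⟩, ha1⟩,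
      fun ⟨⟨⟨_, hx⟩, ha⟩, ha1⟩ => ⟨ha, ha1, hx⟩⟩

omit [Finite G] in
theorem le_normalizer_derived : M ≤ normalizer ((⁅M, M⁆ : Subgroup G) : Set G) := by
  rw [← map_subtype_commutator]
  refine le_trans ?_ (le_normalizer_map M.subtype)
  rw [normalizer_eq_top, ← MonoidHom.range_eq_map, range_subtype]

/-- The `M`-conjugates of the elements of `KK*` outside `K` and `K*`. -/
def zSet (M K : Subgroup G) : Set G :=
  {a : G | ∃ m ∈ M, ∃ z ∈ ((↑(K ⊔ (sigmaCore M ⊓ centralizer (K : Set G))) : Set G) \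
    ((K : Set G) ∪ ↑(sigmaCore M ⊓ centralizer (K : Set G)))), a = m * z * m⁻¹}

omit [Finite G] in
theorem zSet_ne {a : G} (h : a ∈ zSet M K) : K ≠ ⊥ := by
  rintro rfl
  obtain ⟨m, -, z, hz, -⟩ := h
  refine hz.2 (Or.inr ?_)
  have := hz.1
  rwa [bot_sup_eq] at this

/-- `A₀(M)` lies in `A(M)` and the conjugates of the elements of `KK*`. -/
theorem typeA0_subset (hG : IsMinSimpleOddOrder G) (hM : IsCoatom M) (hKU : IsSigmaDecomposition M K U) :
    typeA0 M ⊆ (sigmaA M U \ {1}) ∪ zSet M K := by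
  rintro a (ha | ⟨hnI, W₁, V, W₂, hP, m, hm, w, hw, hw1, hw2, rfl⟩)
  · exact Or.inl (typeA_eq hG hM hKU ▸ ha)
  refine Or.inr ?_
  have hK : K ≠ ⊥ := fun hK =>
    hnI ((S1380.result hG M hM K U hKU).mpr ⟨hK, U_ne_of_trivial_K hG hM hKU hK⟩)
  haveI := solvable hG hM
  have hDK := derived_compl hG hM hKU hK
  have hKc : Nat.card K = (⁅M, M⁆).relIndex M := by
    have h1 := Coprime.card_sup_mul_card_inf_of_le_normalizer (A := K) (N := ⁅M, M⁆)
      (hKU.hall.1.trans le_normalizer_derived)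
    have hsup : K ⊔ ⁅M, M⁆ = M := le_antisymm (sup_le hKU.hall.1 (commutator_le_self M)) fun v hv => by
      obtain ⟨d, hd, k, hk, rfl⟩ := hDK.2.2.2 v hv
      exact mul_mem (mem_sup_right hd) (mem_sup_left hk)
    rw [hsup, inf_comm K, hDK.2.2.1, card_bot, mul_one, ← Hall.card_mul_relIndex' (commutator_le_self M),
      mul_comm (Nat.card K)] at h1
    exact (Nat.eq_of_mul_eq_mul_left Nat.card_pos h1).symm
  have hWc : Nat.card W₁ = (⁅M, M⁆).relIndex M := by
    have h1 := Coprime.card_sup_mul_card_inf_of_le_normalizer (A := W₁) (N := ⁅M, M⁆)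
      (hP.W₁_compl.2.1.trans le_normalizer_derived)
    have hsup : W₁ ⊔ ⁅M, M⁆ = M := le_antisymm (sup_le hP.W₁_compl.2.1 (commutator_le_self M)) fun v hv => by
      obtain ⟨d, hd, k, hk, rfl⟩ := hP.W₁_compl.2.2.2 v hv
      exact mul_mem (mem_sup_right hd) (mem_sup_left hk)
    rw [hsup, inf_comm W₁, hP.W₁_compl.2.2.1, card_bot, mul_one, ← Hall.card_mul_relIndex' (commutator_le_self M),
      mul_comm (Nat.card W₁)] at h1
    exact (Nat.eq_of_mul_eq_mul_left Nat.card_pos h1).symm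
  obtain ⟨x, hx, hxK⟩ := conj_of_compl (commutator_le_self M) le_normalizer_derived
    (hKc ▸ derived_coprime hG hM hKU hK) hP.W₁_compl.2.1 hKU.hall.1 hWc hKc
  set f := (MulAut.conj x).toMonoidHom with hf
  have hKf : W₁.map f = K := hxK
  have hDn := le_normalizer_derived (M := M) hx
  have hmemD : ∀ v, f v ∈ ⁅M, M⁆ ↔ v ∈ ⁅M, M⁆ := fun v => ((mem_normalizer_iff.mp hDn) v).symm
  have hW₂ : ∀ v, v ∈ W₂ ↔ f v ∈ sigmaCore M ⊓ centralizer (K : Set G) := by
    obtain ⟨k, hk, hk1⟩ := K.bot_or_exists_ne_one.resolve_left hK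
    rw [← hKf] at hk
    obtain ⟨b, hb, rfl⟩ := hk
    have hb1 : b ≠ 1 := fun e => hk1 (by rw [e, map_one])
    intro v
    rw [← hP.W₂_centralizer b hb hb1,
      ← centralizer_in_derived hG hM hKU hK (hKf ▸ mem_map_of_mem f hb) hk1]
    refine and_congr (hmemD v).symm ?_
    show v ∈ centralizer ({b} : Set G) ↔ f v ∈ centralizer ({f b} : Set G)
    rw [mem_centralizer_singleton_iff, mem_centralizer_singleton_iff, ← map_mul, ← map_mul]
    exact (MulAut.conj x).injective.eq_iff.symm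
  refine ⟨m * x⁻¹, mul_mem hm (inv_mem hx), f w, ⟨?_, ?_⟩, ?_⟩
  · have h1 : (W₁ ⊔ W₂).map f ≤ K ⊔ (sigmaCore M ⊓ centralizer (K : Set G)) := by
      rw [Subgroup.map_sup, hKf]
      refine sup_le le_sup_left (le_trans ?_ le_sup_right)
      rintro _ ⟨v, hv, rfl⟩
      exact (hW₂ v).mp hv
    exact h1 (mem_map_of_mem f hw)
  · rintro (h1 | h1)
    · rw [SetLike.mem_coe, ← hKf] at h1
      obtain ⟨v, hv, hve⟩ := h1
      exact hw1 ((MulAut.conj x).injective hve ▸ hv)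
    · exact hw2 ((hW₂ w).mpr h1)
  · show m * w * m⁻¹ = m * x⁻¹ * (x * w * x⁻¹) * (m * x⁻¹)⁻¹
    group

/-- A nonidentity element of an invariant TI-subset of `M` controls its own fusion. -/
theorem mem_of_ti (hG : IsMinSimpleOddOrder G) (hM : IsCoatom M) {S : Set G} (hS : IsTISubset S)
    (hSM : S ⊆ (M : Set G)) (hMS : M ≤ normalizer S) {x g : G} (hx : x ∈ S) (hx1 : x ≠ 1)
    (hg : g * x * g⁻¹ ∈ S) : g ∈ M := by
  by_contra hgM
  have hgn : g ∈ normalizer S := by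
    by_contra h
    exact hx1 (hS g h x hx hg)
  haveI := hG.2.1
  rcases hM.le_iff.mp hMS with htop | he
  · have hcl : normalClosure ({x} : Set G) ≤ M := by
      refine (closure_le M).mpr fun v hv => ?_
      obtain ⟨u, hu, hc⟩ := Group.mem_conjugatesOfSet_iff.mp hv
      rw [Set.mem_singleton_iff] at hu
      subst hu
      obtain ⟨c, rfl⟩ := isConj_iff.mp hc
      exact hSM ((mem_set_normalizer_iff.mp (htop.ge (mem_top c)) _).mp hx)
    rcases (normalClosure_normal (s := ({x} : Set G))).eq_bot_or_eq_top with hb | ht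
    · exact hx1 (mem_bot.mp (hb ▸ subset_normalClosure rfl))
    · exact hM.1 (eq_top_iff.mpr (ht ▸ hcl))
  · exact hgM (he ▸ hgn)

variable (hG : IsMinSimpleOddOrder G) (hM : IsCoatom M) (hKU : IsSigmaDecomposition M K U)
include hG hM hKU

theorem sigmaA_prime {a : G} (ha : a ∈ sigmaA M U) {r : ℕ} (hr : r.Prime) (hd : r ∣ orderOf a) :
    r ∉ kappa M := by
  rcases Uniq.prime_dvd_sup (hKU.compl.1.trans (OddLocal.le_normalizer_piCoreOf (sigma M) M)) hr
    (hd.trans ((U ⊔ sigmaCore M).orderOf_dvd_natCard ha.2)) with h | h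
  · exact (OddLocal.UPart.prime_U hG hM hKU hr h).2
  · exact fun hκ => hκ.2.2.1 (OddLocal.piCoreOf_isPi (sigma M) M r hr h)

omit hKU in
theorem mem_sigmaCore_of_orderOf {a : G} (haM : a ∈ M) (h : ∀ r : ℕ, r.Prime → r ∣ orderOf a → r ∈ sigma M) :
    a ∈ sigmaCore M :=
  le_sigmaCore hG hM (zpowers_le.2 haM) (fun r hr hd => by rw [Nat.card_zpowers] at hd; exact h r hr hd)
    (mem_zpowers a)

theorem zSet_prime {a : G} (ha : a ∈ zSet M K) : ∃ r : ℕ, r.Prime ∧ r ∣ orderOf a ∧ r ∈ kappa M := by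
  have hK := zSet_ne ha
  obtain ⟨N, hp⟩ := Uniq.exists_pair hG hM hKU.hall hK
  obtain ⟨m, -, z, hz, rfl⟩ := ha
  obtain ⟨k, hk, hk1, s, -, -, -, n, hn, -⟩ := hp.split hz
  obtain ⟨r, hr, hrd⟩ := Nat.exists_prime_and_dvd (fun e => hk1 (orderOf_eq_one_iff.mp e))
  refine ⟨r, hr, ?_, hKU.hall.2.1 r hr (hrd.trans (K.orderOf_dvd_natCard hk))⟩
  rw [show orderOf (m * z * m⁻¹) = orderOf z from MulEquiv.orderOf_eq (MulAut.conj m) z]
  exact hrd.trans (hn ▸ orderOf_dvd_of_mem_zpowers (pow_mem (mem_zpowers z) n))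

/-- Fusion in `A₀(M)` takes place inside `M`. -/
theorem fusion {x g : G} (hx : x ∈ (sigmaA M U \ {1}) ∪ zSet M K) (hgx : g * x * g⁻¹ ∈ (sigmaA M U \ {1}) ∪ zSet M K) :
    ∃ m ∈ M, m * x * m⁻¹ = g * x * g⁻¹ := by
  have ho : orderOf (g * x * g⁻¹) = orderOf x := MulEquiv.orderOf_eq (MulAut.conj g) x
  rcases hx with hx | hx <;> rcases hgx with hy | hy
  · have hxM : x ∈ M := hx.1.1.1
    have hyM : g * x * g⁻¹ ∈ M := hy.1.1.1
    by_cases hσ : x ∈ sigmaCore M
    · -- both in `M_σ`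
      obtain ⟨-, R, -, hRc, huniq⟩ := S1374.result hG M hM x hσ hx.2
      obtain ⟨r, ⟨hrR, hr⟩, -⟩ := huniq g⁻¹ ⟨g * x * g⁻¹, hyM, by simp [mul_assoc]⟩
      have hrc : r * x = x * r := mem_centralizer_singleton_iff.mp (hRc.2.1 hrR)
      have hgr : g * r ∈ M := by
        have hn : g * r ∈ normalizer (M : Set G) := by
          refine Coprime.mem_normalizer_of_conj_smul_eq ?_
          rw [map_mul, mul_smul]
          show MulAut.conj g • (M.map (MulAut.conj r).toMonoidHom) = M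
          rw [hr]
          show MulAut.conj g • (MulAut.conj g⁻¹ • M) = M
          rw [← mul_smul, ← map_mul, mul_inv_cancel, map_one, one_smul]
        rwa [Uniq.normalizer_eq_of_normal hG hM (coatom_ne_bot hG hM) le_rfl le_normalizer] at hn
      refine ⟨g * r, hgr, ?_⟩
      rw [show g * r * x * (g * r)⁻¹ = g * (r * x * r⁻¹) * g⁻¹ by group, hrc, mul_inv_cancel_right]
    · have hyσ : g * x * g⁻¹ ∉ sigmaCore M := fun h => hσ (mem_sigmaCore_of_orderOf hG hM hxM fun r hr hd =>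
        PiElem.of_sigmaCore h r hr (ho ▸ hd))
      refine ⟨g, mem_of_ti hG hM (S1362.result hG M hM K U hKU) (fun a ha => ha.1.1.1) (fun m hm => ?_)
        ⟨hx.1, hσ⟩ hx.2 ⟨hy.1, hyσ⟩, rfl⟩
      have hconj : ∀ n ∈ M, ∀ a ∈ sigmaA M U \ (sigmaCore M : Set G),
          n * a * n⁻¹ ∈ sigmaA M U \ (sigmaCore M : Set G) := by
        have hσn := OddLocal.le_normalizer_piCoreOf (sigma M) M
        rintro n hn a ⟨⟨⟨haM, y, hy, hy1, hc⟩, ha⟩, haσ⟩
        refine ⟨⟨⟨M.mul_mem (M.mul_mem hn haM) (M.inv_mem hn), n * y * n⁻¹,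
          (mem_normalizer_iff.mp (hσn hn) y).mp hy, fun e => hy1 (conj_eq_one_iff.mp e), ?_⟩,
          (mem_normalizer_iff.mp (OddLocal.UPart.normal_U_sigma hKU hn) a).mp ha⟩,
          fun h => haσ ((mem_normalizer_iff.mp (hσn hn) a).mpr h)⟩
        calc n * a * n⁻¹ * (n * y * n⁻¹) = n * (a * y) * n⁻¹ := by group
          _ = n * y * n⁻¹ * (n * a * n⁻¹) := by rw [hc]; group
      exact mem_set_normalizer_iff.mpr fun a => ⟨hconj m hm a,
        fun ha => by simpa [mul_assoc] using hconj m⁻¹ (M.inv_mem hm) _ ha⟩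
  · obtain ⟨r, hr, hrd, hκ⟩ := zSet_prime hG hM hKU hy
    exact absurd hκ (sigmaA_prime hG hM hKU hx.1 hr (ho ▸ hrd))
  · obtain ⟨r, hr, hrd, hκ⟩ := zSet_prime hG hM hKU hx
    exact absurd hκ (sigmaA_prime hG hM hKU hy.1 hr (ho.symm ▸ hrd))
  · obtain ⟨N, hp⟩ := Uniq.exists_pair hG hM hKU.hall (zSet_ne hx)
    obtain ⟨m, hm, z, hz, rfl⟩ := hx
    obtain ⟨m', hm', z', hz', he⟩ := hy
    have hmem : m'⁻¹ * g * m ∈ K ⊔ (sigmaCore M ⊓ centralizer (K : Set G)) := hp.mem_of_conj hG hz (by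
      have h1 : m'⁻¹ * g * m * z * (m'⁻¹ * g * m)⁻¹ = z' := by
        calc m'⁻¹ * g * m * z * (m'⁻¹ * g * m)⁻¹ = m'⁻¹ * (g * (m * z * m⁻¹) * g⁻¹) * m' := by group
          _ = _ := by rw [he]; group
      rw [h1]
      exact hz'.1)
    refine ⟨g, ?_, rfl⟩
    have h1 := M.mul_mem (M.mul_mem hm' (hp.memberM.le hmem)) (M.inv_mem hm)
    simpa [mul_assoc] using h1

/-- Elements of `A₀(M)` whose centraliser leaves `M` lie in `M_σ`. -/
theorem mem_core_of_out {x : G} (hx : x ∈ (sigmaA M U \ {1}) ∪ zSet M K)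
    (hout : ¬ centralizer ({x} : Set G) ≤ M) : x ∈ sigmaCore M := by
  by_contra hσ
  rcases hx with hx | hx
  · obtain ⟨⟨⟨hxM, y, hy, hy1, hc⟩, hxU⟩, hx1⟩ := hx
    obtain ⟨r, hr, hrd, hrσ⟩ : ∃ r : ℕ, r.Prime ∧ r ∣ orderOf x ∧ r ∉ sigma M := by
      by_contra hall
      push Not at hall
      exact hσ (mem_sigmaCore_of_orderOf hG hM hxM hall)
    haveI := Fact.mk hr
    set e := x ^ (orderOf x / r)
    have heo : orderOf e = r := orderOf_pow_orderOf_div (orderOf_pos x).ne' hrd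
    have hey : Commute e y := (show Commute x y from hc).pow_left _
    have hτ : r ∈ tau2 M := (OddLocal.SigmaPrimeElem.kappa_or_tau2 hG hM hrσ (pow_mem hxM _) heo hy hy1
      hey.eq).resolve_left (sigmaA_prime hG hM hKU ⟨⟨hxM, y, hy, hy1, hc⟩, hxU⟩ hr hrd)
    have h := Uniq.tau_two_element_unique hG hM (pow_mem hxM _) (fun h => hr.ne_one (by rw [← heo]; exact orderOf_eq_one_iff.mpr h))
      (fun s hs hd => by rw [heo] at hd; rwa [(Nat.prime_dvd_prime_iff_eq hs hr).mp hd])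
      ⟨pow_mem hxM _, y, hy, hy1, hey.eq⟩
    exact hout fun c hc => h.1 (mem_centralizer_singleton_iff.mpr
      ((show Commute c x from mem_centralizer_singleton_iff.mp hc).pow_right _).eq)
  · have hK := zSet_ne hx
    obtain ⟨N, hp⟩ := Uniq.exists_pair hG hM hKU.hall hK
    obtain ⟨m, hm, z, hz, rfl⟩ := hx
    obtain ⟨k, -, -, s, hs, hs1, hzks, n, hn, hn'⟩ := hp.split hz
    obtain ⟨r, hr, hrd⟩ := Nat.exists_prime_and_dvd (fun e => hs1 (orderOf_eq_one_iff.mp e))
    set e := s ^ (orderOf s / r)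
    have heo : orderOf e = r := orderOf_pow_orderOf_div (orderOf_pos s).ne' hrd
    have hle := ((S1367.result hG M hM K U hKU hK N hp.coatomN hp.fixed.symm hp.hallN).1 (zpowers e)
      (zpowers_le.mpr (pow_mem hs _)) (by rw [Nat.card_zpowers, heo]; exact hr)).1
    rw [Uniq.centralizer_zpowers] at hle
    refine hout fun c hc => ?_
    have hzc : Commute (m⁻¹ * c * m) z := by
      have h0 := mem_centralizer_singleton_iff.mp hc
      show m⁻¹ * c * m * z = z * (m⁻¹ * c * m)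
      calc m⁻¹ * c * m * z = m⁻¹ * (c * (m * z * m⁻¹)) * m := by group
        _ = _ := by rw [h0]; group
    have hsz : Commute (m⁻¹ * c * m) s := hn' ▸ ((hzc.pow_right n).inv_right.mul_right hzc)
    have hmem := hle (mem_centralizer_singleton_iff.mpr (hsz.pow_right _).eq)
    have h1 := M.mul_mem (M.mul_mem hm hmem) (M.inv_mem hm)
    simpa [mul_assoc] using h1

omit hKU in
/-- Exchanging the factors over a normal subgroup. -/
theorem compl_swap {A B X : Subgroup G} (h : IsComplIn A B X) (hn : X ≤ normalizer (B : Set G)) :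
    IsComplIn B A X := by
  refine ⟨h.2.1, h.1, by rw [inf_comm]; exact h.2.2.1, fun v hv => ?_⟩
  obtain ⟨a, ha, b, hb, rfl⟩ := h.2.2.2 v hv
  exact ⟨a * b * a⁻¹, (mem_normalizer_iff.mp (hn (h.1 ha)) b).mp hb, a, ha, by group⟩

/-- The data over an element of `A₀(M)` whose centraliser leaves `M`. -/
theorem out_data {x : G} (hx : x ∈ (sigmaA M U \ {1}) ∪ zSet M K) (hout : ¬ centralizer ({x} : Set G) ≤ M)
    (hL : IsCoatom L) (hxL : centralizer ({x} : Set G) ≤ L) :
    IsComplIn (fittingHallOf L) (M ⊓ L) L ∧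
      centralizer ({x} : Set G) ≤ normalizer ((fittingHallOf L ⊓ centralizer ({x} : Set G) : Subgroup G) : Set G) ∧
      IsComplIn (fittingHallOf L ⊓ centralizer ({x} : Set G)) (M ⊓ centralizer ({x} : Set G))
        (centralizer ({x} : Set G)) ∧
      (∀ y ∈ (sigmaA M U \ {1}) ∪ zSet M K,
        (Nat.card (fittingHallOf L)).Coprime (Nat.card ↥(M ⊓ centralizer ({y} : Set G)))) ∧
      (x ∈ typeA L ∧ x ∉ typeA1 L) ∧ (IsOfTypeI L ∨ IsOfTypeII L) ∧
      (IsOfTypeII L → ∃ E : Subgroup ↥M, IsFrobeniusComplement E ∧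
        frobeniusKernel E = ((fittingHall ↥M : Subgroup ↥M) : Set ↥M)) := by
  have hσ := mem_core_of_out hG hM hKU hx hout
  have hx1 : x ≠ 1 := by
    rintro rfl
    rcases hx with h | h
    · exact h.2 rfl
    · obtain ⟨r, hr, hrd, -⟩ := zSet_prime hG hM hKU h
      rw [orderOf_one] at hrd
      exact hr.not_dvd_one hrd
  obtain ⟨N, ⟨hN, hCN⟩, huniq, hNF, hnorm, hcomplC, hcomplN, hdec⟩ := S1375.result hG M hM x hσ hx1 hout
  obtain rfl := huniq L hL hxL
  obtain ⟨K', U', hKU'⟩ := exists_KU hG hL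
  obtain ⟨hU', hxA, hxσ⟩ := hdec K' U' hKU'
  rw [← hNF]
  refine ⟨compl_swap hG hM hcomplN (OddLocal.le_normalizer_piCoreOf (sigma L) L), hnorm,
    compl_swap hG hM hcomplC hnorm, fun y hy => ?_, ⟨?_, ?_⟩, ?_, fun hII => ?_⟩
  · refine Nat.coprime_of_dvd fun r hr h1 h2 => ?_
    haveI := Fact.mk hr
    have hrL : r ∈ sigma L := OddLocal.piCoreOf_isPi (sigma L) L r hr h1
    obtain ⟨hκ, hτ⟩ := (S1436.result hG M hM x hσ hx1 hout L hL hxL).1
      ⟨r, hrL, h2.trans (card_dvd_of_le inf_le_left)⟩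
    obtain ⟨e, he⟩ := exists_prime_orderOf_dvd_card' r h2
    have hrM : r ∉ sigma M := fun hrM => by
      obtain ⟨g, hg⟩ := conj_of_sigma_sigma hG hM hL hrM hrL
      refine hxσ (mem_sigmaCore_of_orderOf hG hL (hxL (mem_centralizer_singleton_iff.mpr rfl)) fun s hs hd => ?_)
      rw [hg]
      exact (sigma_conj_iff hG hM g).mpr (PiElem.of_sigmaCore hσ s hs hd)
    rcases hy with hy | hy
    · by_cases hyσ : y ∈ sigmaCore M
      · rcases OddLocal.SigmaPrimeElem.kappa_or_tau2 hG hM hrM e.2.1 (by rw [Subgroup.orderOf_coe, he]) hyσ hy.2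
          (mem_centralizer_singleton_iff.mp e.2.2) with h | h
        · exact Set.notMem_empty r (hκ ▸ h)
        · exact Set.notMem_empty r (hτ ▸ h)
      · obtain ⟨⟨⟨hyM, w, hw, hw1, hc⟩, hyU⟩, -⟩ := hy
        obtain ⟨s, hs, hsd, hsσ⟩ : ∃ s : ℕ, s.Prime ∧ s ∣ orderOf y ∧ s ∉ sigma M := by
          by_contra hall
          push Not at hall
          exact hyσ (mem_sigmaCore_of_orderOf hG hM hyM hall)
        haveI := Fact.mk hs
        rcases OddLocal.SigmaPrimeElem.kappa_or_tau2 hG hM hsσ (pow_mem hyM _)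
          (orderOf_pow_orderOf_div (orderOf_pos y).ne' hsd) hw hw1
          (((show Commute y w from hc).pow_left _).eq) with h | h
        · exact Set.notMem_empty s (hκ ▸ h)
        · exact Set.notMem_empty s (hτ ▸ h)
    · exact zSet_ne hy ((kappa_eq_empty_iff hKU).mp hκ)
  · rw [typeA_eq hG hL hKU']
    exact ⟨hxA, hx1⟩
  · rintro ⟨h, -⟩
    rw [typeCore_eq hG hL] at h
    exact hxσ h
  · by_cases hK' : K' = ⊥
    · exact Or.inl ((S1380.result hG L hL K' U' hKU').mpr ⟨hK', hU'⟩)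
    · exact Or.inr ((S1381.result hG L hL K' U' hKU').mpr ⟨hK', hU'⟩)
  · have hK' : K' ≠ ⊥ := (typeII_imp hG hL hKU' hII).1
    have hκL : (kappa L).Nonempty := Set.nonempty_iff_ne_empty.mpr fun h => hK' ((kappa_eq_empty_iff hKU').mp h)
    obtain ⟨-, ⟨E, hE, -⟩, -⟩ := S1376.result hG M hM x hσ hx1 hout L hL hxL hκL
    exact ⟨E, hE, frobeniusKernel_eq_fittingHall hE⟩

end Cfsg.Agent.Lib.OddTypes
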