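import Cfsg.Prelude.Def_OddOrderChar
import Cfsg.Agent.Lib.OddTypes.SupportSets
import Cfsg.Agent.S1391

/-! The Dade set-up for `A₁(M)`, `A(M)`, `A₀(M)`. -/

set_option autoImplicit false

namespace Cfsg.Agent.Lib.OddTypes

open Subgroup Cfsg Cfsg.Agent.Lib Cfsg.Agent.Lib.Uniq
open scoped Pointwise commutatorElement

universe u

variable {G : Type u} [Group G] [Finite G] {M K U L : Subgroup G}

theorem derived_conj_mem {m a : G} (hm : m ∈ M) (ha : a ∈ ⁅M, M⁆) : m * a * m⁻¹ ∈ ⁅M, M⁆ :=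
  (mem_normalizer_iff.mp (le_normalizer_derived hm) a).mp ha

theorem typeA1_subset_typeA (hG : IsMinSimpleOddOrder G) (hM : IsCoatom M) : typeA1 M ⊆ typeA M := by
  obtain ⟨K, U, hKU⟩ := exists_KU hG hM
  rintro a ⟨ha, ha1⟩
  rw [typeCore_eq hG hM] at ha
  rw [typeA_eq hG hM hKU]
  exact ⟨⟨⟨(map_subtype_le _ : sigmaCore M ≤ M) ha, a, ha, ha1, rfl⟩, mem_sup_right ha⟩, ha1⟩

theorem typeA_subset_typeA0 (M : Subgroup G) : typeA M ⊆ typeA0 M := Set.subset_union_left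

theorem typeA_conj {m a : G} (hG : IsMinSimpleOddOrder G) (hM : IsCoatom M) (hm : m ∈ M) (ha : a ∈ typeA M) :
    m * a * m⁻¹ ∈ typeA M := by
  obtain ⟨K, U, hKU⟩ := exists_KU hG hM
  rw [typeA_eq hG hM hKU] at ha ⊢
  obtain ⟨⟨⟨haM, y, hy, hy1, hc⟩, haU⟩, ha1⟩ := ha
  refine ⟨⟨⟨M.mul_mem (M.mul_mem hm haM) (M.inv_mem hm), m * y * m⁻¹,
    (mem_normalizer_iff.mp (OddLocal.le_normalizer_piCoreOf (sigma M) M hm) y).mp hy,
    fun e => hy1 (conj_eq_one_iff.mp e), ?_⟩,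
    (mem_normalizer_iff.mp (OddLocal.UPart.normal_U_sigma hKU hm) a).mp haU⟩,
    fun e => ha1 (conj_eq_one_iff.mp e)⟩
  calc m * a * m⁻¹ * (m * y * m⁻¹) = m * (a * y) * m⁻¹ := by group
    _ = m * y * m⁻¹ * (m * a * m⁻¹) := by rw [hc]; group

theorem typeA0_conj {m a : G} (hG : IsMinSimpleOddOrder G) (hM : IsCoatom M) (hm : m ∈ M) (ha : a ∈ typeA0 M) :
    m * a * m⁻¹ ∈ typeA0 M := by
  rcases ha with ha | ⟨hnI, W₁, V, W₂, hP, n, hn, w, hw, hw1, hw2, rfl⟩
  · exact Or.inl (typeA_conj hG hM hm ha)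
  · exact Or.inr ⟨hnI, W₁, V, W₂, hP, m * n, M.mul_mem hm hn, w, hw, hw1, hw2, by group⟩

theorem typeA0_subset_M (hG : IsMinSimpleOddOrder G) (hM : IsCoatom M) : typeA0 M ⊆ (M : Set G) := by
  obtain ⟨K, U, hKU⟩ := exists_KU hG hM
  intro a ha
  rcases typeA0_subset hG hM hKU ha with h | ⟨m, hm, z, hz, rfl⟩
  · exact h.1.1.1
  · refine M.mul_mem (M.mul_mem hm ?_) (M.inv_mem hm)
    exact (sup_le hKU.hall.1 (inf_le_left.trans (map_subtype_le _))) hz.1

theorem one_notMem_typeA0 (hG : IsMinSimpleOddOrder G) (hM : IsCoatom M) : (1 : G) ∉ typeA0 M := by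
  obtain ⟨K, U, hKU⟩ := exists_KU hG hM
  intro h
  rcases typeA0_subset hG hM hKU h with h | h
  · exact h.2 rfl
  · obtain ⟨r, hr, hrd, -⟩ := zSet_prime hG hM hKU h
    rw [orderOf_one] at hrd
    exact hr.not_dvd_one hrd

/-- The three sets: inside `A₀(M)`, invariant, nonempty. -/
theorem three_sets (hG : IsMinSimpleOddOrder G) (hM : IsCoatom M) {A : Set G}
    (hA : A = typeA1 M ∨ A = typeA M ∨ A = typeA0 M) :
    A ⊆ typeA0 M ∧ (∀ m ∈ M, ∀ a ∈ A, m * a * m⁻¹ ∈ A) ∧ typeA1 M ⊆ A := by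
  rcases hA with rfl | rfl | rfl
  · refine ⟨(typeA1_subset_typeA hG hM).trans (typeA_subset_typeA0 M), fun m hm a ha => ?_, subset_rfl⟩
    rw [typeA1, typeCore_eq hG hM] at ha ⊢
    exact ⟨(mem_normalizer_iff.mp (OddLocal.le_normalizer_piCoreOf (sigma M) M hm) a).mp ha.1,
      fun e => ha.2 (conj_eq_one_iff.mp e)⟩
  · exact ⟨typeA_subset_typeA0 M, fun m hm a => typeA_conj hG hM hm, typeA1_subset_typeA hG hM⟩
  · exact ⟨subset_rfl, fun m hm a => typeA0_conj hG hM hm,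
      (typeA1_subset_typeA hG hM).trans (typeA_subset_typeA0 M)⟩

theorem typeA1_nonempty (hG : IsMinSimpleOddOrder G) (hM : IsCoatom M) : (typeA1 M).Nonempty := by
  obtain ⟨K, U, hKU⟩ := exists_KU hG hM
  have hσ : sigmaCore M ≠ ⊥ := by
    by_cases hK : K = ⊥
    · intro h
      obtain ⟨hsol, -, hne, -⟩ := typeF_of hG hM hKU hK (U_ne_of_trivial_K hG hM hKU hK)
      exact hne ((map_eq_bot_iff_of_injective _ M.subtype_injective).mp (le_bot_iff.mp (h ▸ fcore_le_sigmaCore hG hM)))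
    · exact fun h => Uniq.star_ne_bot hG hM hKU.hall hK (le_bot_iff.mp (h ▸ inf_le_left))
  obtain ⟨x, hx, hx1⟩ := (sigmaCore M).bot_or_exists_ne_one.resolve_left hσ
  exact ⟨x, by rw [typeA1, typeCore_eq hG hM]; exact ⟨hx, hx1⟩⟩

/-- `N(A) = M`. -/
theorem normalizer_eq (hG : IsMinSimpleOddOrder G) (hM : IsCoatom M) {A : Set G}
    (hA : A = typeA1 M ∨ A = typeA M ∨ A = typeA0 M) : normalizer A = M := by
  obtain ⟨hsub, hconj, h1⟩ := three_sets hG hM hA
  have hMA : M ≤ normalizer A := fun m hm => mem_set_normalizer_iff.mpr fun a =>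
    ⟨hconj m hm a, fun ha => by simpa [mul_assoc] using hconj m⁻¹ (M.inv_mem hm) _ ha⟩
  rcases hM.le_iff.mp hMA with htop | he
  · exfalso
    obtain ⟨x, hx⟩ := typeA1_nonempty hG hM
    haveI := hG.2.1
    have hcl : normalClosure ({x} : Set G) ≤ M := by
      refine (closure_le M).mpr fun v hv => ?_
      obtain ⟨u, hu, hc⟩ := Group.mem_conjugatesOfSet_iff.mp hv
      rw [Set.mem_singleton_iff] at hu
      subst hu
      obtain ⟨c, rfl⟩ := isConj_iff.mp hc
      exact typeA0_subset_M hG hM (hsub ((mem_set_normalizer_iff.mp (htop.ge (mem_top c)) _).mp (h1 hx)))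
    rcases (normalClosure_normal (s := ({x} : Set G))).eq_bot_or_eq_top with hb | ht
    · exact hx.2 (mem_bot.mp (hb ▸ subset_normalClosure rfl))
    · exact hM.1 (eq_top_iff.mpr (ht ▸ hcl))
  · exact he

/-- The two values of `R(a)`. -/
theorem supportR_cases (hG : IsMinSimpleOddOrder G) (hM : IsCoatom M) {a : G} (ha : a ∈ typeA0 M) :
    (centralizer ({a} : Set G) ≤ M ∧ supportR M a = ⊥) ∨
      ∃ L : Subgroup G, ¬ centralizer ({a} : Set G) ≤ M ∧ IsCoatom L ∧ centralizer ({a} : Set G) ≤ L ∧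
        supportR M a = fittingHallOf L ⊓ centralizer ({a} : Set G) := by
  by_cases h : centralizer ({a} : Set G) ≤ M
  · exact Or.inl ⟨h, by rw [supportR, dif_neg fun h' => h'.1 h]⟩
  · obtain ⟨-, hu⟩ := (S1391.result hG M hM (typeA0 M) (Or.inr rfl)).2.1 a ha h
    refine Or.inr ⟨Classical.choose hu.exists, h, (Classical.choose_spec hu.exists).1,
      (Classical.choose_spec hu.exists).2, ?_⟩
    rw [supportR, dif_pos ⟨h, hu⟩]

/-- The Dade hypothesis. -/
theorem dadeHypothesis (hG : IsMinSimpleOddOrder G) (hM : IsCoatom M) {A : Set G}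
    (hA : A = typeA1 M ∨ A = typeA M ∨ A = typeA0 M) : DadeHypothesis A M (supportR M) := by
  obtain ⟨hsub, hconj, -⟩ := three_sets hG hM hA
  obtain ⟨hfus, -, hdata⟩ := S1391.result hG M hM (typeA0 M) (Or.inr rfl)
  refine
    { one_not_mem := fun h => one_notMem_typeA0 hG hM (hsub h)
      subset := hsub.trans (typeA0_subset_M hG hM)
      conj_mem := fun x hx a ha => hconj x hx a ha
      fusion := fun a ha g hg => hfus a (hsub ha) g (hsub hg)
      le_centralizer := fun a ha => ?_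
      conj_mem_H := fun a ha c hc u hu => ?_
      inf_eq_bot := fun a ha => ?_
      sup_eq := fun a ha => ?_
      coprime := fun a ha b hb => ?_ }
  all_goals rcases supportR_cases hG hM (hsub ha) with ⟨hle, he⟩ | ⟨L, hn, hL, haL, he⟩
  all_goals try rw [he] at hu
  all_goals rw [he]
  · exact bot_le
  · exact inf_le_right
  · rw [mem_bot] at hu ⊢; rw [hu, mul_one, mul_inv_cancel]
  · exact (mem_normalizer_iff.mp ((hdata a (hsub ha) hn L hL haL).2.1 hc) u).mp hu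
  · exact bot_inf_eq _
  · exact (hdata a (hsub ha) hn L hL haL).2.2.1.2.2.1
  · rw [bot_sup_eq, inf_eq_right.mpr hle]
  · obtain ⟨h1, h2, h3, h4⟩ := (hdata a (hsub ha) hn L hL haL).2.2.1
    exact le_antisymm (sup_le h1 h2) fun c hc => by
      obtain ⟨u, hu, v, hv, rfl⟩ := h4 c hc
      exact mul_mem_sup hu hv
  · rw [card_bot]; exact Nat.coprime_one_left _
  · exact ((hdata a (hsub ha) hn L hL haL).2.2.2.1 b (hsub hb)).coprime_dvd_left
      (card_dvd_of_le inf_le_left)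

end Cfsg.Agent.Lib.OddTypes
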