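import Cfsg.Agent.Lib.OddTypes.Basic
import Cfsg.Agent.S1355
import Cfsg.Agent.S1356
import Cfsg.Agent.S1364
import Mathlib.GroupTheory.SchurZassenhaus

/-! Data of type P from a standard factorisation with `K ≠ 1`. -/

set_option autoImplicit false

namespace Cfsg.Agent.Lib.OddTypes

open Subgroup Cfsg
open scoped Pointwise commutatorElement

universe u

variable {G : Type u} [Group G] [Finite G] {M N K U A B X W₁ W₂ : Subgroup G}

/-- `M_F` is a normal Hall subgroup of `M` inside `M_σ ≤ M'`. -/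
theorem fcore_le_derived (hG : IsMinSimpleOddOrder G) (hM : IsCoatom M) :
    fittingHallOf M ≤ ⁅M, M⁆ :=
  (OddLocal.Signalizer.fittingHallOf_le_sigmaCore hG hM).trans (Uniq.sigmaCore_le_derived hG hM)

theorem fcore_normal (M : Subgroup G) : M ≤ normalizer (fittingHallOf M : Set G) := by
  intro m hm
  rw [mem_normalizer_iff]
  intro x
  constructor
  · rintro ⟨y, hy, rfl⟩
    exact ⟨⟨m, hm⟩ * y * ⟨m, hm⟩⁻¹, (inferInstance : (fittingHall M).Normal).conj_mem y hy _, rfl⟩
  · intro hx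
    obtain ⟨y, hy, hye⟩ := hx
    refine ⟨⟨m, hm⟩⁻¹ * y * ⟨m, hm⟩, by
      simpa using (inferInstance : (fittingHall M).Normal).conj_mem y hy ⟨m, hm⟩⁻¹, ?_⟩
    replace hye : (y : G) = m * x * m⁻¹ := hye
    simp [hye, mul_assoc]

theorem star_le_derived (hG : IsMinSimpleOddOrder G) (hM : IsCoatom M) (K : Subgroup G) :
    sigmaCore M ⊓ centralizer (K : Set G) ≤ ⁅M, M⁆ :=
  inf_le_left.trans (Uniq.sigmaCore_le_derived hG hM)

theorem kappa_hall_coprime (hKU : IsSigmaDecomposition M K U) :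
    (Nat.card K).Coprime (K.relIndex M) :=
  Nat.coprime_of_dvd fun p hp h1 h2 => hKU.hall.2.2 p hp (hKU.hall.2.1 p hp h1) h2

/-- `M'` and `K` have coprime orders. -/
theorem derived_coprime (hG : IsMinSimpleOddOrder G) (hM : IsCoatom M)
    (hKU : IsSigmaDecomposition M K U) (hK1 : K ≠ ⊥) :
    (Nat.card ↥⁅M, M⁆).Coprime (Nat.card K) := by
  refine Nat.coprime_of_dvd fun p hp h1 h2 => ?_
  have hκ := hKU.hall.2.1 p hp h2
  rw [OddLocal.Decomposition.derived_eq hG hM hKU hK1] at h1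
  rcases Uniq.prime_dvd_sup (hKU.compl.1.trans (OddLocal.le_normalizer_piCoreOf (sigma M) M)) hp h1 with h | h
  · exact (OddLocal.UPart.prime_U hG hM hKU hp h).2 hκ
  · exact hκ.2.2.1 (OddLocal.piCoreOf_isPi (sigma M) M p hp h)

/-- `K` is a complement of `M'`. -/
theorem derived_compl (hG : IsMinSimpleOddOrder G) (hM : IsCoatom M)
    (hKU : IsSigmaDecomposition M K U) (hK1 : K ≠ ⊥) : IsComplIn ⁅M, M⁆ K M := by
  refine ⟨commutator_le_self M, hKU.hall.1,
    Coprime.inf_eq_bot_of_coprime (derived_coprime hG hM hKU hK1), fun m hm => ?_⟩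
  obtain ⟨u, hu, x, hx, rfl⟩ := hKU.compl.2.2.2 m hm
  have hKn : K ≤ normalizer (sigmaCore M : Set G) :=
    hKU.hall.1.trans (OddLocal.le_normalizer_piCoreOf (sigma M) M)
  obtain ⟨k, hk, s, hs, rfl⟩ := (Coprime.mem_sup_of_le_normalizer hKn).mp hx
  refine ⟨u * (k * s * k⁻¹), ?_, k, hk, by group⟩
  rw [OddLocal.Decomposition.derived_eq hG hM hKU hK1]
  exact mul_mem (mem_sup_left hu) (mem_sup_right ((mem_normalizer_iff.mp (hKn hk) s).mp hs))

/-- The self-normalizing cyclic pair. -/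
theorem selfNormalizing (hG : IsMinSimpleOddOrder G) (hM : IsCoatom M)
    (hKU : IsSigmaDecomposition M K U) (hK1 : K ≠ ⊥) :
    IsSelfNormalizingCyclic K (sigmaCore M ⊓ centralizer (K : Set G)) := by
  obtain ⟨N, h⟩ := Uniq.exists_pair hG hM hKU.hall hK1
  refine ⟨hK1, Uniq.star_ne_bot hG hM hKU.hall hK1, Coprime.inf_eq_bot_of_coprime ?_,
    fun a ha b hb => mem_centralizer_iff.mp hb.2 a ha, h.cyclic_join hG (Uniq.h77 hG), fun Y hY hYne => ?_⟩
  · exact (derived_coprime hG hM hKU hK1).symm.coprime_dvd_right (card_dvd_of_le (star_le_derived hG hM K))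
  · haveI := h.cyclic_join hG (Uniq.h77 hG)
    set Z := K ⊔ (sigmaCore M ⊓ centralizer (K : Set G)) with hZ
    obtain ⟨z, hz⟩ := hYne
    refine le_antisymm (fun g hg => ?_) fun g hg => ?_
    · exact h.mem_of_conj hG (hY hz) (hY ((mem_set_normalizer_iff.mp hg z).mp hz)).1
    · rw [mem_set_normalizer_iff]
      intro x
      have hcomm : ∀ w ∈ Z, g * w * g⁻¹ = w := fun w hw => by
        rw [show g * w = w * g from congrArg Subtype.val
          ((IsCyclic.commGroup (α := Z)).mul_comm (⟨g, hg⟩ : Z) ⟨w, hw⟩), mul_inv_cancel_right]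
      constructor
      · intro hx; rwa [hcomm x (hY hx).1]
      · intro hx
        have hxZ : x ∈ Z := by
          rw [show x = g⁻¹ * (g * x * g⁻¹) * g by group]
          exact mul_mem (mul_mem (inv_mem hg) (hY hx).1) hg
        rwa [hcomm x hxZ] at hx

theorem centralizer_in_derived (hG : IsMinSimpleOddOrder G) (hM : IsCoatom M)
    (hKU : IsSigmaDecomposition M K U) (hK1 : K ≠ ⊥) {x : G} (hx : x ∈ K) (hx1 : x ≠ 1) :
    ⁅M, M⁆ ⊓ centralizer ({x} : Set G) = sigmaCore M ⊓ centralizer (K : Set G) := by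
  refine le_antisymm (fun c hc => ?_) fun c hc => ⟨star_le_derived hG hM K hc,
    mem_centralizer_singleton_iff.mpr ((mem_centralizer_iff.mp hc.2 x hx).symm)⟩
  have hcM : c ∈ M ⊓ centralizer ({x} : Set G) := ⟨commutator_le_self M hc.1, hc.2⟩
  rw [(OddLocal.Decomposition.centralizer_kappa hG hM hKU.cyclic hKU.hall).2 hK1 x hx hx1] at hcM
  obtain ⟨k, hk, s, hs, rfl⟩ := (Coprime.mem_sup_of_le_normalizer
    ((le_centralizer_iff.mp inf_le_right).trans (centralizer_le_normalizer _))).mp hcM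
  have hk' : k ∈ ⁅M, M⁆ ⊓ K :=
    ⟨(mul_mem_cancel_right (star_le_derived hG hM K hs)).mp hc.1, hk⟩
  rw [Coprime.inf_eq_bot_of_coprime (derived_coprime hG hM hKU hK1), mem_bot] at hk'
  rw [hk', one_mul]
  exact hs

/-- A complement of `M_F` in `M'` normalised by `K`. -/
theorem exists_fcore_compl (hG : IsMinSimpleOddOrder G) (hM : IsCoatom M)
    (hKU : IsSigmaDecomposition M K U) (hK1 : K ≠ ⊥) :
    ∃ V : Subgroup G, IsComplIn (fittingHallOf M) V ⁅M, M⁆ ∧ K ≤ normalizer (V : Set G) ∧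
      Group.IsNilpotent V := by
  haveI := solvable hG hM
  obtain ⟨-, -, hHall⟩ := OddLocal.fittingHall_mem M
  obtain ⟨E₀, hE₀⟩ := exists_right_complement'_of_coprime hHall
  have hE₀c : Nat.card E₀ = (fittingHall M).index := (IsComplement'.index_eq_card (IsComplement'.symm hE₀)).symm
  have hE₀i : E₀.index = Nat.card (fittingHall M) := IsComplement'.index_eq_card hE₀
  have hKd : (Nat.card (K.subgroupOf M)).Coprime E₀.index := by
    rw [hE₀i, Coprime.card_subgroupOf hKU.hall.1]
    refine (derived_coprime hG hM hKU hK1).symm.coprime_dvd_right ?_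
    rw [← card_map_of_injective M.subtype_injective]
    exact card_dvd_of_le (fcore_le_derived hG hM)
  obtain ⟨g, hg⟩ := Hall.exists_le_conj (H := E₀) (K := K.subgroupOf M)
    (by rw [hE₀c, hE₀i]; exact hHall.symm) hKd
  set E := MulAut.conj g • E₀ with hE
  have hEcompl : IsComplement' (fittingHall M) E := by
    have hcardE : Nat.card E = (fittingHall M).index := by
      rw [← hE₀c]
      exact Nat.card_congr (equivSMul (MulAut.conj g) E₀).toEquiv.symm
    refine isComplement'_of_card_mul_and_disjoint ?_ ?_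
    · rw [hcardE]; exact card_mul_index _
    · exact disjoint_iff.mpr (Coprime.inf_eq_bot_of_coprime (hcardE ▸ hHall))
  set V := (E.map M.subtype) ⊓ ⁅M, M⁆ with hV
  have hcompl : IsComplIn (fittingHallOf M) V ⁅M, M⁆ := by
    refine ⟨fcore_le_derived hG hM, inf_le_right, ?_, fun m hm => ?_⟩
    · rw [eq_bot_iff]
      rintro x ⟨hx1, ⟨e, he, rfl⟩, -⟩
      obtain ⟨y, hy, hye⟩ := hx1
      obtain rfl : y = e := M.subtype_injective hye
      have : y ∈ fittingHall M ⊓ E := ⟨hy, he⟩
      rw [disjoint_iff.mp hEcompl.disjoint, mem_bot] at this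
      simp [this]
    · obtain ⟨⟨h, e⟩, he⟩ := hEcompl.2 ⟨m, commutator_le_self M hm⟩
      have hm' : (h : M).1 * (e : M).1 = m := congrArg Subtype.val he
      refine ⟨_, ⟨_, h.2, rfl⟩, (e : M).1, ⟨⟨_, e.2, rfl⟩, ?_⟩, hm'.symm⟩
      rw [← hm'] at hm
      exact (mul_mem_cancel_left (fcore_le_derived hG hM ⟨_, h.2, rfl⟩)).mp hm
  have hKE : K ≤ E.map M.subtype := fun k hk => ⟨⟨k, hKU.hall.1 hk⟩, hg hk, rfl⟩
  refine ⟨V, hcompl, fun k hk => mem_normalizer_iff.mpr fun x => ?_, ?_⟩
  · have h2 : k ∈ normalizer ((⁅M, M⁆ : Subgroup G) : Set G) := by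
      haveI : (commutator M).Normal := inferInstance
      rw [← map_subtype_commutator]
      exact mem_normalizer_iff.mpr fun y => by
        constructor
        · rintro ⟨w, hw, rfl⟩
          exact ⟨⟨k, hKU.hall.1 hk⟩ * w * ⟨k, hKU.hall.1 hk⟩⁻¹, this.conj_mem w hw _, rfl⟩
        · intro hw
          obtain ⟨w, hw, hwe⟩ := hw
          refine ⟨⟨k, hKU.hall.1 hk⟩⁻¹ * w * ⟨k, hKU.hall.1 hk⟩, by
            simpa using this.conj_mem w hw ⟨k, hKU.hall.1 hk⟩⁻¹, ?_⟩
          replace hwe : (w : G) = k * y * k⁻¹ := hwe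
          simp [hwe, mul_assoc]
    exact and_congr (mem_normalizer_iff.mp (le_normalizer (hKE hk)) x) (mem_normalizer_iff.mp h2 x)
  · -- `V` embeds in the nilpotent group `M' / M_F`
    obtain ⟨-, -, -, -, hnil⟩ := Cfsg.Agent.S1355.result hG M hM
    haveI := hnil
    let f : V →* ((commutator M).map (QuotientGroup.mk' (fittingHall M))) :=
      { toFun := fun v => ⟨QuotientGroup.mk' (fittingHall M) ⟨v, commutator_le_self M v.2.2⟩, by
          refine mem_map_of_mem _ ?_
          have h1 : (v : G) ∈ (commutator M).map M.subtype := by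
            rw [map_subtype_commutator]; exact v.2.2
          obtain ⟨w, hw, hwe⟩ := h1
          obtain rfl : w = ⟨v, commutator_le_self M v.2.2⟩ := Subtype.ext hwe
          exact hw⟩
        map_one' := Subtype.ext (map_one _)
        map_mul' := fun a b => Subtype.ext (map_mul (QuotientGroup.mk' (fittingHall M))
          ⟨a, commutator_le_self M a.2.2⟩ ⟨b, commutator_le_self M b.2.2⟩) }
    refine Group.nilpotent_of_mulEquiv (MonoidHom.ofInjective (f := f) ?_).symm
    refine (injective_iff_map_eq_one f).mpr fun v hv => ?_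
    have h1 : (v : G) ∈ fittingHallOf M := ⟨⟨v, commutator_le_self M v.2.2⟩,
      (QuotientGroup.eq_one_iff _).mp (congrArg Subtype.val hv), rfl⟩
    have h2 : (v : G) ∈ fittingHallOf M ⊓ V := ⟨h1, v.2⟩
    rw [hcompl.2.2.1, mem_bot] at h2
    exact Subtype.ext h2

/-- `K*` lies in `M_F ∩ M''`. -/
theorem star_le_fcore (hG : IsMinSimpleOddOrder G) (hM : IsCoatom M)
    (hKU : IsSigmaDecomposition M K U) (hK1 : K ≠ ⊥) :
    sigmaCore M ⊓ centralizer (K : Set G) ≤ fittingHallOf M ⊓ ⁅⁅M, M⁆, ⁅M, M⁆⁆ := by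
  refine le_inf ?_ (OddLocal.Decomposition.fixed_le_second_derived hG hM hKU hK1)
  by_cases he : fittingHallOf M = sigmaCore M
  · exact inf_le_left.trans he.ge
  · obtain ⟨q, Q, h⟩ := OddLocal.Fcore.exists_structure hG hM hKU he
    exact h.star_le.trans h.le_fitting

/-- The data of type P. -/
theorem typePWith (hG : IsMinSimpleOddOrder G) (hM : IsCoatom M)
    (hKU : IsSigmaDecomposition M K U) (hK1 : K ≠ ⊥) {V : Subgroup G}
    (hV : IsComplIn (fittingHallOf M) V ⁅M, M⁆) (hVn : K ≤ normalizer (V : Set G))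
    (hVnil : Group.IsNilpotent V) :
    IsTypePWith M K V (sigmaCore M ⊓ centralizer (K : Set G)) := by
  obtain ⟨h1, h2, h3⟩ := Cfsg.Agent.S1356.result hG M hM
  have hκ : (kappa M).Nonempty := by
    obtain ⟨p, hp, hd⟩ := Nat.exists_prime_and_dvd (mt K.eq_bot_of_card_eq hK1)
    exact ⟨p, hKU.hall.2.1 p hp hd⟩
  exact
    { W₁_ne := hK1
      W₁_cyclic := hKU.cyclic
      W₁_hall := kappa_hall_coprime hKU
      W₁_compl := derived_compl hG hM hKU hK1
      U_nilpotent := hVnil
      U_normal := hVn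
      U_compl := hV
      H_not_cyclic := (Cfsg.Agent.S1364.result hG M hM K U hKU hK1).2.2.2
      derived_two_le := by rw [sup_comm, ← h2]; exact h1
      fitting_eq := by rw [sup_comm, ← h2]
      fitting_le := h3 hκ
      W₂_le := star_le_fcore hG hM hKU hK1
      W₂_centralizer := fun x hx hx1 => centralizer_in_derived hG hM hKU hK1 hx hx1
      selfNormalizing := selfNormalizing hG hM hKU hK1 }

end Cfsg.Agent.Lib.OddTypes
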