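import Cfsg.Agent.S1518
import Cfsg.Agent.S1521
import Cfsg.Agent.S1535
import Cfsg.Agent.S0040
import Cfsg.Agent.Lib.Char.BrauerPerm
import Cfsg.Agent.Lib.Dade.SibleyMain
import Mathlib.GroupTheory.SpecificGroups.ZGroup
import Mathlib.Tactic

/-!
Coherence of the induced characters of a Frobenius group `L` with respect to the Dade map on the
nonidentity elements of its kernel.
-/

set_option autoImplicit false

namespace Cfsg.Agent.Lib.OddTypes.FrobCoherence

open Cfsg Cfsg.Agent.Lib.Char Cfsg.Agent.Lib.Dade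
open scoped Classical

universe u

section Group

variable {L : Type u} [Group L] [Finite L] {H : Subgroup L} [H.Normal]

/-- An element outside the kernel fixes no element of `H` outside `[H, H]` modulo `[H, H]`. -/
theorem mem_of_fix (hC : ∀ h ∈ H, h ≠ 1 → Subgroup.centralizer ({h} : Set L) ≤ H)
    {D : Subgroup L} [D.Normal] (hD : D ≤ H) {k : L} (hk : k ∈ H) (hkD : k ∉ D) (x : L)
    (hx : x * k * x⁻¹ * k⁻¹ ∈ D) : x ∈ H := by
  by_contra hxH
  have hn : H.Normal := inferInstance
  have hDn : D.Normal := inferInstance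
  let f : L → L := fun h => x * h * x⁻¹ * h⁻¹
  have hinj : ∀ a ∈ H, ∀ b ∈ H, f a = f b → a = b := by
    intro a ha b hb e
    by_contra hne
    have hab : b⁻¹ * a ≠ 1 := fun h => hne (inv_mul_eq_one.mp h).symm
    refine hxH (hC _ (H.mul_mem (H.inv_mem hb) ha) hab
      (Subgroup.mem_centralizer_singleton_iff.mpr ?_))
    have e' : x * a * x⁻¹ * a⁻¹ = x * b * x⁻¹ * b⁻¹ := e
    calc x * (b⁻¹ * a) = (x * b * x⁻¹)⁻¹ * (x * a * x⁻¹ * a⁻¹) * a * x := by group
      _ = b⁻¹ * a * x := by rw [e']; group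
  let g : D → D := fun d => ⟨f d, D.mul_mem (hDn.conj_mem _ d.2 x) (D.inv_mem d.2)⟩
  have hg : Function.Injective g := fun a b e =>
    Subtype.ext (hinj _ (hD a.2) _ (hD b.2) (congrArg Subtype.val e))
  obtain ⟨d, hd⟩ := Finite.surjective_of_injective hg ⟨f k, hx⟩
  exact hkD (hinj _ (hD d.2) k hk (congrArg Subtype.val hd) ▸ d.2)

/-- The index of the kernel of an odd Frobenius group divides every multiple of the exponent of
the quotient. -/
theorem index_dvd_of_exponent_dvd (hodd : Odd (Nat.card L))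
    (hC : ∀ h ∈ H, h ≠ 1 → Subgroup.centralizer ({h} : Set L) ≤ H) (hH : H ≠ ⊥)
    {U : Subgroup L} (hU : Subgroup.IsComplement' H U) {n : ℕ}
    (hn : Monoid.exponent (L ⧸ H) ∣ n) : H.index ∣ n := by
  have hfpf : ∀ h ∈ U, h ≠ 1 → H ⊓ Subgroup.centralizer {h} = ⊥ := by
    intro h hh h1
    refine (Subgroup.eq_bot_iff_forall _).mpr fun y hy => ?_
    by_contra hy1
    have := hC y hy.1 hy1 (Subgroup.mem_centralizer_singleton_iff.mpr
      (Subgroup.mem_centralizer_singleton_iff.mp hy.2).symm)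
    exact h1 (Subgroup.mem_bot.mp (hU.disjoint.le_bot ⟨this, hh⟩))
  have hUodd : Odd (Nat.card U) := hodd.of_dvd_nat U.card_subgroup_dvd_card
  have : IsZGroup U := by
    refine ⟨fun p hp P => ?_⟩
    have : Fact p.Prime := ⟨hp⟩
    rcases S0040.result H U hU hH hfpf p P with h | ⟨k, ⟨e⟩⟩
    · exact h
    · exfalso
      have h2 : 2 ∣ Nat.card (P : Subgroup U) := by
        rw [Nat.card_congr e.toEquiv]
        have : NeZero (2 ^ k) := ⟨by simp⟩
        rw [Nat.card_eq_fintype_card, QuaternionGroup.card]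
        exact ⟨2 * 2 ^ k, by ring⟩
      exact hUodd.not_two_dvd_nat (h2.trans (P : Subgroup U).card_subgroup_dvd_card)
  let e : L ⧸ H ≃* U := (Subgroup.IsComplement'.QuotientMulEquiv hU.symm)
  rw [Monoid.exponent_eq_of_mulEquiv e, IsZGroup.exponent_eq_card] at hn
  exact hU.symm.index_eq_card ▸ hn

end Group

theorem irr_conjFun {X : Type u} [Group X] [Fintype X] {χ : X → ℂ} (h : IsIrrCharacter X χ) :
    IsIrrCharacter X (conjFun χ) := isIrrCharacter_conj h

variable {G : Type u} [Group G] [Fintype G] {L : Subgroup G} [Fintype L] {A : Set G}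
  {R₀ : G → Subgroup G} {H : Subgroup L} [H.Normal]

section Dade

variable (hD : DadeHypothesis A L R₀) (hC : ∀ h ∈ H, h ≠ 1 → Subgroup.centralizer ({h} : Set L) ≤ H)
  (hA : ∀ x : L, (x : G) ∈ A ↔ x ∈ H ∧ x ≠ 1)

include hC hA

theorem support {α : L → ℂ} (h : α ∈ zspanOn (relChars H) {1}ᶜ) :
    ∀ x : L, (x : G) ∉ A → α x = 0 := by
  intro x hx
  obtain ⟨h1, h2⟩ := mem_zspanOn.mp h
  by_cases hxH : x ∈ H
  · have : x = 1 := by_contra fun e => hx ((hA x).mpr ⟨hxH, e⟩)
    rw [this, h2]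
  · exact (zspan_relChars_off hC h1).2.2 x hxH

include hD

theorem dade_isometry :
    IsLinearIsometryOn (zspanOn (relChars H) {1}ᶜ) (dadeIsometry A L R₀) ∧
      ∀ α ∈ zspanOn (relChars H) {1}ᶜ, dadeIsometry A L R₀ α 1 = 0 := by
  refine ⟨⟨fun α _ β _ => ?_, fun α _ n => ?_, fun α hα β hβ => ?_, fun α hα => ?_⟩,
    fun α _ => dade_eq_zero hD α (not_inSupp_one hD)⟩
  · funext g
    simp only [dadeIsometry, Pi.add_apply]
    split_ifs <;> simp
  · funext g
    simp only [dadeIsometry, Pi.smul_apply]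
    split_ifs <;> simp
  · have hc := fun {γ : L → ℂ} (h : γ ∈ zspanOn (relChars H) {1}ᶜ) =>
      (zspan_relChars_off hC (mem_zspanOn.mp h).1).1
    refine classInner_dade hD (hc hα) (support hC hA hα) (isClassFunction_dade hD (hc hβ))
      fun a ha => ?_
    have hconst : ∀ u ∈ R₀ (a : G), dadeIsometry A L R₀ β ((a : G) * u) = β a := fun u hu =>
      dade_apply hD (hc hβ) ha hu (x := 1) (by simp)
    rw [avgH, finsum_mem_eq_toFinset_sum,
      Finset.sum_congr rfl (g := fun _ => β a) fun u hu => hconst u (by simpa using hu),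
      Finset.sum_const, nsmul_eq_mul, ← mul_assoc, ← Set.ncard_eq_toFinset_card',
      ← Nat.card_coe_set_eq, show Nat.card (R₀ (a : G) : Set G) = Nat.card (R₀ (a : G)) from rfl,
      inv_mul_cancel₀ (card_ne_zero_complex _), one_mul]
  · exact isGeneralizedCharacter_dade hD
      (zspan_relChars_off hC (mem_zspanOn.mp hα).1).2.1 (support hC hA hα)

omit hD hA in
theorem inducedIrrAbove_eq : inducedIrrAbove H ⊥ = relChars H := by
  ext χ
  constructor
  · rintro ⟨θ, hθ, hθ1, -, rfl⟩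
    exact ind_mem_relChars hC hθ hθ1
  · intro hχ
    obtain ⟨θ, hθ, hθ1, rfl⟩ := exists_of_mem_relChars hC hχ
    exact ⟨θ, hθ, hθ1, fun a ha => by
      rw [Subgroup.mem_bot] at ha; rw [show a = 1 from Subtype.ext ha], rfl⟩

theorem exists_system (hodd : Odd (Nat.card L)) (hne : (relChars H).Nonempty) :
    ∃ R, IsCoherenceSystem (relChars H) (dadeIsometry A L R₀) R := by
  classical
  obtain ⟨hiso, hzero⟩ := dade_isometry hD hC hA
  have hcc : ∀ χ ∈ relChars H, conjFun χ ∈ relChars H ∧ conjFun χ ≠ χ := by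
    rintro χ ⟨hχ, z, hz, hne⟩
    refine ⟨⟨irr_conjFun hχ, z, hz, fun h => hne ((starRingEnd ℂ).injective h)⟩,
      fun h => hne ?_⟩
    have := eq_one_of_real hodd ⟨χ, hχ⟩ fun y => Complex.conj_eq_iff_im.mp (congrFun h y)
    change χ = fun _ => 1 at this
    rw [this]
  have hdiff : ∀ χ ∈ relChars H, χ - conjFun χ ∈ zspanOn (relChars H) {1}ᶜ := fun χ hχ => by
    refine mem_zspanOn.mpr ⟨zspan_sub (zspan_subset hχ) (zspan_subset (hcc χ hχ).1), ?_⟩
    obtain ⟨d, hd⟩ := exists_natDegree (isCharacter_of_isIrr hχ.1)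
    simp [conjFun, hd]
  have hex : ∀ χ ∈ relChars H, ∃ μ : G → ℂ, IsIrrCharacter G μ ∧ conjFun μ ≠ μ ∧
      dadeIsometry A L R₀ (χ - conjFun χ) = μ - conjFun μ := by
    intro χ hχ
    obtain ⟨μ, hμ, he⟩ := S1518.result A L R₀ hD χ hχ.1 fun x hx1 hxA =>
      relChars_off hC hχ fun hxH => hxA ((hA x).mpr ⟨hxH, hx1⟩)
    refine ⟨μ, hμ, fun hr => ?_, he⟩
    have h := hiso.2.2.1 _ (hdiff χ hχ) _ (hdiff χ hχ)
    rw [he, hr, sub_self, classInner_sub_left, classInner_sub_right, classInner_sub_right,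
      classInner_irr_self hχ.1, classInner_irr_self (irr_conjFun hχ.1),
      classInner_irr_ne hχ.1 (irr_conjFun hχ.1) (hcc χ hχ).2.symm,
      classInner_irr_ne (irr_conjFun hχ.1) hχ.1 (hcc χ hχ).2] at h
    simp [classInner] at h
    norm_num at h
  choose μ hμ hμr hμe using hex
  let R : (L → ℂ) → Finset (G → ℂ) := fun χ =>
    if h : χ ∈ relChars H then {μ χ h, -conjFun (μ χ h)} else ∅
  have hneq : ∀ χ (h : χ ∈ relChars H), μ χ h ≠ -conjFun (μ χ h) := fun χ h e => by
    have h1 := congrArg (fun f => classInner f (μ χ h)) e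
    simp [classInner_neg_left, classInner_irr_self (hμ χ h),
      classInner_irr_ne (irr_conjFun (hμ χ h)) (hμ χ h) (hμr χ h)] at h1
  refine ⟨R, ⟨hne, fun χ h => isCharacter_of_isIrr h.1, fun χ h => (hcc χ h).1,
    fun χ h => (hcc χ h).2, hiso, hzero,
    fun χ hχ φ hφ h => classInner_irr_ne hχ.1 hφ.1 h, ?_, ?_, ?_, ?_⟩⟩
  · intro χ hχ α hα β hβ
    simp only [R, dif_pos hχ, Finset.mem_insert, Finset.mem_singleton] at hα hβ
    have h1 := classInner_irr_self (hμ χ hχ)
    have h2 := classInner_irr_self (irr_conjFun (hμ χ hχ))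
    have h3 := classInner_irr_ne (irr_conjFun (hμ χ hχ)) (hμ χ hχ) (hμr χ hχ)
    have h4 := classInner_irr_ne (hμ χ hχ) (irr_conjFun (hμ χ hχ)) (hμr χ hχ).symm
    rcases hα with rfl | rfl <;> rcases hβ with rfl | rfl
    · rw [if_pos rfl, h1]
    · rw [if_neg (hneq χ hχ), classInner_neg_right, h4, neg_zero]
    · rw [if_neg (hneq χ hχ).symm, classInner_neg_left, h3, neg_zero]
    · rw [if_pos rfl, classInner_neg_left, classInner_neg_right, h2, neg_neg]
  · intro χ hχ α hα
    simp only [R, dif_pos hχ, Finset.mem_insert, Finset.mem_singleton] at hα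
    rcases hα with rfl | rfl
    · exact generalized_of_isCharacter (isCharacter_of_isIrr (hμ χ hχ))
    · exact generalized_neg
        (generalized_of_isCharacter (isCharacter_of_isIrr (irr_conjFun (hμ χ hχ))))
  · intro χ hχ
    simp only [R, dif_pos hχ]
    rw [Finset.sum_pair (hneq χ hχ), hμe χ hχ, sub_eq_add_neg]
  · intro χ hχ φ hφ h1 h2 α hα β hβ
    simp only [R, dif_pos hχ, dif_pos hφ, Finset.mem_insert, Finset.mem_singleton] at hα hβ
    have hφc := irr_conjFun hφ.1
    have hχc := irr_conjFun hχ.1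
    have hne1 : φ ≠ χ := fun e => by rw [e, classInner_irr_self hχ.1] at h1; exact one_ne_zero h1
    have hne2 : φ ≠ conjFun χ := fun e => by
      rw [e, classInner_irr_self hχc] at h2; exact one_ne_zero h2
    have hne3 : conjFun φ ≠ χ := fun e => hne2 (by rw [← e, conjFun_conjFun])
    have hne4 : conjFun φ ≠ conjFun χ := fun e => hne1 (by
      rw [← conjFun_conjFun φ, e, conjFun_conjFun])
    have h := hiso.2.2.1 _ (hdiff φ hφ) _ (hdiff χ hχ)
    rw [hμe φ hφ, hμe χ hχ] at h
    simp only [classInner_sub_left, classInner_sub_right, classInner_irr_ne hφ.1 hχ.1 hne1,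
      classInner_irr_ne hφ.1 hχc hne2, classInner_irr_ne hφc hχ.1 hne3,
      classInner_irr_ne hφc hχc hne4] at h
    have hν := hμ φ hφ
    have hνc := irr_conjFun (hμ φ hφ)
    have hm := hμ χ hχ
    have hmc := irr_conjFun (hμ χ hχ)
    have hne5 : μ φ hφ ≠ μ χ hχ := fun e => by
      rw [e, classInner_irr_self hm, classInner_irr_self hmc,
        classInner_irr_ne hm hmc (hμr χ hχ).symm, classInner_irr_ne hmc hm (hμr χ hχ)] at h
      norm_num at h
    have hne6 : μ φ hφ ≠ conjFun (μ χ hχ) := fun e => by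
      rw [e, conjFun_conjFun, classInner_irr_self hm, classInner_irr_self hmc,
        classInner_irr_ne hm hmc (hμr χ hχ).symm, classInner_irr_ne hmc hm (hμr χ hχ)] at h
      norm_num at h
    have hne7 : conjFun (μ φ hφ) ≠ μ χ hχ := fun e => hne6 (by rw [← e, conjFun_conjFun])
    have hne8 : conjFun (μ φ hφ) ≠ conjFun (μ χ hχ) := fun e => hne5 (by
      rw [← conjFun_conjFun (μ φ hφ), e, conjFun_conjFun])
    rcases hα with rfl | rfl <;> rcases hβ with rfl | rfl
    · exact classInner_irr_ne hν hm hne5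
    · rw [classInner_neg_right, classInner_irr_ne hν hmc hne6, neg_zero]
    · rw [classInner_neg_left, classInner_irr_ne hνc hm hne7, neg_zero]
    · rw [classInner_neg_left, classInner_neg_right, classInner_irr_ne hνc hmc hne8]; simp

/-- The p-group case with `[L : H]` dividing `p - 1`. -/
theorem coherent_of_dvd (hodd : Odd (Nat.card L)) (hH1 : H ≠ ⊥) (hH2 : H ≠ ⊤) {p m : ℕ}
    (hp : p.Prime) (hcard : Nat.card H = p ^ m) (hdvd : H.index ∣ p - 1) :
    IsCoherent (relChars H) {1}ᶜ (dadeIsometry A L R₀) := by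
  classical
  have hnil : Group.IsNilpotent H := S1535.isNilpotent_kernel H hH2 hC
  have : Nontrivial H := H.nontrivial_iff_ne_bot.mpr hH1
  have hlt : ⁅H, H⁆ < H := by
    rw [← Subgroup.map_subtype_commutator]
    refine lt_of_le_of_ne (Subgroup.map_subtype_le _) fun h => ?_
    refine (Group.IsSolvable.commutator_lt_top_of_nontrivial H).ne
      (Subgroup.map_injective H.subtype_injective (h.trans ?_))
    rw [← MonoidHom.range_eq_map, Subgroup.range_subtype]
  have : Fintype H := Fintype.ofFinite H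
  obtain ⟨θ, hθ1⟩ : ∃ θ : IrrCharacter H, (θ : H → ℂ) ≠ fun _ => 1 := by
    by_contra hc
    push Not at hc
    have h := sum_charDegree_sq (G := H)
    have : Subsingleton (IrrCharacter H) := ⟨fun a b => Subtype.ext ((hc a).trans (hc b).symm)⟩
    rw [Fintype.sum_subsingleton _ (⟨fun _ => 1, isIrrCharacter_one⟩ : IrrCharacter H),
      show charDegree ((⟨fun _ => 1, isIrrCharacter_one⟩ : IrrCharacter H) : H → ℂ) = 1 from
        charDegree_one, one_pow] at h
    exact absurd h.symm Finite.one_lt_card.ne'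
  obtain ⟨R, hR⟩ := exists_system hD hC hA hodd ⟨_, ind_mem_relChars hC θ.2 hθ1⟩
  rw [← inducedIrrAbove_eq hC] at hR ⊢
  refine S1521.result H inferInstance _ R hR hodd ⊥ bot_le inferInstance ⁅H, H⁆
    (sup_bot_eq _).symm hlt (lt_top_iff_ne_top.mpr hH2)
    (fun k hk hk1 x hx => mem_of_fix hC hlt.le hk hk1 x hx)
    (Or.inr (Or.inr (Or.inr (Or.inr ⟨p, m, hp, ?_, hdvd⟩))))
  rw [Subgroup.relIndex_bot_left, hcard]

end Dade

end Cfsg.Agent.Lib.OddTypes.FrobCoherence
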