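import Cfsg.Agent.Lib.OddTypes.SylowLift

/-! Orbits of `N(T)` on linear characters of `T` as free families. -/

set_option autoImplicit false

namespace Cfsg.Agent.Lib.OddTypes.SylowLift

open Subgroup Cfsg Cfsg.Agent.Lib
open scoped Pointwise

universe u

variable {G : Type u} [Group G] [Finite G] {t : ℕ} [ht : Fact t.Prime] {T : Sylow t G}

omit [Finite G] ht in
theorem act_pow (n : normalizer ((T : Subgroup G) : Set G)) (l : (T : Subgroup G) →* ℂˣ) (j : ℕ) :
    act n (l ^ j) = act n l ^ j := rfl

omit [Finite G] ht in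
theorem act_eq_one (n : normalizer ((T : Subgroup G) : Set G)) : act n (1 : (T : Subgroup G) →* ℂˣ) = 1 := rfl

theorem orderOf_act (n : normalizer ((T : Subgroup G) : Set G)) (l : (T : Subgroup G) →* ℂˣ) :
    orderOf (act n l) = orderOf l := by
  refine Nat.dvd_antisymm (orderOf_dvd_of_pow_eq_one ?_) (orderOf_dvd_of_pow_eq_one ?_)
  · rw [← act_pow, pow_orderOf_eq_one, act_eq_one]
  · have h : act n (l ^ orderOf (act n l)) = 1 := by rw [act_pow, pow_orderOf_eq_one]
    rw [← act_one (l ^ orderOf (act n l)), ← inv_mul_cancel n, act_mul, h, act_eq_one]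

open scoped Classical in
/-- The orbit of a linear character. -/
noncomputable def orbit (l : (T : Subgroup G) →* ℂˣ) : Finset ((T : Subgroup G) →* ℂˣ) :=
  (Set.finite_range fun n : normalizer ((T : Subgroup G) : Set G) => act n l).toFinset

theorem mem_orbit {l l' : (T : Subgroup G) →* ℂˣ} : l' ∈ orbit l ↔ ∃ n, act n l = l' :=
  Set.Finite.mem_toFinset _

variable {l : (T : Subgroup G) →* ℂˣ}
  (hl : ∀ n : normalizer ((T : Subgroup G) : Set G), act n l = l →
    (n : G) ∈ centralizer ((T : Subgroup G) : Set G))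
include hl

theorem freeFamily_orbit : FreeFamily T (orbit l) := by
  refine ⟨fun n l' hl' => ?_, fun n l' hl' h τ hτ => ?_⟩
  · obtain ⟨m, rfl⟩ := mem_orbit.mp hl'
    exact mem_orbit.mpr ⟨n * m, act_mul n m l⟩
  · obtain ⟨m, rfl⟩ := mem_orbit.mp hl'
    have h1 : act (m⁻¹ * n * m) l = l := by
      rw [act_mul, act_mul, h, ← act_mul, inv_mul_cancel, act_one]
    have h2 := mem_centralizer_iff.mp (hl _ h1) ((m : G)⁻¹ * τ * m) (by
      have := (mem_normalizer_iff.mp (inv_mem m.2) τ).mp hτ
      rwa [inv_inv] at this)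
    simp only [Subgroup.coe_mul, InvMemClass.coe_inv] at h2
    calc τ * (n : G) = (m : G) * ((m : G)⁻¹ * τ * m * ((m : G)⁻¹ * n * m)) * (m : G)⁻¹ := by group
      _ = (m : G) * ((m : G)⁻¹ * n * m * ((m : G)⁻¹ * τ * m)) * (m : G)⁻¹ := by rw [h2]
      _ = n * τ := by group

omit hl in
theorem act_eq_of_centralizer {n : normalizer ((T : Subgroup G) : Set G)}
    (h : (n : G) ∈ centralizer ((T : Subgroup G) : Set G)) (l' : (T : Subgroup G) →* ℂˣ) : act n l' = l' := by
  refine MonoidHom.ext fun v => congrArg l' (Subtype.ext ?_)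
  show (n : G)⁻¹ * v * n = v
  rw [mul_assoc, mem_centralizer_iff.mp h v v.2, inv_mul_cancel_left]

theorem card_orbit : (orbit l).card * Nat.card (centralizer ((T : Subgroup G) : Set G)) =
    Nat.card (normalizer ((T : Subgroup G) : Set G)) := by
  classical
  set N := normalizer ((T : Subgroup G) : Set G)
  set C' := (centralizer ((T : Subgroup G) : Set G)).subgroupOf N
  have hkey : ∀ a b : N, act a l = act b l ↔ a⁻¹ * b ∈ C' := by
    intro a b
    constructor
    · intro h
      refine mem_subgroupOf.mpr (hl _ ?_)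
      rw [act_mul, ← h, ← act_mul, inv_mul_cancel, act_one]
    · intro h
      have := act_eq_of_centralizer (T := T) (mem_subgroupOf.mp h) l
      conv_lhs => rw [← this]
      rw [← act_mul, mul_inv_cancel_left]
  have hcard : Nat.card (N ⧸ C') = (orbit l).card := by
    rw [← Nat.card_eq_finsetCard]
    refine Nat.card_congr (Equiv.ofBijective (fun c => Quotient.liftOn' c
      (fun a => (⟨act a l, mem_orbit.mpr ⟨a, rfl⟩⟩ : {x // x ∈ orbit l}))
      (fun a b hab => Subtype.ext ((hkey a b).mpr (QuotientGroup.leftRel_apply.mp hab)))) ⟨?_, ?_⟩)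
    · intro c d
      induction c using QuotientGroup.induction_on with
      | H a =>
        induction d using QuotientGroup.induction_on with
        | H b => exact fun h => QuotientGroup.eq.mpr ((hkey a b).mp (congrArg Subtype.val h))
    · rintro ⟨l', hl'⟩
      obtain ⟨a, rfl⟩ := mem_orbit.mp hl'
      exact ⟨QuotientGroup.mk a, rfl⟩
  rw [← hcard, ← Coprime.card_subgroupOf (centralizer_le_normalizer ((T : Subgroup G) : Set G)),
    ← Subgroup.index_eq_card C']
  exact index_mul_card C'

end Cfsg.Agent.Lib.OddTypes.SylowLift
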