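import Cfsg.Agent.Lib.OddTypes.DadeSetup

/-! Which maximal subgroups support which. -/

set_option autoImplicit false

namespace Cfsg.Agent.Lib.OddTypes

open Subgroup Cfsg Cfsg.Agent.Lib Cfsg.Agent.Lib.Uniq
open scoped Pointwise commutatorElement

universe u

variable {G : Type u} [Group G] [Finite G] {S T L M : Subgroup G}

omit [Finite G] in
/-- The factors of a commuting product of elements of coprime order are powers of it. -/
theorem left_mem_zpowers {a r : G} (h : Commute a r) (hco : (orderOf a).Coprime (orderOf r)) :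
    a ∈ zpowers (a * r) := by
  obtain ⟨u, v, huv⟩ := Nat.isCoprime_iff_coprime.mpr hco
  have h1 : (a * r) ^ (v * (orderOf r : ℤ)) = a ^ (v * (orderOf r : ℤ)) := by
    rw [h.mul_zpow, mul_comm v, zpow_mul r, zpow_natCast, pow_orderOf_eq_one, one_zpow, mul_one]
  have h2 : a = a ^ (v * (orderOf r : ℤ)) := by
    conv_lhs => rw [← zpow_one a, ← huv, zpow_add, mul_comm u, zpow_mul a, zpow_natCast, pow_orderOf_eq_one,
      one_zpow, one_mul]
  exact mem_zpowers_iff.mpr ⟨v * (orderOf r : ℤ), h1.trans h2.symm⟩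

theorem mem_typeA1_iff (hG : IsMinSimpleOddOrder G) (hS : IsCoatom S) {x : G} :
    x ∈ typeA1 S ↔ x ∈ sigmaCore S ∧ x ≠ 1 := by
  rw [typeA1, typeCore_eq hG hS]
  rfl

/-- `A(T)` is closed under nontrivial powers. -/
theorem typeA_zpowers (hG : IsMinSimpleOddOrder G) (hT : IsCoatom T) {b a : G} (hb : b ∈ typeA T)
    (ha : a ∈ zpowers b) (ha1 : a ≠ 1) : a ∈ typeA T := by
  obtain ⟨K, U, hKU⟩ := exists_KU hG hT
  rw [typeA_eq hG hT hKU] at hb ⊢
  obtain ⟨⟨⟨hbT, y, hy, hy1, hc⟩, hbU⟩, -⟩ := hb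
  obtain ⟨i, rfl⟩ := mem_zpowers_iff.mp ha
  exact ⟨⟨⟨zpow_mem hbT i, y, hy, hy1, ((show Commute b y from hc).zpow_left i).eq⟩, zpow_mem hbU i⟩, ha1⟩

theorem prime_not_both (hG : IsMinSimpleOddOrder G) (hS : IsCoatom S) (hT : IsCoatom T)
    (hnc : ∀ g : G, MulAut.conj g • T ≠ S) {p : ℕ} (h1 : p ∈ sigma S) : p ∉ sigma T := fun h2 => by
  obtain ⟨g, hg⟩ := conj_of_sigma_sigma hG hT hS h2 h1
  exact hnc g hg.symm

theorem nc_symm (hnc : ∀ g : G, MulAut.conj g • T ≠ S) : ∀ g : G, MulAut.conj g • S ≠ T := fun g hg =>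
  hnc g⁻¹ (by rw [← hg, map_inv, inv_smul_smul])

theorem nc_left (hnc : ∀ g : G, MulAut.conj g • T ≠ S) (w : G) : ∀ g : G, MulAut.conj g • T ≠ MulAut.conj w • S :=
  fun g hg => hnc (w⁻¹ * g) (by rw [map_mul, map_inv, mul_smul, hg, inv_smul_smul])

/-- An element of `A₁(S) ∩ A(T)`. -/
theorem of_inter (hG : IsMinSimpleOddOrder G) (hS : IsCoatom S) (hT : IsCoatom T)
    (hnc : ∀ g : G, MulAut.conj g • T ≠ S) {x : G} (hxS : x ∈ typeA1 S) (hxT : x ∈ typeA T) :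
    ¬ centralizer ({x} : Set G) ≤ S ∧ centralizer ({x} : Set G) ≤ T := by
  obtain ⟨K, U, hKU⟩ := exists_KU hG hT
  obtain ⟨hxσ, hx1⟩ := (mem_typeA1_iff hG hS).mp hxS
  rw [typeA_eq hG hT hKU] at hxT
  obtain ⟨hxA, -⟩ := hxT
  obtain ⟨hxT', y, hy, hy1, hxy⟩ := hxA.1
  obtain ⟨r, hr, hrd⟩ := Nat.exists_prime_and_dvd (mt orderOf_eq_one_iff.mp hx1)
  haveI := Fact.mk hr
  have hrS : r ∈ sigma S := PiElem.of_sigmaCore hxσ r hr hrd
  have hrT : r ∉ sigma T := prime_not_both hG hS hT hnc hrS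
  set e := x ^ (orderOf x / r) with he
  have heo : orderOf e = r := orderOf_pow_orderOf_div (orderOf_pos x).ne' hrd
  have he1 : e ≠ 1 := fun h => hr.ne_one (by rw [← heo, h, orderOf_one])
  have hey : Commute e y := (show Commute x y from hxy).pow_left _
  have hτ : r ∈ tau2 T := (OddLocal.SigmaPrimeElem.kappa_or_tau2 hG hT hrT (pow_mem hxT' _) heo hy hy1
    hey.eq).resolve_left (sigmaA_prime hG hT hKU hxA hr hrd)
  obtain ⟨hCe, huniq⟩ := tau_two_element_unique hG hT (pow_mem hxT' _) he1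
    (fun s hs hd => by rw [heo] at hd; rwa [(Nat.prime_dvd_prime_iff_eq hs hr).mp hd])
    ⟨pow_mem hxT' _, y, hy, hy1, hey.eq⟩
  have hne : ¬ centralizer ({e} : Set G) ≤ S := fun h => hnc 1 (by rw [map_one, one_smul, huniq S hS h])
  refine ⟨fun hle => ?_, fun c hc => hCe (mem_centralizer_singleton_iff.mpr
    ((show Commute c x from mem_centralizer_singleton_iff.mp hc).pow_right _).eq)⟩
  obtain ⟨N, ⟨hN, hCN⟩, -, -, -, -, hcompl, -⟩ := S1375.result hG S hS e (pow_mem hxσ _) he1 hne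
  obtain rfl := huniq N hN hCN
  have hyS : y ∈ S := hle (mem_centralizer_singleton_iff.mpr hxy.symm)
  exact hy1 (mem_bot.mp (hcompl.2.2.1 ▸ (⟨⟨hyS, (map_subtype_le _ : sigmaCore N ≤ N) hy⟩, hy⟩ :
    y ∈ S ⊓ N ⊓ sigmaCore N)))

/-- An element of `A₀(S)` witnessing that `T` supports `S` lies in `A₁(S) ∩ A(T)`. -/
theorem inter_of_out (hG : IsMinSimpleOddOrder G) (hS : IsCoatom S) (hT : IsCoatom T) {x : G}
    (hx : x ∈ typeA0 S) (hout : ¬ centralizer ({x} : Set G) ≤ S) (hxT : centralizer ({x} : Set G) ≤ T) :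
    x ∈ typeA1 S ∧ x ∈ typeA T ∧ x ∉ typeA1 T := by
  obtain ⟨K, U, hKU⟩ := exists_KU hG hS
  have hB := typeA0_subset hG hS hKU hx
  obtain ⟨-, -, -, -, h5, -⟩ := out_data hG hS hKU hB hout hT hxT
  refine ⟨(mem_typeA1_iff hG hS).mpr ⟨mem_core_of_out hG hS hKU hB hout, ?_⟩, h5.1, h5.2⟩
  rintro rfl
  exact one_notMem_typeA0 hG hS hx

/-- Witnesses transported by conjugation. -/
theorem out_conj (hG : IsMinSimpleOddOrder G) (hS : IsCoatom S) {x : G} (hx : x ∈ typeA1 S)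
    (hout : ¬ centralizer ({x} : Set G) ≤ S) (hxT : centralizer ({x} : Set G) ≤ T) (w : G) :
    w * x * w⁻¹ ∈ typeA1 (MulAut.conj w • S) ∧ ¬ centralizer ({w * x * w⁻¹} : Set G) ≤ MulAut.conj w • S ∧
      centralizer ({w * x * w⁻¹} : Set G) ≤ MulAut.conj w • T := by
  obtain ⟨hσ, hx1⟩ := (mem_typeA1_iff hG hS).mp hx
  refine ⟨(mem_typeA1_iff hG (coatom_smul w hS)).mpr
    ⟨conj_mem_sigmaCore hG hS hσ w, fun h => hx1 (conj_eq_one_iff.mp h)⟩, ?_, ?_⟩
  · rw [← conj_smul_centralizer_singleton, pointwise_smul_le_pointwise_smul_iff]; exact hout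
  · rw [← conj_smul_centralizer_singleton, pointwise_smul_le_pointwise_smul_iff]; exact hxT

/-- An element of `a R(a)`, its centraliser data. -/
theorem tilde_parts (hG : IsMinSimpleOddOrder G) (hM : IsCoatom M) {A : Set G}
    (hA : A = typeA1 M ∨ A = typeA M ∨ A = typeA0 M) {a r : G} (ha : a ∈ A) (hr : r ∈ supportR M a) :
    Commute a r ∧ (orderOf a).Coprime (orderOf r) ∧
      ((centralizer ({a} : Set G) ≤ M ∧ r = 1) ∨ ∃ L : Subgroup G, ¬ centralizer ({a} : Set G) ≤ M ∧ IsCoatom L ∧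
        centralizer ({a} : Set G) ≤ L ∧ ∀ p : ℕ, p.Prime → p ∣ orderOf r → p ∈ sigma L) := by
  have hD := dadeHypothesis hG hM hA
  refine ⟨(mem_centralizer_singleton_iff.mp (hD.le_centralizer a ha hr)).symm, ?_, ?_⟩
  · have hmem : a ∈ M ⊓ centralizer ({a} : Set G) := ⟨hD.subset ha, mem_centralizer_singleton_iff.mpr rfl⟩
    exact (((hD.coprime a ha a ha).coprime_dvd_left (Subgroup.orderOf_dvd_natCard _ hr)).coprime_dvd_right
      (Subgroup.orderOf_dvd_natCard _ hmem)).symm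
  · rcases supportR_cases hG hM ((three_sets hG hM hA).1 ha) with ⟨hle, he⟩ | ⟨L, hn, hL, haL, he⟩
    · rw [he, mem_bot] at hr
      exact Or.inl ⟨hle, hr⟩
    · rw [he] at hr
      exact Or.inr ⟨L, hn, hL, haL, fun p hp hd =>
        OddLocal.piCoreOf_isPi (sigma L) L p hp (hd.trans (Subgroup.orderOf_dvd_natCard _ (fcore_le_sigmaCore hG hL hr.1)))⟩

/-- A conjugate of `T` supports `S` if `Ã₁(S)` meets `Ã(T)`. -/
theorem exists_supports_of_tilde (hG : IsMinSimpleOddOrder G) (hS : IsCoatom S) (hT : IsCoatom T)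
    (hnc : ∀ g : G, MulAut.conj g • T ≠ S) {v : G} (h1 : v ∈ tildeOf S (typeA1 S)) (h2 : v ∈ tildeOf T (typeA T)) :
    ∃ g : G, Supports (MulAut.conj g • T) S := by
  obtain ⟨a, ha, r, hr, y, rfl⟩ := h1
  obtain ⟨b, hb, s, hs, z, he⟩ := h2
  obtain ⟨har, haco, hacase⟩ := tilde_parts hG hS (Or.inl rfl) ha hr
  obtain ⟨hbs, hbco, hbcase⟩ := tilde_parts hG hT (Or.inr (Or.inl rfl)) hb hs
  set w := y⁻¹ * z with hw
  have hg : a * r = w * (b * s) * w⁻¹ := by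
    calc a * r = y⁻¹ * (y * (a * r) * y⁻¹) * y := by group
      _ = _ := by rw [he, hw]; group
  have haA0 : a ∈ typeA0 S := (three_sets hG hS (Or.inl rfl)).1 ha
  obtain ⟨haσ, ha1⟩ := (mem_typeA1_iff hG hS).mp ha
  rcases hbcase with ⟨-, rfl⟩ | ⟨L, hbn, hL, hbL, -⟩
  · rw [mul_one] at hg
    have haz : w⁻¹ * a * w ∈ zpowers b := by
      obtain ⟨i, hi⟩ := mem_zpowers_iff.mp (hg ▸ left_mem_zpowers har haco)
      refine mem_zpowers_iff.mpr ⟨i, ?_⟩
      rw [← hi, conj_zpow]; group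
    have haT : w⁻¹ * a * w ∈ typeA T := typeA_zpowers hG hT hb haz fun h => ha1 (by
      calc a = w * (w⁻¹ * a * w) * w⁻¹ := by group
        _ = 1 := by rw [h]; group)
    have hS' : IsCoatom (MulAut.conj w⁻¹ • S) := coatom_smul w⁻¹ hS
    have haS' : w⁻¹ * a * w ∈ typeA1 (MulAut.conj w⁻¹ • S) := by
      refine (mem_typeA1_iff hG hS').mpr ⟨?_, fun h => ha1 (by
        calc a = w * (w⁻¹ * a * w) * w⁻¹ := by group
          _ = 1 := by rw [h]; group)⟩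
      have := conj_mem_sigmaCore hG hS haσ w⁻¹
      rwa [inv_inv] at this
    obtain ⟨hn, hle⟩ := of_inter hG hS' hT (nc_left hnc w⁻¹) haS' haT
    obtain ⟨-, hn', hle'⟩ := out_conj hG hS' haS' hn hle w
    rw [show w * (w⁻¹ * a * w) * w⁻¹ = a by group, map_inv, smul_inv_smul] at hn'
    rw [show w * (w⁻¹ * a * w) * w⁻¹ = a by group] at hle'
    exact ⟨w, coatom_smul w hT, a, haA0, hn', hle'⟩
  · obtain ⟨K, U, hKU⟩ := exists_KU hG hT
    have hbσ : b ∈ sigmaCore T :=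
      mem_core_of_out hG hT hKU (Or.inl (typeA_eq hG hT hKU ▸ hb)) hbn
    have hb1 : b ≠ 1 := fun h => one_notMem_typeA0 hG hT (h ▸ typeA_subset_typeA0 T hb)
    obtain ⟨q, hq, hqd⟩ := Nat.exists_prime_and_dvd (mt orderOf_eq_one_iff.mp hb1)
    have hqT : q ∈ sigma T := PiElem.of_sigmaCore hbσ q hq hqd
    have hqg : q ∣ orderOf a * orderOf r := by
      refine hqd.trans ((orderOf_dvd_of_mem_zpowers (left_mem_zpowers hbs hbco)).trans ?_)
      rw [show orderOf (b * s) = orderOf (a * r) by rw [hg]; exact ((MulAut.conj w).orderOf_eq _).symm]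
      exact har.orderOf_mul_dvd_mul_orderOf
    rcases hq.dvd_mul.mp hqg with h | h
    · exact absurd hqT (prime_not_both hG hS hT hnc (PiElem.of_sigmaCore haσ q hq h))
    rcases hacase with ⟨-, rfl⟩ | ⟨L', han, hL', haL', hrσ⟩
    · rw [orderOf_one] at h; exact absurd h hq.not_dvd_one
    obtain ⟨g, hg'⟩ := conj_of_sigma_sigma hG hT hL' hqT (hrσ q hq h)
    exact ⟨g, hg' ▸ hL', a, haA0, han, hg' ▸ haL'⟩

/-- The converse. -/
theorem tilde_of_supports (hG : IsMinSimpleOddOrder G) (hS : IsCoatom S) (hT : IsCoatom T) {g : G}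
    (h : Supports (MulAut.conj g • T) S) : (tildeOf S (typeA1 S) ∩ tildeOf T (typeA T)).Nonempty := by
  obtain ⟨hTg, x, hx, hout, hle⟩ := h
  obtain ⟨hx1, -, -⟩ := inter_of_out hG hS hTg hx hout hle
  obtain ⟨hx1', hout', hle'⟩ := out_conj hG hS hx1 hout hle g⁻¹
  rw [map_inv, inv_smul_smul] at hle'
  obtain ⟨-, hA, -⟩ := inter_of_out hG (coatom_smul g⁻¹ hS) hT
    ((three_sets hG (coatom_smul g⁻¹ hS) (Or.inl rfl)).1 hx1') hout' hle'
  exact ⟨x, ⟨x, hx1, 1, one_mem _, 1, by group⟩,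
    ⟨g⁻¹ * x * g⁻¹⁻¹, hA, 1, one_mem _, g, by group⟩⟩

/-- Support is not mutual. -/
theorem not_mutual (hG : IsMinSimpleOddOrder G) (hS : IsCoatom S) (hT : IsCoatom T)
    {g h : G} (h1 : Supports (MulAut.conj g • T) S) (h2 : Supports (MulAut.conj h • S) T) : False := by
  obtain ⟨hTg, x, hx, hxout, hxle⟩ := h1
  obtain ⟨hM, y, hy, hyout, hyle⟩ := h2
  obtain ⟨hx1, -, -⟩ := inter_of_out hG hS hTg hx hxout hxle
  obtain ⟨hy1, hyA, hyA1⟩ := inter_of_out hG hT hM hy hyout hyle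
  set M := MulAut.conj h • S with hMdef
  obtain ⟨hxM, hxMout, hxN⟩ := out_conj hG hS hx1 hxout hxle h
  rw [← mul_smul, ← map_mul] at hxN
  obtain ⟨hxσ, hx1'⟩ := (mem_typeA1_iff hG hM).mp hxM
  obtain ⟨hyσ, hyne⟩ := (mem_typeA1_iff hG hT).mp hy1
  obtain ⟨K, U, hKU⟩ := exists_KU hG hM
  rw [typeA_eq hG hM hKU] at hyA
  obtain ⟨⟨⟨hyM, c, hc, hc1, hyc⟩, hyU⟩, -⟩ := hyA
  obtain ⟨p, hp, hpd⟩ := Nat.exists_prime_and_dvd (mt orderOf_eq_one_iff.mp hyne)
  obtain ⟨hκ, hτ⟩ := (S1436.result hG M hM _ hxσ hx1' hxMout _ (coatom_smul (h * g) hT) hxN).1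
    ⟨p, (sigma_conj_iff hG hT _).mpr (PiElem.of_sigmaCore hyσ p hp hpd),
      hpd.trans (M.orderOf_dvd_natCard hyM)⟩
  have hyM' : y ∉ sigmaCore M := fun hh => hyA1 ((mem_typeA1_iff hG hM).mpr ⟨hh, hyne⟩)
  obtain ⟨s, hs, hsd, hsσ⟩ : ∃ s : ℕ, s.Prime ∧ s ∣ orderOf y ∧ s ∉ sigma M := by
    by_contra hall
    push Not at hall
    exact hyM' (mem_sigmaCore_of_orderOf hG hM hyM hall)
  haveI := Fact.mk hs
  rcases OddLocal.SigmaPrimeElem.kappa_or_tau2 hG hM hsσ (pow_mem hyM _)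
    (orderOf_pow_orderOf_div (orderOf_pos y).ne' hsd) hc hc1
    (((show Commute y c from hyc).pow_left _).eq) with h' | h'
  · exact Set.notMem_empty s (hκ ▸ h')
  · exact Set.notMem_empty s (hτ ▸ h')

end Cfsg.Agent.Lib.OddTypes
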