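import Cfsg.Agent.Lib.OddTypes.AbelianSylow
import Cfsg.Agent.Lib.Block.PParts
import Cfsg.Agent.Lib.Char.BrauerInduction
import Cfsg.Agent.Lib.CharClifford.Elementary
import Cfsg.Agent.Lib.Uniq.TauOneLemmas

/-!
Virtual characters lifted from free `N(T)`-stable families of linear characters of an abelian Sylow
subgroup `T` whose nontrivial elements have solvable centralisers.
-/

set_option autoImplicit false

namespace Cfsg.Agent.Lib.OddTypes.SylowLift

open Subgroup Cfsg Cfsg.Agent.Lib
open scoped Pointwise ComplexConjugate commutatorElement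

universe u

variable {G : Type u} [Group G] [Finite G] {t : ℕ} [ht : Fact t.Prime]

/-- `g` is conjugate to `v b` with `v ∈ T` nontrivial and `b ∈ O_{t'}(C(v))`. -/
def Pair (T : Sylow t G) (g v : G) : Prop :=
  v ∈ (T : Subgroup G) ∧ v ≠ 1 ∧ ∃ y b : G, b ∈ core t (centralizer ({v} : Set G)) ∧ g = y * (v * b) * y⁻¹

open scoped Classical in
/-- The lift of a function on `T`. -/
noncomputable def lift (T : Sylow t G) (f : G → ℂ) (g : G) : ℂ :=
  if h : ∃ v, Pair T g v then f (Classical.choose h) else 0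

/-- A function on `T` invariant under `N(T)`. -/
def Invariant (T : Sylow t G) (f : G → ℂ) : Prop :=
  ∀ n ∈ normalizer ((T : Subgroup G) : Set G), ∀ v ∈ (T : Subgroup G), f (n * v * n⁻¹) = f v

variable {T : Sylow t G}

theorem isPPart_pair {v b : G} (hv : v ∈ (T : Subgroup G)) (hb : b ∈ core t (centralizer ({v} : Set G))) :
    IsPPart t (v * b) v :=
  Block.isPPart_mul (Block.isPElem_of_mem T.2 hv) (not_dvd_orderOf hb)
    (mem_centralizer_singleton_iff.mp (core_le _ hb)).symm

theorem pair_unique (hT : IsMulCommutative (T : Subgroup G)) {f : G → ℂ} (hf : Invariant T f) {g v v' : G}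
    (h : Pair T g v) (h' : Pair T g v') : f v = f v' := by
  obtain ⟨hv, -, y, b, hb, rfl⟩ := h
  obtain ⟨hv', -, y', b', hb', he⟩ := h'
  have h1 := Block.IsPPart.conj (isPPart_pair hv hb) y
  have h2 := Block.IsPPart.conj (isPPart_pair hv' hb') y'
  rw [he] at h1
  have h3 := Block.IsPPart.unique h1 h2
  obtain ⟨n, hn, hne⟩ := Sylow.conj_eq_normalizer_conj_of_mem T (_hP := hT) v (y⁻¹ * y') hv (by
    rw [show (y⁻¹ * y')⁻¹ * v * (y⁻¹ * y') = y'⁻¹ * (y * v * y⁻¹) * y' by group, h3,
      show y'⁻¹ * (y' * v' * y'⁻¹) * y' = v' by group]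
    exact hv')
  rw [show (y⁻¹ * y')⁻¹ * v * (y⁻¹ * y') = y'⁻¹ * (y * v * y⁻¹) * y' by group, h3,
    show y'⁻¹ * (y' * v' * y'⁻¹) * y' = v' by group] at hne
  rw [hne]
  have := hf n⁻¹ (inv_mem hn) v hv
  rw [inv_inv] at this
  exact this.symm

theorem lift_apply (hT : IsMulCommutative (T : Subgroup G)) {f : G → ℂ} (hf : Invariant T f) {g v : G}
    (h : Pair T g v) : lift T f g = f v := by
  rw [lift, dif_pos ⟨v, h⟩]
  exact pair_unique hT hf (Classical.choose_spec (⟨v, h⟩ : ∃ w, Pair T g w)) h

theorem lift_eq_zero {f : G → ℂ} {g : G} (h : ∀ v, ¬ Pair T g v) : lift T f g = 0 :=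
  dif_neg fun ⟨v, hv⟩ => h v hv

theorem not_pair_of_regular {g : G} (hg : ¬ t ∣ orderOf g) (v : G) : ¬ Pair T g v := by
  rintro ⟨hv, hv1, y, b, hb, rfl⟩
  have h := Block.IsPPart.unique (Block.IsPPart.conj (isPPart_pair hv hb) y)
    (Block.isPPart_one_of_regular hg)
  exact hv1 (conj_eq_one_iff.mp h)

theorem pair_conj {g v : G} (h : Pair T g v) (c : G) : Pair T (c * g * c⁻¹) v := by
  obtain ⟨hv, hv1, y, b, hb, rfl⟩ := h
  exact ⟨hv, hv1, c * y, b, hb, by group⟩

theorem isClassFunction_lift (hT : IsMulCommutative (T : Subgroup G)) {f : G → ℂ} (hf : Invariant T f) :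
    IsClassFunction G (lift T f) := by
  intro g c
  by_cases h : ∃ v, Pair T g v
  · obtain ⟨v, hv⟩ := h
    rw [lift_apply hT hf hv, lift_apply hT hf (pair_conj hv c)]
  · push Not at h
    rw [lift_eq_zero h, lift_eq_zero]
    intro v hv
    refine h v ?_
    have := pair_conj hv c⁻¹
    simpa [mul_assoc] using this

/-- The value at `v b` for `v ∈ T` and `b` commuting with `v` is `f v` or `0`. -/
theorem lift_mul (hT : IsMulCommutative (T : Subgroup G)) {f : G → ℂ} (hf : Invariant T f) (hf1 : f 1 = 0)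
    {v b : G} (hv : v ∈ (T : Subgroup G)) (hb : ¬ t ∣ orderOf b) (hc : Commute v b)
    [Decidable (b ∈ core t (centralizer ({v} : Set G)))] :
    lift T f (v * b) = if b ∈ core t (centralizer ({v} : Set G)) then f v else 0 := by
  by_cases hv1 : v = 1
  · subst hv1
    rw [one_mul, lift_eq_zero (not_pair_of_regular hb), hf1, ite_self]
  split_ifs with h
  · exact lift_apply hT hf ⟨hv, hv1, 1, b, h, by group⟩
  · refine lift_eq_zero fun v' hp => h ?_
    obtain ⟨hv', -, y, b', hb', he⟩ := hp
    have hp := Block.IsPPart.conj (isPPart_pair hv' hb') y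
    rw [← he] at hp
    have e := Block.IsPPart.unique (Block.isPPart_mul (Block.isPElem_of_mem T.2 hv) hb hc) hp
    have eb : b = y * b' * y⁻¹ := by
      have h2 : v * b = y * v' * y⁻¹ * (y * b' * y⁻¹) := by rw [he]; group
      rw [← e] at h2
      exact mul_left_cancel h2
    have := conj_mem_core (t := t) y hb'
    rwa [map_centralizer_singleton, ← e, ← eb] at this

section Family

/-- The action of an element of `N(T)` on linear characters of `T`. -/
noncomputable def act (n : normalizer ((T : Subgroup G) : Set G)) (l : (T : Subgroup G) →* ℂˣ) :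
    (T : Subgroup G) →* ℂˣ where
  toFun v := l ⟨(n : G)⁻¹ * v * n, by
    have := (mem_normalizer_iff.mp (inv_mem n.2) (v : G)).mp v.2
    rwa [inv_inv] at this⟩
  map_one' := by
    rw [← map_one l]
    congr 1
    exact Subtype.ext (by simp)
  map_mul' v w := by
    rw [← map_mul]
    congr 1
    exact Subtype.ext (by simp [mul_assoc])

theorem act_apply (n : normalizer ((T : Subgroup G) : Set G)) (l : (T : Subgroup G) →* ℂˣ)
    (v : (T : Subgroup G)) {h} : act n l v = l ⟨(n : G)⁻¹ * v * n, h⟩ := rfl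

theorem act_one (l : (T : Subgroup G) →* ℂˣ) : act (1 : normalizer ((T : Subgroup G) : Set G)) l = l :=
  MonoidHom.ext fun v => congrArg l (Subtype.ext (by simp))

theorem act_mul (n m : normalizer ((T : Subgroup G) : Set G)) (l : (T : Subgroup G) →* ℂˣ) :
    act (n * m) l = act n (act m l) :=
  MonoidHom.ext fun v => congrArg l (Subtype.ext (by simp [mul_assoc]))

/-- An `N(T)`-stable family on which only the elements of `C(T)` have fixed points. -/
structure FreeFamily (T : Sylow t G) (S : Finset ((T : Subgroup G) →* ℂˣ)) : Prop where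
  stable : ∀ n : normalizer ((T : Subgroup G) : Set G), ∀ l ∈ S, act n l ∈ S
  free : ∀ n : normalizer ((T : Subgroup G) : Set G), ∀ l ∈ S, act n l = l →
    ∀ τ ∈ (T : Subgroup G), τ * (n : G) = n * τ

open scoped Classical in
/-- The sum of a family, as a function on `G`. -/
noncomputable def famSum (S : Finset ((T : Subgroup G) →* ℂˣ)) (g : G) : ℂ :=
  if h : g ∈ (T : Subgroup G) then ∑ l ∈ S, (l ⟨g, h⟩ : ℂ) else 0

theorem famSum_apply (S : Finset ((T : Subgroup G) →* ℂˣ)) (v : (T : Subgroup G)) :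
    famSum S (v : G) = ∑ l ∈ S, (l v : ℂ) := by
  rw [famSum, dif_pos v.2]

theorem invariant_famSum {S : Finset ((T : Subgroup G) →* ℂˣ)}
    (hS : ∀ n : normalizer ((T : Subgroup G) : Set G), ∀ l ∈ S, act n l ∈ S) : Invariant T (famSum S) := by
  intro n hn v hv
  have hv' := (mem_normalizer_iff.mp hn v).mp hv
  rw [famSum, famSum, dif_pos hv, dif_pos hv']
  set m : normalizer ((T : Subgroup G) : Set G) := ⟨n⁻¹, inv_mem hn⟩
  refine Finset.sum_bij' (fun l _ => act m l) (fun l _ => act m⁻¹ l)
    (fun l hl => hS m l hl) (fun l hl => hS m⁻¹ l hl) (fun l _ => ?_) (fun l _ => ?_) fun l _ => ?_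
  · rw [← act_mul, inv_mul_cancel, act_one]
  · rw [← act_mul, mul_inv_cancel, act_one]
  · rw [act_apply (h := by simpa [m] using hv')]
    congr 2
    exact Subtype.ext (by simp [m])

variable (hT : IsMulCommutative (T : Subgroup G))
include hT

/-- On a free family restricted to a subgroup centralised by `V`, sums are multiples of the size of
the orbits of `V`. -/
theorem exists_character_orbits {E : Type u} [Group E] [Finite E] (α : E →* (T : Subgroup G))
    (V : Subgroup (normalizer ((T : Subgroup G) : Set G)))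
    (hV : ∀ n ∈ V, ∀ e : E, ((n : normalizer ((T : Subgroup G) : Set G)) : G)⁻¹ * α e * n = α e)
    (m : ℕ) (S : Finset ((T : Subgroup G) →* ℂˣ)) (hstab : ∀ n ∈ V, ∀ l ∈ S, act n l ∈ S)
    (horb : ∀ l ∈ S, Nat.card (Set.range fun n : V => act (n : normalizer ((T : Subgroup G) : Set G)) l) = m) :
    ∃ χ : E → ℂ, IsCharacter E χ ∧ ∀ e, ∑ l ∈ S, (l (α e) : ℂ) = m * χ e := by
  classical
  induction S using Finset.strongInduction with
  | H S ih =>
    rcases S.eq_empty_or_nonempty with rfl | ⟨l, hl⟩
    · exact ⟨0, Char.isCharacter_zero, fun e => by simp⟩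
    set O := S.filter (fun l' => l' ∈ Set.range fun n : V => act (n : normalizer ((T : Subgroup G) : Set G)) l)
      with hO
    have hlO : l ∈ O := Finset.mem_filter.mpr ⟨hl, 1, act_one l⟩
    have hsub : S \ O ⊂ S := by
      refine Finset.sdiff_ssubset (Finset.filter_subset _ _) ⟨l, hlO⟩
    obtain ⟨χ, hχ, hsum⟩ := ih (S \ O) hsub (fun n hn l' hl' => by
        rw [Finset.mem_sdiff] at hl' ⊢
        refine ⟨hstab n hn l' hl'.1, fun hmem => hl'.2 (Finset.mem_filter.mpr ⟨hl'.1, ?_⟩)⟩
        obtain ⟨⟨k, hk⟩, hke⟩ := (Finset.mem_filter.mp hmem).2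
        refine ⟨⟨n⁻¹ * k, mul_mem (inv_mem hn) hk⟩, ?_⟩
        show act (n⁻¹ * k) l = l'
        rw [act_mul, show act k l = act n l' from hke, ← act_mul, inv_mul_cancel, act_one])
      (fun l' hl' => horb l' (Finset.mem_sdiff.mp hl').1)
    refine ⟨fun e => (l (α e) : ℂ) + χ e,
      Char.isCharacter_add (Char.isCharacter_of_isIrr (Char.isIrrCharacter_linear (l.comp α))) hχ, fun e => ?_⟩
    have hcard : O.card = m := by
      rw [← horb l hl, ← Nat.card_eq_finsetCard]
      refine Nat.card_congr (Equiv.subtypeEquivRight fun l' => ?_)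
      simp only [hO, Finset.mem_filter]
      exact ⟨fun h => h.2, fun ⟨n, hn⟩ => ⟨hn ▸ hstab n n.2 l hl, n, hn⟩⟩
    rw [← Finset.sum_sdiff (show O ⊆ S from Finset.filter_subset _ S), hsum e, Finset.sum_congr rfl (g := fun _ => (l (α e) : ℂ))
      fun l' hl' => ?_]
    · rw [Finset.sum_const, hcard, nsmul_eq_mul]
      ring
    · obtain ⟨n, rfl⟩ := (Finset.mem_filter.mp hl').2
      rw [act_apply (h := by rw [hV n n.2 e]; exact (α e).2)]
      congr 2
      exact Subtype.ext (hV n n.2 e)

variable (hsolv : ∀ v ∈ (T : Subgroup G), v ≠ 1 → Group.IsSolvable (centralizer ({v} : Set G)))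
include hsolv

open scoped Classical in
/-- Restriction of a lift to a group split into a `t`-part in `T` and a commuting `t'`-part. -/
theorem family_restrict_isCharacter {E : Type u} [Group E] [Finite E] (α : E →* (T : Subgroup G))
    (β : E →* G) (hβ : ∀ e, ¬ t ∣ orderOf (β e)) (hc : ∀ e e', Commute ((α e : G)) (β e'))
    (hα : α ≠ 1) {S : Finset ((T : Subgroup G) →* ℂˣ)} (hS : FreeFamily T S) :
    (∀ e, α e ≠ 1 → (β e ∈ core t (centralizer ((α.range.map (T : Subgroup G).subtype : Subgroup G) : Set G)) ↔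
        β e ∈ core t (centralizer ({(α e : G)} : Set G)))) ∧
      IsCharacter E (fun e =>
        if β e ∈ core t (centralizer ((α.range.map (T : Subgroup G).subtype : Subgroup G) : Set G))
          then famSum S (α e : G) else 0) := by
  haveI := Fintype.ofFinite E
  obtain ⟨e₀, he₀⟩ : ∃ e, α e ≠ 1 := by
    by_contra h
    push Not at h
    exact hα (MonoidHom.ext h)
  set A : Subgroup G := α.range.map (T : Subgroup G).subtype with hA
  have hAmem : ∀ e, (α e : G) ∈ A := fun e => ⟨α e, ⟨e, rfl⟩, rfl⟩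
  set X := centralizer (A : Set G) with hX
  have hXv : ∀ e, X ≤ centralizer ({(α e : G)} : Set G) := fun e =>
    centralizer_le (Set.singleton_subset_iff.mpr (hAmem e))
  have hsX : Group.IsSolvable X := by
    haveI := hsolv _ (α e₀).2 (fun h => he₀ (Subtype.ext h))
    exact Group.isSolvable_of_isSolvable_injective (inclusion_injective (hXv e₀))
  have hTX : (T : Subgroup G) ≤ X := fun τ hτ => mem_centralizer_iff.mpr fun a ha => by
    obtain ⟨a', -, rfl⟩ := ha
    exact congrArg Subtype.val (hT.is_comm.comm a' (⟨τ, hτ⟩ : (T : Subgroup G)))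
  have hβX : ∀ e, β e ∈ X := fun e => mem_centralizer_iff.mpr fun a ha => by
    obtain ⟨_, ⟨e', rfl⟩, rfl⟩ := ha
    exact (hc e' e).eq
  set B₀ := (core t X).comap β with hB₀
  refine ⟨fun e he => (core_inf hT (hsolv _ (α e).2 (fun h => he (Subtype.ext h))) hTX (hXv e) (hβX e)).symm,
    ?_⟩
  show IsCharacter E (fun e => if β e ∈ core t X then famSum S (α e : G) else 0)
  haveI : B₀.Normal := ⟨fun b hb g => by
    show β (g * b * g⁻¹) ∈ core t X
    rw [map_mul, map_mul, map_inv]
    exact (mem_normalizer_iff.mp (le_normalizer_core X (hβX g)) _).mp hb⟩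
  haveI : ((core t X).subgroupOf X).Normal :=
    (normal_subgroupOf_iff_le_normalizer (core_le X)).mpr (le_normalizer_core X)
  set q : X →* X ⧸ (core t X).subgroupOf X := QuotientGroup.mk' _ with hq
  have hq1 : ∀ x : X, q x = 1 ↔ (x : G) ∈ core t X := fun x =>
    (QuotientGroup.eq_one_iff x).trans mem_subgroupOf
  set γE : E →* X ⧸ (core t X).subgroupOf X := q.comp (β.codRestrict X hβX) with hγE
  have hkerE : γE.ker = B₀ := by
    ext e
    rw [MonoidHom.mem_ker, hγE, MonoidHom.comp_apply, hq1]
    rfl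
  -- the part of `N(T)` matching the `t'`-part
  set V : Subgroup (normalizer ((T : Subgroup G) : Set G)) :=
    (core t X ⊔ β.range).subgroupOf (normalizer ((T : Subgroup G) : Set G)) with hV
  have hnorm : β.range ≤ normalizer (core t X : Set G) := by
    rintro _ ⟨e, rfl⟩
    exact le_normalizer_core X (hβX e)
  have hdec : ∀ n ∈ V, ∃ e, ∃ o ∈ core t X, ((n : normalizer ((T : Subgroup G) : Set G)) : G) = β e * o := by
    intro n hn
    rw [hV, mem_subgroupOf, sup_comm] at hn
    obtain ⟨_, ⟨e, rfl⟩, o, ho, he⟩ := (Coprime.mem_sup_of_le_normalizer hnorm).mp hn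
    exact ⟨e, o, ho, he.symm⟩
  have hVX : ∀ n ∈ V, ((n : normalizer ((T : Subgroup G) : Set G)) : G) ∈ X := fun n hn => by
    obtain ⟨e, o, ho, he⟩ := hdec n hn
    rw [he]
    exact mul_mem (hβX e) (core_le X ho)
  let γV : V →* X ⧸ (core t X).subgroupOf X :=
    q.comp (((normalizer ((T : Subgroup G) : Set G)).subtype.comp V.subtype).codRestrict X fun n => hVX _ n.2)
  have hrange : γV.range = γE.range := by
    refine le_antisymm ?_ ?_
    · rintro _ ⟨n, rfl⟩
      obtain ⟨e, o, ho, he⟩ := hdec _ n.2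
      refine ⟨e, QuotientGroup.eq.mpr ?_⟩
      rw [mem_subgroupOf]
      show (β e)⁻¹ * ((n : normalizer ((T : Subgroup G) : Set G)) : G) ∈ core t X
      rwa [he, inv_mul_cancel_left]
    · rintro _ ⟨e, rfl⟩
      obtain ⟨o, ho, n, hnX, hn, he⟩ := exists_mul_normalizer' hT hsX hTX (hβX e)
      have hnV : (⟨n, hn⟩ : normalizer ((T : Subgroup G) : Set G)) ∈ V := by
        rw [hV, mem_subgroupOf]
        show n ∈ _
        rw [show n = o⁻¹ * β e by rw [he, inv_mul_cancel_left]]
        exact mul_mem (mem_sup_left (inv_mem ho)) (mem_sup_right ⟨e, rfl⟩)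
      refine ⟨⟨_, hnV⟩, QuotientGroup.eq.mpr ?_⟩
      rw [mem_subgroupOf]
      show n⁻¹ * β e ∈ core t X
      rw [he, ← mul_assoc]
      have := (mem_normalizer_iff.mp (le_normalizer_core X (inv_mem hnX)) o).mp ho
      rwa [inv_inv] at this
  have hVc : ∀ n ∈ V, ∀ e : E, ((n : normalizer ((T : Subgroup G) : Set G)) : G)⁻¹ * α e * n = α e :=
    fun n hn e => by
      rw [mul_assoc, mem_centralizer_iff.mp (hVX n hn) _ (hAmem e), inv_mul_cancel_left]
  have horb : ∀ l ∈ S, Nat.card (Set.range fun n : V => act (n : normalizer ((T : Subgroup G) : Set G)) l) =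
      B₀.index := by
    intro l hl
    rw [← hkerE, index_ker, ← hrange, ← index_ker]
    refine (Nat.card_congr ?_).trans (Subgroup.index_eq_card γV.ker).symm
    have hkey : ∀ a b : V, act (a : normalizer ((T : Subgroup G) : Set G)) l =
        act (b : normalizer ((T : Subgroup G) : Set G)) l ↔ a⁻¹ * b ∈ γV.ker := by
      intro a b
      have h0 : ∀ d : V, act (d : normalizer ((T : Subgroup G) : Set G)) l = l ↔ d ∈ γV.ker := by
        intro d
        rw [MonoidHom.mem_ker, MonoidHom.comp_apply, hq1]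
        refine ⟨fun h => ?_, fun h => MonoidHom.ext fun v => ?_⟩
        · refine mem_core_of_centralizes hT hsX hTX (hVX _ d.2) ?_ (hS.free _ l hl h)
          intro hd
          have h1 : (core t X ⊔ β.range) ≤ normalizer (core t X : Set G) := sup_le le_normalizer hnorm
          have hdvd : t ∣ Nat.card ↥(β.range ⊔ core t X) := hd.trans (Subgroup.orderOf_dvd_natCard _
            (sup_comm (core t X) β.range ▸ (mem_subgroupOf.mp d.2)))
          rcases Uniq.prime_dvd_sup hnorm ht.out hdvd with h' | h'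
          · obtain ⟨⟨w, e, hew⟩, he⟩ := exists_prime_orderOf_dvd_card' t h'
            refine hβ e ?_
            rw [hew, ← Subgroup.orderOf_mk (H := β.range) w ⟨e, hew⟩, he]
          · exact ht.out.ne_one (Nat.eq_one_of_dvd_coprimes (card_core_coprime X) h' dvd_rfl)
        · rw [act_apply (h := by
            have := (mem_normalizer_iff.mp (inv_mem (d : normalizer ((T : Subgroup G) : Set G)).2) (v : G)).mp v.2
            rwa [inv_inv] at this)]
          congr 1
          refine Subtype.ext ?_
          show (((d : normalizer ((T : Subgroup G) : Set G)) : G))⁻¹ * (v : G) * _ = v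
          have hcd : (v : G) * ((d : normalizer ((T : Subgroup G) : Set G)) : G) =
              ((d : normalizer ((T : Subgroup G) : Set G)) : G) * v :=
            commute_of_core_normalizer hT hTX h (d : normalizer ((T : Subgroup G) : Set G)).2 v.2
          rw [mul_assoc, hcd, inv_mul_cancel_left]
      rw [← h0, Subgroup.coe_mul, Subgroup.coe_inv, act_mul]
      constructor
      · intro h; rw [← h, ← act_mul, inv_mul_cancel, act_one]
      · intro h
        conv_lhs => rw [← h]
        rw [← act_mul, mul_inv_cancel, act_one]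
    refine Equiv.symm (Equiv.ofBijective (fun c : V ⧸ γV.ker => Quotient.liftOn' c
      (fun n => (⟨act (n : normalizer ((T : Subgroup G) : Set G)) l, n, rfl⟩ :
        Set.range fun n : V => act (n : normalizer ((T : Subgroup G) : Set G)) l))
      (fun a b hab => Subtype.ext ((hkey a b).mpr (QuotientGroup.leftRel_apply.mp hab)))) ⟨?_, ?_⟩)
    · intro c d
      induction c using QuotientGroup.induction_on with
      | H a =>
        induction d using QuotientGroup.induction_on with
        | H b => exact fun h => QuotientGroup.eq.mpr ((hkey a b).mp (congrArg Subtype.val h))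
    · rintro ⟨_, n, rfl⟩
      exact ⟨QuotientGroup.mk n, rfl⟩
  obtain ⟨χ, hχ, hsum⟩ := exists_character_orbits hT α V hVc B₀.index S (fun n _ => hS.stable n) horb
  have hreg : IsCharacter E (indFun B₀ fun _ => (1 : ℂ)) := Char.isCharacter_indFun B₀ Char.isCharacter_one
  have hval : ∀ e, indFun B₀ (fun _ => (1 : ℂ)) e = if e ∈ B₀ then (B₀.index : ℂ) else 0 := by
    intro e
    have hmem : ∀ x : E, x⁻¹ * e * x ∈ B₀ ↔ e ∈ B₀ := fun x =>
      ⟨fun h => by simpa [mul_assoc] using (inferInstance : B₀.Normal).conj_mem _ h x,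
        fun h => by simpa using (inferInstance : B₀.Normal).conj_mem _ h x⁻¹⟩
    show (Nat.card B₀ : ℂ)⁻¹ * _ = _
    split_ifs with he
    · rw [Finset.sum_congr rfl (g := fun _ => (1 : ℂ)) fun x _ => Char.extendByZero_mem B₀ _ ((hmem x).mpr he),
        Finset.sum_const, Finset.card_univ, nsmul_eq_mul, mul_one, ← Nat.card_eq_fintype_card,
        ← card_mul_index B₀, Nat.cast_mul, inv_mul_cancel_left₀ (Nat.cast_ne_zero.mpr Nat.card_pos.ne')]
    · rw [Finset.sum_eq_zero fun x _ => Char.extendByZero_not_mem B₀ _ (fun h => he ((hmem x).mp h)), mul_zero]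
  convert Char.isCharacter_mul hreg hχ using 1
  funext e
  rw [Pi.mul_apply, hval]
  by_cases he : β e ∈ core t X
  · rw [if_pos he, if_pos (show e ∈ B₀ from he), famSum_apply, hsum]
  · rw [if_neg he, if_neg (show e ∉ B₀ from he), zero_mul]

/-- The lift of the difference of two free families of the same size is a virtual character. -/
theorem isGeneralizedCharacter_lift {S S' : Finset ((T : Subgroup G) →* ℂˣ)} (hS : FreeFamily T S)
    (hS' : FreeFamily T S') (hcard : S.card = S'.card) :
    IsGeneralizedCharacter G (lift T (fun g => famSum S g - famSum S' g)) := by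
  classical
  haveI := Fintype.ofFinite G
  set f : G → ℂ := fun g => famSum S g - famSum S' g with hf
  have hinv : Invariant T f := fun n hn v hv => by
    simp only [hf, invariant_famSum hS.stable n hn v hv, invariant_famSum hS'.stable n hn v hv]
  have hf1 : f 1 = 0 := by
    rw [hf]
    have h1 := famSum_apply S (1 : (T : Subgroup G))
    have h2 := famSum_apply S' (1 : (T : Subgroup G))
    simp only [OneMemClass.coe_one, map_one, Units.val_one, Finset.sum_const, nsmul_eq_mul, mul_one] at h1 h2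
    simp only [h1, h2, hcard, sub_self]
  refine Char.brauer_characterization (isClassFunction_lift hT hinv) fun E p hp hE => ?_
  obtain ⟨a, r, hr, hcardE⟩ :=
    Nat.exists_eq_pow_mul_and_not_dvd (Nat.card_pos (α := E)).ne' t ht.out.ne_one
  have hcop : (t ^ a).Coprime r := Nat.Coprime.pow_left a (ht.out.coprime_iff_not_dvd.mpr hr)
  obtain ⟨k, hk1, hk0⟩ := Nat.chineseRemainder hcop 1 0
  obtain ⟨j, hj0, hj1⟩ := Nat.chineseRemainder hcop 0 1
  let φ : E →* E :=
    { toFun := fun e => e ^ k
      map_one' := one_pow k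
      map_mul' := CharClifford.mul_pow_of_elementary hp hE hcop.symm
        (by rw [hcardE, mul_comm]) hk1 hk0 }
  let ψ : E →* E :=
    { toFun := fun e => e ^ j
      map_one' := one_pow j
      map_mul' := CharClifford.mul_pow_of_elementary hp hE hcop (by rw [hcardE]) hj1 hj0 }
  have hkj : ∀ e : E, φ e * ψ e = e := fun e => by
    show e ^ k * e ^ j = e
    rw [← pow_add]
    conv_rhs => rw [← pow_one e]
    refine pow_eq_pow_iff_modEq.mpr (Nat.ModEq.of_dvd (hcardE ▸ orderOf_dvd_natCard e) ?_)
    exact (Nat.modEq_and_modEq_iff_modEq_mul hcop).mp ⟨by simpa using hk1.add hj0, by simpa using hk0.add hj1⟩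
  have hφt : ∀ e : E, φ e ^ (t ^ a) = 1 := fun e => by
    show (e ^ k) ^ (t ^ a) = 1
    rw [← pow_mul]
    refine orderOf_dvd_iff_pow_eq_one.mp ((hcardE ▸ orderOf_dvd_natCard e).trans ?_)
    rw [mul_comm k]
    exact mul_dvd_mul dvd_rfl (Nat.modEq_zero_iff_dvd.mp hk0)
  have hψr : ∀ e : E, ¬ t ∣ orderOf (ψ e) := fun e hd => by
    refine hr (hd.trans (orderOf_dvd_of_pow_eq_one ?_))
    show (e ^ j) ^ r = 1
    rw [← pow_mul]
    refine orderOf_dvd_iff_pow_eq_one.mp ((hcardE ▸ orderOf_dvd_natCard e).trans ?_)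
    exact mul_dvd_mul (Nat.modEq_zero_iff_dvd.mp hj0) dvd_rfl
  have hcomm : ∀ e e' : E, Commute (φ e) (ψ e') := fun e e' => by
    have hcross : ∀ x : E, ψ (φ x) = 1 ∧ φ (ψ x) = 1 := fun x => by
      refine ⟨?_, ?_⟩ <;>
      · show (x ^ _) ^ _ = 1
        rw [← pow_mul]
        refine orderOf_dvd_iff_pow_eq_one.mp ((hcardE ▸ orderOf_dvd_natCard x).trans ?_)
        first
          | exact mul_comm r (t ^ a) ▸ mul_dvd_mul (Nat.modEq_zero_iff_dvd.mp hk0) (Nat.modEq_zero_iff_dvd.mp hj0)
          | exact mul_dvd_mul (Nat.modEq_zero_iff_dvd.mp hj0) (Nat.modEq_zero_iff_dvd.mp hk0)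
    refine commutatorElement_eq_one_iff_commute.mp ?_
    have h1 := hkj ⁅φ e, ψ e'⁆
    rw [map_commutatorElement, map_commutatorElement, (hcross e').2, (hcross e).1,
      commutatorElement_one_right, commutatorElement_one_left, one_mul] at h1
    exact h1.symm
  -- move the `t`-part into `T`
  have hpg : IsPGroup t (φ.range.map E.subtype) := by
    refine IsPGroup.map ?_ _
    rintro ⟨_, e, rfl⟩
    exact ⟨a, Subtype.ext (hφt e)⟩
  obtain ⟨S₀, hS₀⟩ := hpg.exists_le_sylow
  obtain ⟨y, hy⟩ := MulAction.exists_smul_eq G S₀ T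
  have hyT : ∀ e : E, y * ((φ e : E) : G) * y⁻¹ ∈ (T : Subgroup G) := fun e => by
    rw [← hy, Sylow.coe_subgroup_smul]
    exact ⟨_, hS₀ ⟨φ e, ⟨e, rfl⟩, rfl⟩, rfl⟩
  let α : E →* (T : Subgroup G) :=
    (((MulAut.conj y).toMonoidHom.comp E.subtype).comp φ).codRestrict (T : Subgroup G) hyT
  let β : E →* G := ((MulAut.conj y).toMonoidHom.comp E.subtype).comp ψ
  have hβ : ∀ e, ¬ t ∣ orderOf (β e) := fun e => by
    show ¬ t ∣ orderOf (y * ((ψ e : E) : G) * y⁻¹)
    rw [Block.orderOf_conj_eq, Subgroup.orderOf_coe]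
    exact hψr e
  have hc : ∀ e e', Commute (α e : G) (β e') := fun e e' =>
    ((hcomm e e').map E.subtype).map (MulAut.conj y).toMonoidHom
  have hval : ∀ e : E, lift T f (e : G) = lift T f ((α e : G) * β e) := fun e => by
    rw [show (α e : G) * β e = y * (e : G) * y⁻¹ by
      show y * ((φ e : E) : G) * y⁻¹ * (y * ((ψ e : E) : G) * y⁻¹) = _
      conv_rhs => rw [← hkj e, Subgroup.coe_mul]
      group]
    exact (isClassFunction_lift hT hinv (e : G) y).symm
  haveI : Fintype E := Fintype.ofFinite E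
  by_cases hα : α = 1
  · refine ⟨0, 0, Char.isCharacter_zero, Char.isCharacter_zero, funext fun e => ?_⟩
    rw [sub_self, Pi.zero_apply, hval, lift_eq_zero]
    refine not_pair_of_regular ?_
    rw [hα, MonoidHom.one_apply, OneMemClass.coe_one, one_mul]
    exact hβ e
  obtain ⟨hB, h1⟩ := family_restrict_isCharacter hT hsolv α β hβ hc hα hS
  obtain ⟨-, h2⟩ := family_restrict_isCharacter hT hsolv α β hβ hc hα hS'
  refine ⟨_, _, h1, h2, funext fun e => ?_⟩
  rw [hval, lift_mul hT hinv hf1 (α e).2 (hβ e) (hc e e), Pi.sub_apply]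
  by_cases he : α e = 1
  · have h0 : famSum S (1 : G) = famSum S' (1 : G) := sub_eq_zero.mp hf1
    simp only [he, OneMemClass.coe_one, hf1, ite_self, h0, sub_self]
  · simp only [hB e he]
    split_ifs <;> simp [hf]

end Family

end Cfsg.Agent.Lib.OddTypes.SylowLift
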