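import Cfsg.Agent.Lib.OddTypes.AbelianSylow
import Cfsg.Agent.Lib.OddTypes.Basic
import Cfsg.Agent.Lib.Uniq.SupportTrichotomy
import Cfsg.Agent.Lib.Uniq.FpfCentral
import Cfsg.Agent.Lib.OddLocal.SigmaPrimeElem
import Cfsg.Agent.Lib.OddLocal.UPart
import Cfsg.Agent.Lib.LocalFusion.Ito
import Cfsg.Agent.S1356
import Cfsg.Agent.S1375

/-!
`κ(M) = ∅`, `M_σ` with nonabelian Sylow `p`-subgroup and not TI: elements of prime order outside `σ` of
`O_{p'}(M)` centralize `M_σ`.
-/

set_option autoImplicit false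

namespace Cfsg.Agent.Lib.OddTypes.Gap

open Subgroup Cfsg Cfsg.Agent.Lib Cfsg.Agent.Lib.Uniq
open Cfsg.Agent.Lib.Uniq.SupportCase (Data)
open Cfsg.Agent.Lib.Uniq.SupportCase.Data (sylSub)
open scoped Pointwise commutatorElement

universe u

variable {G : Type u} [Group G] [Finite G] {M : Subgroup G} {p : ℕ} {y : G}

omit [Finite G] in
/-- An element commuting with every member of a family generating `H`. -/
theorem mem_centralizer_of_mem {W : Subgroup G} {g : G} (hg : g ∈ centralizer (W : Set G)) {w : G} (hw : w ∈ W) :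
    Commute g w :=
  (mem_centralizer_iff.mp hg w hw).symm

/-- An element of prime order outside `σ` commuting with a nontrivial element of `M_σ` is a `τ₂`-element. -/
theorem tau2_of_commute (hG : IsMinSimpleOddOrder G) (hM : IsCoatom M) (hκ : kappa M = ∅) {r : ℕ} [Fact r.Prime]
    (hrσ : r ∉ sigma M) {x : G} (hxM : x ∈ M) (hx : orderOf x = r) {c : G} (hc : c ∈ sigmaCore M) (hc1 : c ≠ 1)
    (hxc : Commute x c) : r ∈ tau2 M :=
  (OddLocal.SigmaPrimeElem.kappa_or_tau2 hG hM hrσ hxM hx hc hc1 hxc.eq).resolve_left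
    fun h => Set.notMem_empty r (hκ ▸ h)

/-- A `σ'`-subgroup of `M` centralizing a nontrivial element of `M_σ` is cyclic. -/
theorem cyclic_of_commute (hG : IsMinSimpleOddOrder G) (hM : IsCoatom M) (hκ : kappa M = ∅) {W : Subgroup G}
    (hWM : W ≤ M) (hW : ∀ r : ℕ, r.Prime → r ∣ Nat.card W → r ∉ sigma M) {c : G} (hc : c ∈ sigmaCore M)
    (hc1 : c ≠ 1) (hWc : W ≤ centralizer ({c} : Set G)) : IsCyclic W := by
  refine OddLocal.UPart.isCyclic_tau2 hG hM hWM (fun r hr hd => ?_) hc hc1 hWc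
  haveI := Fact.mk hr
  obtain ⟨w, hw⟩ := exists_prime_orderOf_dvd_card' r hd
  exact tau2_of_commute hG hM hκ (hW r hr hd) (hWM w.2) (by rw [Subgroup.orderOf_coe, hw]) hc hc1
    (mem_centralizer_singleton_iff.mp (hWc w.2))

/-- A `σ(N)`-element of prime order of `N` lies in `N_σ`. -/
theorem mem_sigmaCore_of_prime (hG : IsMinSimpleOddOrder G) {N : Subgroup G} (hN : IsCoatom N) {r : ℕ}
    [Fact r.Prime] (hr : r ∈ sigma N) {x : G} (hxN : x ∈ N) (hx : orderOf x = r) : x ∈ sigmaCore N := by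
  have hle : sigmaCore N ≤ N := map_subtype_le _
  haveI : ((sigmaCore N).subgroupOf N).Normal :=
    (normal_subgroupOf_iff_le_normalizer hle).mpr (OddLocal.le_normalizer_piCoreOf (sigma N) N)
  have h := le_of_coprime_index (N := (sigmaCore N).subgroupOf N) (H := zpowers (⟨x, hxN⟩ : N)) (by
    rw [Nat.card_zpowers, orderOf_mk, hx]
    exact (Nat.Prime.coprime_iff_not_dvd Fact.out).mpr (Uniq.sigmaCore_hall hG hN hr).1) (mem_zpowers _)
  exact mem_subgroupOf.mp h

variable [hp : Fact p.Prime] {S : Sylow p ↥(sigmaCore M)}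

/-- A line of a cyclic Sylow subgroup of `M_σ` is normal in `M`. -/
theorem line_normal (h : Data M p y) {q : ℕ} [hq : Fact q.Prime] (T : Sylow q ↥(sigmaCore M))
    [IsCyclic ↥(sylSub T)] {z : G} (hz : z ∈ sylSub T) : ∀ g ∈ M, g * z * g⁻¹ ∈ zpowers z := fun g hg => by
  have he : MulAut.conj g • zpowers z = zpowers z := by
    refine OddLocal.eq_of_card_eq_of_le_cyclic (W := sylSub T) ?_ (zpowers_le.mpr hz) (Coprime.card_conj_smul _ _)
    rintro _ ⟨w, hw, rfl⟩
    exact (mem_normalizer_iff.mp (h.normal_sylow T hg) w).mp (zpowers_le.mpr hz hw)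
  have h3 : g * z * g⁻¹ ∈ MulAut.conj g • zpowers z := ⟨z, mem_zpowers _, rfl⟩
  rwa [he] at h3

omit hp in
theorem normalizer_line (hG : IsMinSimpleOddOrder G) (hM : IsCoatom M) {z : G} (hzM : z ∈ M) (hz1 : z ≠ 1)
    (hn : ∀ g ∈ M, g * z * g⁻¹ ∈ zpowers z) : normalizer (zpowers z : Set G) ≤ M := by
  refine (normalizer_max hG hM (zpowers_ne_bot.mpr hz1) (zpowers_le.mpr hzM) fun g hg => ?_).le
  refine Coprime.mem_normalizer_of_conj_smul_eq ?_
  have he : MulAut.conj g • zpowers z = zpowers (g * z * g⁻¹) := by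
    show (zpowers z).map (MulAut.conj g).toMonoidHom = _
    rw [MonoidHom.map_zpowers]
    rfl
  rw [he]
  exact eq_of_le_of_card_ge (zpowers_le.mpr (hn g hg))
    (by rw [Nat.card_zpowers, Nat.card_zpowers]; exact (MulEquiv.orderOf_eq (MulAut.conj g) z).ge)

/-- `O_{p'}(M)` centralizes the Sylow `p`-subgroup of `M_σ`. -/
theorem core_le_centralizer_sylow (h : Data M p y) :
    SylowLift.core p M ≤ centralizer (sylSub S : Set G) := by
  have hPM : sylSub S ≤ M := (map_subtype_le _).trans (map_subtype_le _)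
  refine commutator_eq_bot_iff_le_centralizer.mp (le_bot_iff.mp ?_)
  have hi : SylowLift.core p M ⊓ sylSub S = ⊥ := by
    obtain ⟨k, hk⟩ := IsPGroup.iff_card.mp (S.2.map (sigmaCore M).subtype)
    exact Coprime.inf_eq_bot_of_coprime (by rw [hk]; exact (SylowLift.card_core_coprime M).pow_right k)
  rw [← hi]
  refine le_inf (Coprime.commutator_le_of_le_normalizer' (hPM.trans (SylowLift.le_normalizer_core M))) ?_
  rw [commutator_comm]
  exact Coprime.commutator_le_of_le_normalizer' ((SylowLift.core_le M).trans (h.normal_sylow S))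

theorem core_le_centralizer_y (h : Data M p y) (S : Sylow p ↥(sigmaCore M)) :
    SylowLift.core p M ≤ centralizer ({y} : Set G) := fun x hx =>
  mem_centralizer_singleton_iff.mpr (mem_centralizer_iff.mp (core_le_centralizer_sylow (S := S) h hx) y (h.x_mem S)).symm

/-- An element of prime order outside `σ` of `O_{p'}(M)` commutes with the lines of the cyclic Sylow subgroups. -/
theorem commute_line (hG : IsMinSimpleOddOrder G) (h : Data M p y) (hκ : kappa M = ∅) (S : Sylow p ↥(sigmaCore M))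
    (hPna : ¬ IsMulCommutative (sylSub S)) {t : ℕ} [ht : Fact t.Prime] (htσ : t ∉ sigma M)
    {x : G} (hx : x ∈ SylowLift.core p M) (hxo : orderOf x = t)
    {q : ℕ} [hq : Fact q.Prime] (hqp : q ≠ p) {z : G} (hz : z ∈ sigmaCore M) (hzo : orderOf z = q) :
    Commute x z := by
  have hM := h.coatom
  have hσM : sigmaCore M ≤ M := map_subtype_le _
  have hxM : x ∈ M := SylowLift.core_le M hx
  have hzM : z ∈ M := hσM hz
  have hy1 : y ≠ 1 := h.ne_one
  obtain ⟨T⟩ : Nonempty (Sylow q ↥(sigmaCore M)) := inferInstance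
  haveI := h.cyclic_of_ne S hG hPna hqp T
  have hzT : z ∈ sylSub T := h.mem_sylow T hz (j := 1) (by rw [pow_one, ← hzo, pow_orderOf_eq_one])
  have hz1 : z ≠ 1 := fun e => hq.out.ne_one (by rw [← hzo, e, orderOf_one])
  have hzn := line_normal h T hzT
  have hNz := normalizer_line hG hM hzM hz1 hzn
  have hxy : x ∈ centralizer ({y} : Set G) := core_le_centralizer_y h S hx
  have hzy : z ∈ centralizer ({y} : Set G) := h.sylow_le_centralizer hqp T hzT
  have hCx : centralizer ({x} : Set G) ≤ M := by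
    refine (Uniq.tau_two_element_unique hG hM hxM (fun e => ht.out.ne_one (by rw [← hxo, e, orderOf_one])) ?_
      ⟨hxM, y, h.mem, hy1, mem_centralizer_singleton_iff.mp hxy⟩).1
    intro r hr hd
    rw [hxo] at hd
    rw [(Nat.prime_dvd_prime_iff_eq hr ht.out).mp hd]
    exact tau2_of_commute hG hM hκ htσ hxM hxo h.mem hy1 (mem_centralizer_singleton_iff.mp hxy)
  obtain ⟨N, ⟨hN, hCN⟩, -, hNF, hnorm, hcompl, -, -⟩ := S1375.result hG M hM y h.mem hy1 h.out
  set R₀ := sigmaCore N ⊓ centralizer ({y} : Set G) with hR₀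
  have hR₀M : ∀ c ∈ R₀, c ∈ M → c = 1 := fun c hc hcM =>
    mem_bot.mp (hcompl.2.2.1 ▸ (⟨⟨hcM, hc.2⟩, hc⟩ : c ∈ M ⊓ centralizer ({y} : Set G) ⊓ R₀))
  have hR₀1 : R₀ ≠ ⊥ := fun hb => h.out fun c hc => by
    obtain ⟨a, ha, b, hb', rfl⟩ := hcompl.2.2.2 c hc
    rw [hb, mem_bot] at hb'
    rw [hb', mul_one]
    exact ha.1
  haveI : Group.IsNilpotent (sigmaCore N) := by
    haveI := (OddLocal.fittingHall_mem (↥N)).2.1
    rw [hNF]
    exact Group.nilpotent_of_mulEquiv ((fittingHall ↥N).equivMapOfInjective _ N.subtype_injective)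
  haveI : Group.IsNilpotent R₀ := Group.nilpotent_of_mulEquiv (subgroupOfEquivOfLe (inf_le_left : R₀ ≤ sigmaCore N))
  obtain ⟨r, hrP, hr⟩ : ∃ r : ℕ, r.Prime ∧ pCore r R₀ ≠ ⊥ := by
    by_contra hno
    push Not at hno
    have htop : (⊤ : Subgroup R₀) ≤ ⨆ r : Nat.Primes, pCore (r : ℕ) R₀ :=
      Hall.le_iSup_pCore (N := (⊤ : Subgroup R₀)) inferInstance
    refine hR₀1 (eq_bot_iff.mpr fun c hc => ?_)
    have := (htop.trans (iSup_le fun r : Nat.Primes => (hno r r.2).le)) (mem_top (⟨c, hc⟩ : R₀))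
    exact mem_bot.mpr (congrArg Subtype.val (mem_bot.mp this))
  haveI := Fact.mk hrP
  set R := (pCore r R₀).map R₀.subtype with hR
  have hRpg : IsPGroup r R := (Hall.isPGroup_pCore r).map _
  have hRσ : r ∈ sigma N := by
    refine OddLocal.piCoreOf_isPi (sigma N) N r hrP ?_
    obtain ⟨j, hj⟩ := IsPGroup.iff_card.mp hRpg
    have hj0 : j ≠ 0 := fun e => hr ((map_eq_bot_iff_of_injective _ R₀.subtype_injective).mp
      (eq_bot_of_card_eq _ (by rw [hj, e, pow_zero])))
    exact (((dvd_pow_self r hj0).trans hj.symm.dvd).trans (card_dvd_of_le ((map_subtype_le _).trans inf_le_left)))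
  have hRnorm : centralizer ({y} : Set G) ≤ normalizer (R : Set G) :=
    hnorm.trans (PL.normalizer_le_normalizer_map_char R₀ (pCore r R₀))
  have hnot : ∀ {s : ℕ} [Fact s.Prime] {w : G}, w ∈ M → w ∈ centralizer ({y} : Set G) → orderOf w = s →
      w ≠ 1 → r ≠ s := by
    rintro s _ w hwM hwy hwo hw1 rfl
    exact hw1 (hR₀M w ⟨mem_sigmaCore_of_prime hG hN hRσ (hCN hwy) hwo, hwy⟩ hwM)
  by_contra hne
  have hqt : q ≠ t := fun e => htσ (e ▸ OddLocal.piCoreOf_isPi (sigma M) M q hq.out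
    (hzo ▸ Subgroup.orderOf_dvd_natCard _ hz))
  have hrt : r ≠ t := hnot hxM hxy hxo fun e => ht.out.ne_one (by rw [← hxo, e, orderOf_one])
  have hrq : r ≠ q := hnot hzM hzy hzo hz1
  have hq2 : q ≠ 2 := fun e => hG.1.not_two_dvd_nat (e ▸ hzo ▸ orderOf_dvd_natCard z)
  have hzpow : x ∈ normalizer (zpowers z : Set G) := by
    refine Coprime.mem_normalizer_of_conj_smul_eq ?_
    show (zpowers z).map (MulAut.conj x).toMonoidHom = _
    rw [MonoidHom.map_zpowers]
    exact eq_of_le_of_card_ge (zpowers_le.mpr (hzn x hxM))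
      (by rw [Nat.card_zpowers, Nat.card_zpowers]; exact (MulEquiv.orderOf_eq (MulAut.conj x) z).ge)
  have key := Uniq.commutator_le_centralizer_pgroup hqt hrt hrq hq2 hRpg
    (IsPGroup.of_card (n := 1) (by rw [Nat.card_zpowers, hzo, pow_one]) : IsPGroup q (zpowers z))
    (hxo ▸ pow_orderOf_eq_one x) (hRnorm hxy) hzpow ((zpowers_le.mpr (hRnorm hzy)))
    (fun c hc hcx => hR₀M c (map_subtype_le _ hc) (hCx (mem_centralizer_singleton_iff.mpr hcx.symm)))
  set d := ⁅z, x⁆ with hd
  have hd1 : d ≠ 1 := fun e => hne (commutatorElement_eq_one_iff_commute.mp e).symm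
  have hdR : d ∈ centralizer (R : Set G) := key (commutator_mem_commutator (mem_zpowers z) (mem_zpowers x))
  have hdz : d ∈ zpowers z :=
    Coprime.commutator_le_of_le_normalizer' (zpowers_le.mpr hzpow)
      (commutator_mem_commutator (mem_zpowers z) (mem_zpowers x))
  have heq : zpowers d = zpowers z := by
    refine eq_of_le_of_card_ge (zpowers_le.mpr hdz) ?_
    rw [Nat.card_zpowers, Nat.card_zpowers, hzo, orderOf_eq_prime (p := q) (x := d) ?_ hd1]
    exact orderOf_dvd_iff_pow_eq_one.mp (hzo ▸ orderOf_dvd_of_mem_zpowers hdz)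
  refine hr ((map_eq_bot_iff_of_injective _ R₀.subtype_injective).mp (eq_bot_iff.mpr fun c hc => ?_))
  refine mem_bot.mpr (hR₀M c (map_subtype_le _ hc) (hNz (centralizer_le_normalizer _ ?_)))
  rw [← heq, centralizer_zpowers, mem_centralizer_singleton_iff]
  exact mem_centralizer_iff.mp hdR c hc

/-- An element commuting with all Sylow subgroups of the nilpotent `M_σ` centralizes it. -/
theorem mem_centralizer_sigmaCore_of_sylows (h : Data M p y) {g : G}
    (hg : ∀ (q : ℕ) [Fact q.Prime] (T : Sylow q ↥(sigmaCore M)), g ∈ centralizer (sylSub T : Set G)) :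
    g ∈ centralizer (sigmaCore M : Set G) := by
  haveI := h.nil
  have hle : (⊤ : Subgroup ↥(sigmaCore M)) ≤ (centralizer ({g} : Set G)).comap (sigmaCore M).subtype := by
    refine (Hall.le_iSup_pCore (N := (⊤ : Subgroup ↥(sigmaCore M))) inferInstance).trans (iSup_le fun s => ?_)
    haveI := Fact.mk s.2
    obtain ⟨T⟩ : Nonempty (Sylow (s : ℕ) ↥(sigmaCore M)) := inferInstance
    intro w hw
    exact mem_centralizer_singleton_iff.mpr (mem_centralizer_iff.mp (hg s T) w
      ((h.le_sylow T ((Hall.isPGroup_pCore (s : ℕ)).map _) (map_subtype_le _)) (mem_map_of_mem _ hw)))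
  exact mem_centralizer_iff.mpr fun w hw => mem_centralizer_singleton_iff.mp (hle (mem_top (⟨w, hw⟩ : sigmaCore M)))

/-- A `t`-element of `O_{p'}(M)` whose socle commutes with the lines centralizes the cyclic Sylow subgroups. -/
theorem mem_centralizer_sylow_of_lines (hG : IsMinSimpleOddOrder G) {q : ℕ} [hq : Fact q.Prime] (h : Data M p y) (T : Sylow q ↥(sigmaCore M))
    {g : G} (hg : g ∈ M) (hgq : (orderOf g).Coprime q)
    (hl : ∀ z ∈ sylSub T, orderOf z = q → Commute g z) : g ∈ centralizer (sylSub T : Set G) := by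
  have hfix := LocalFusion.centralizes_of_fix_small hgq (sylSub T) (T.2.map _) (h.normal_sylow T hg) fun a ha hs => by
    by_cases ha1 : a = 1
    · simp [ha1]
    have hao : orderOf a = q := by
      rcases hs with e | ⟨e2, e4⟩
      · exact orderOf_eq_prime e ha1
      · exact absurd e2 (Uniq.ne_two_of_pgroup hG (T.2.map (sigmaCore M).subtype) fun e => ha1 (mem_bot.mp (e ▸ ha)))
    rw [(hl a ha hao).eq, mul_inv_cancel_right]
  exact mem_centralizer_iff.mpr fun a ha => (mul_inv_eq_iff_eq_mul.mp (hfix a ha)).symm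

end Cfsg.Agent.Lib.OddTypes.Gap
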