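import Cfsg.Agent.Lib.OddTypes.Data
import Cfsg.Agent.S1357
import Cfsg.Agent.S1359
import Cfsg.Agent.S1360
import Cfsg.Agent.S1363
import Cfsg.Agent.S1372

/-! The types II, III, IV and V from a standard factorisation with `K ≠ 1`. -/

set_option autoImplicit false

namespace Cfsg.Agent.Lib.OddTypes

open Subgroup Cfsg
open scoped Pointwise commutatorElement

universe u

section Characteristic

variable {Γ Δ : Type u} [Group Γ] [Group Δ]

/-- Isomorphisms carry `fittingHall` into `fittingHall`. -/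
theorem map_fittingHall_le (e : Γ ≃* Δ) : (fittingHall Γ).map e.toMonoidHom ≤ fittingHall Δ := by
  rw [map_le_iff_le_comap]
  refine sSup_le fun N hN => ?_
  rw [← map_le_iff_le_comap]
  refine le_sSup ⟨hN.1.map _ e.surjective, ?_, ?_⟩
  · haveI := hN.2.1
    exact Group.nilpotent_of_mulEquiv (e.subgroupMap N)
  · rw [← Nat.card_congr (equivMapOfInjective N e.toMonoidHom e.injective).toEquiv, MulEquiv.toMonoidHom_eq_coe,
      index_map_equiv]
    exact hN.2.2

end Characteristic

variable {G : Type u} [Group G] [Finite G] {M N K U A B X W₁ W₂ V : Subgroup G}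

/-- A Sylow subgroup of a nilpotent subgroup is normalised by the normalizer. -/
theorem normalizer_le_normalizer_sylow [Group.IsNilpotent A] {r : ℕ} [Fact r.Prime] (R : Sylow r A) :
    normalizer (A : Set G) ≤ normalizer (((R : Subgroup A).map A.subtype : Subgroup G) : Set G) := by
  haveI : (R : Subgroup A).Normal :=
    Sylow.normal_of_normalizerCondition Group.normalizerCondition_of_isNilpotent R
  have key : ∀ g ∈ normalizer (A : Set G), ∀ x ∈ (R : Subgroup A).map A.subtype,
      g * x * g⁻¹ ∈ (R : Subgroup A).map A.subtype := by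
    rintro g hg _ ⟨a, ha, rfl⟩
    have hm : g * (a : G) * g⁻¹ ∈ A := (mem_normalizer_iff.mp hg a).mp a.2
    refine ⟨⟨_, hm⟩, ?_, rfl⟩
    refine Uniq.le_of_coprime_index (N := (R : Subgroup A)) (H := zpowers (⟨_, hm⟩ : A)) ?_ (mem_zpowers _)
    rw [Nat.card_zpowers, Subgroup.orderOf_mk]
    obtain ⟨n, hn⟩ := (IsPGroup.iff_orderOf (p := r)).mp R.2 ⟨a, ha⟩
    rw [Subgroup.orderOf_mk] at hn
    rw [show orderOf (g * (a : G) * g⁻¹) = orderOf (a : G) from MulEquiv.orderOf_eq (MulAut.conj g) _,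
      Subgroup.orderOf_coe, hn]
    exact Nat.Coprime.pow_left _ (((Fact.out : r.Prime).coprime_iff_not_dvd).mpr R.not_dvd_index)
  intro g hg
  rw [mem_normalizer_iff]
  refine fun x => ⟨key g hg x, fun hx => ?_⟩
  have := key g⁻¹ (inv_mem hg) _ hx
  simpa [mul_assoc] using this

/-- Every type with `U = 1` has the normalizer of the complement of `M_F` inside `M`. -/
theorem normalizer_le_of_trivial_U (hG : IsMinSimpleOddOrder G) (hM : IsCoatom M)
    (hKU : IsSigmaDecomposition M K U) (hK1 : K ≠ ⊥) (hU : U = ⊥) {V : Subgroup G}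
    (hV : IsComplIn (fittingHallOf M) V ⁅M, M⁆) (hVnil : Group.IsNilpotent V) (hV1 : V ≠ ⊥) :
    normalizer (V : Set G) ≤ M := by
  haveI := hVnil
  obtain ⟨r, hr, hrd⟩ := Nat.exists_prime_and_dvd (mt V.eq_bot_of_card_eq hV1)
  haveI := Fact.mk hr
  obtain ⟨R⟩ : Nonempty (Sylow r V) := inferInstance
  have hD : ⁅M, M⁆ = sigmaCore M := by
    rw [OddLocal.Decomposition.derived_eq hG hM hKU hK1, hU, bot_sup_eq]
  have hVσ : V ≤ sigmaCore M := hV.2.1.trans hD.le
  have hrσ : r ∈ sigma M := OddLocal.piCoreOf_isPi (sigma M) M r hr (hrd.trans (card_dvd_of_le hVσ))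
  have hcop : (Nat.card (fittingHallOf M)).Coprime (Nat.card V) := by
    rw [OddLocal.card_compl hV]
    exact (OddLocal.coprime_fittingHallOf_relIndex M).coprime_dvd_right
      (Dvd.intro _ (relIndex_mul_relIndex _ _ _ (fcore_le_derived hG hM) (commutator_le_self M)))
  set R' := (R : Subgroup V).map V.subtype with hR'
  have hR'V : R' ≤ V := map_subtype_le _
  have hndiv : ¬ r ∣ R'.index := by
    rw [← relIndex_mul_index hR'V, ← relIndex_mul_index hVσ]
    intro hd
    rcases hr.dvd_mul.mp hd with h | h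
    · rw [hR', relIndex, subgroupOf, comap_map_eq_self_of_injective V.subtype_injective] at h
      exact R.not_dvd_index h
    rcases hr.dvd_mul.mp h with h | h
    · have hF : fittingHallOf M ≤ sigmaCore M := hD ▸ fcore_le_derived hG hM
      have h' : r ∣ Nat.card (fittingHallOf M) := by
        refine h.trans ?_
        have h1 := relIndex_mul_relIndex ⊥ _ _ bot_le hVσ
        rw [relIndex_bot_left, relIndex_bot_left] at h1
        have h2 := relIndex_mul_relIndex ⊥ _ _ bot_le hF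
        rw [relIndex_bot_left, relIndex_bot_left, ← hD, ← OddLocal.card_compl hV, hD, ← h1,
          mul_comm (Nat.card V)] at h2
        exact (Nat.eq_of_mul_eq_mul_right Nat.card_pos h2).symm.dvd
      exact hr.ne_one (Nat.eq_one_of_dvd_coprimes hcop h' hrd)
    · exact (Uniq.sigmaCore_hall hG hM hrσ).2 h
  let P : Sylow r G := (R.2.map V.subtype).toSylow hndiv
  exact (normalizer_le_normalizer_sylow R).trans
    (Uniq.sylow_normalizer_le hG hM hrσ P (hR'V.trans (hV.2.1.trans (commutator_le_self M))))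

/-- `M_F = M_σ` when `U ≠ 1`. -/
theorem fcore_eq_of_U (hG : IsMinSimpleOddOrder G) (hM : IsCoatom M)
    (hKU : IsSigmaDecomposition M K U) (hU : U ≠ ⊥) : fittingHallOf M = sigmaCore M := by
  by_contra h
  exact hU (S1357.result hG M hM K U hKU h).1

theorem U_coprime (hG : IsMinSimpleOddOrder G) (hM : IsCoatom M)
    (hKU : IsSigmaDecomposition M K U) : (Nat.card (sigmaCore M)).Coprime (Nat.card U) :=
  Nat.coprime_of_dvd fun p hp h1 h2 =>
    (OddLocal.UPart.prime_U hG hM hKU hp h2).1 (OddLocal.piCoreOf_isPi (sigma M) M p hp h1)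

/-- `U` is a complement of `M_σ` in `U M_σ`. -/
theorem U_compl (hG : IsMinSimpleOddOrder G) (hM : IsCoatom M)
    (hKU : IsSigmaDecomposition M K U) : IsComplIn (sigmaCore M) U (U ⊔ sigmaCore M) := by
  refine ⟨le_sup_right, le_sup_left, Coprime.inf_eq_bot_of_coprime (U_coprime hG hM hKU), fun m hm => ?_⟩
  have hn : U ≤ normalizer (sigmaCore M : Set G) :=
    hKU.compl.1.trans (OddLocal.le_normalizer_piCoreOf (sigma M) M)
  obtain ⟨u, hu, s, hs, rfl⟩ := (Coprime.mem_sup_of_le_normalizer hn).mp hm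
  exact ⟨u * s * u⁻¹, (mem_normalizer_iff.mp (hn hu) s).mp hs, u, hu, by group⟩

/-- The Frobenius type of `U M_σ` when `U ≠ 1`, given the value of its `M_F`. -/
theorem isOfTypeF_sup (hG : IsMinSimpleOddOrder G) (hM : IsCoatom M)
    (hKU : IsSigmaDecomposition M K U) (hU : U ≠ ⊥) {D : Subgroup G} (hD : D = U ⊔ sigmaCore M)
    (hF : fittingHallOf D = sigmaCore M) : IsOfTypeF D := by
  have hDM : D ≤ M := hD ▸ sup_le hKU.compl.1 (map_subtype_le _)
  have hsolv : Group.IsSolvable D := hG.2.2.2 D fun h => hM.1 (top_le_iff.mp (h ▸ hDM))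
  have hUD : U ≤ D := hD ▸ le_sup_left
  have hc := U_compl hG hM hKU
  rw [← hD] at hc
  obtain ⟨U₀, hU₀, hexp, hfree⟩ := S1360.result hG M hM K U hKU
  have hmemF : ∀ {x : D}, x ∈ fittingHall D → (x : G) ∈ sigmaCore M := fun hx => hF.le ⟨_, hx, rfl⟩
  refine ⟨hsolv, odd_card hG D, fun h => ?_, fun h => ?_, U.subgroupOf D, fun h => ?_, ?_, ?_, ?_⟩
  · refine Uniq.sigmaCore_ne_bot hG hM (coatom_ne_bot hG hM) ?_
    rw [← hF, fittingHallOf, h, Subgroup.map_bot]
  · refine hU (le_bot_iff.mp (hc.2.2.1 ▸ le_inf (fun x hx => ?_) le_rfl))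
    rw [← hF, fittingHallOf, h]
    exact ⟨⟨x, hUD hx⟩, trivial, rfl⟩
  · exact hU (by rw [← inf_eq_left.mpr hUD, ← subgroupOf_map_subtype, h, Subgroup.map_bot])
  · refine isComplement'_of_disjoint_and_mul_eq_univ ?_ ?_
    · rw [disjoint_iff, eq_bot_iff]
      intro x hx
      have : (x : G) ∈ sigmaCore M ⊓ U := ⟨hmemF hx.1, hx.2⟩
      rw [hc.2.2.1, mem_bot] at this
      exact Subtype.ext this
    · rw [Set.eq_univ_iff_forall]
      intro x
      obtain ⟨a, ha, b, hb, he⟩ := hc.2.2.2 x x.2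
      obtain ⟨a', ha', rfl⟩ := hF.ge ha
      exact ⟨a', ha', ⟨b, hUD hb⟩, hb, Subtype.ext he.symm⟩
  · refine ⟨(closure ((U : Set G) ∩ sigmaHat M)).subgroupOf D, ?_, ?_, ?_, ?_⟩
    · exact comap_mono ((closure_le _).mpr Set.inter_subset_left)
    · have hconj : ∀ u ∈ U, ∀ y ∈ closure ((U : Set G) ∩ sigmaHat M),
          u * y * u⁻¹ ∈ closure ((U : Set G) ∩ sigmaHat M) := by
        intro u hu y hy
        have hle : closure ((U : Set G) ∩ sigmaHat M) ≤
            (closure ((U : Set G) ∩ sigmaHat M)).comap (MulAut.conj u).toMonoidHom := by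
          rw [closure_le]
          rintro z ⟨hzU, hzM, s, hs, hs1, hzs⟩
          refine subset_closure ⟨U.mul_mem (U.mul_mem hu hzU) (U.inv_mem hu),
            M.mul_mem (M.mul_mem (hKU.compl.1 hu) hzM) (M.inv_mem (hKU.compl.1 hu)), u * s * u⁻¹,
            (mem_normalizer_iff.mp (OddLocal.le_normalizer_piCoreOf (sigma M) M (hKU.compl.1 hu)) s).mp hs,
            fun e => hs1 (conj_eq_one_iff.mp e), ?_⟩
          show u * z * u⁻¹ * (u * s * u⁻¹) = u * s * u⁻¹ * (u * z * u⁻¹)
          calc u * z * u⁻¹ * (u * s * u⁻¹) = u * (z * s) * u⁻¹ := by group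
            _ = _ := by rw [hzs]; group
        exact hle hy
      intro u hu
      rw [mem_normalizer_iff]
      intro y
      simp only [SetLike.mem_coe, mem_subgroupOf, Subgroup.coe_mul, InvMemClass.coe_inv]
      refine ⟨hconj u hu y, fun h => ?_⟩
      have := hconj (u : G)⁻¹ (U.inv_mem hu) _ h
      simpa [mul_assoc] using this
    · haveI := S1359.result hG M hM K U hKU
      refine ⟨⟨fun a b => ?_⟩⟩
      apply Subtype.ext
      apply Subtype.ext
      simp only [Subgroup.coe_mul]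
      exact congrArg Subtype.val
        (this.is_comm.comm (⟨((a : D) : G), a.2⟩ : closure ((U : Set G) ∩ sigmaHat M)) ⟨((b : D) : G), b.2⟩)
    · intro x hx hx1 u hu
      refine subset_closure ⟨hu.1, hKU.compl.1 hu.1, x, hmemF hx, fun h => hx1 (Subtype.ext h), ?_⟩
      exact congrArg Subtype.val (mem_centralizer_singleton_iff.mp hu.2)
  · refine ⟨U₀.subgroupOf D, comap_mono hU₀, ?_, fun u hu hu1 x hx hux => ?_⟩
    · rw [Monoid.exponent_eq_of_mulEquiv (subgroupOfEquivOfLe (hU₀.trans hUD)), hexp,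
        Monoid.exponent_eq_of_mulEquiv (subgroupOfEquivOfLe hUD)]
    · by_contra hx1
      exact hu1 (Subtype.ext (hfree u hu ⟨hDM u.2, x, hmemF hx, fun h => hx1 (Subtype.ext h),
        congrArg Subtype.val hux⟩))

/-- `(M')_F = M_σ` when `K ≠ 1` and `U ≠ 1`. -/
theorem fcore_derived (hG : IsMinSimpleOddOrder G) (hM : IsCoatom M)
    (hKU : IsSigmaDecomposition M K U) (hK1 : K ≠ ⊥) (hU : U ≠ ⊥) :
    fittingHallOf ⁅M, M⁆ = sigmaCore M := by
  have hD := OddLocal.Decomposition.derived_eq hG hM hKU hK1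
  have hF := fcore_eq_of_U hG hM hKU hU
  have hle : sigmaCore M ≤ ⁅M, M⁆ := Uniq.sigmaCore_le_derived hG hM
  obtain ⟨hn, hnil, hco⟩ := OddLocal.fittingHall_mem M
  refine le_antisymm ?_ ?_
  · obtain ⟨hn', hnil', hco'⟩ := OddLocal.fittingHall_mem ↥⁅M, M⁆
    rw [← hF]
    set Y := fittingHallOf ⁅M, M⁆ with hY
    have hYM : Y ≤ M := (map_subtype_le _).trans (commutator_le_self M)
    haveI : (Y.subgroupOf M).Normal := by
      refine (normal_subgroupOf_iff_le_normalizer hYM).mpr fun m hm => ?_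
      have hmD : ∀ z ∈ ⁅M, M⁆, ∀ w ∈ M, w * z * w⁻¹ ∈ ⁅M, M⁆ := by
        intro z hz w hw
        rw [← map_subtype_commutator] at hz ⊢
        obtain ⟨z', hz', rfl⟩ := hz
        exact ⟨⟨w, hw⟩ * z' * ⟨w, hw⟩⁻¹, (inferInstance : (commutator M).Normal).conj_mem z' hz' _, rfl⟩
      have key : ∀ w ∈ M, ∀ y ∈ Y, w * y * w⁻¹ ∈ Y := by
        intro w hw y hy
        let e : ↥⁅M, M⁆ ≃* ↥⁅M, M⁆ :=
          { toFun := fun z => ⟨w * z * w⁻¹, hmD z z.2 w hw⟩
            invFun := fun z => ⟨w⁻¹ * z * w, by simpa using hmD z z.2 w⁻¹ (inv_mem hw)⟩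
            left_inv := fun z => Subtype.ext (by simp [mul_assoc])
            right_inv := fun z => Subtype.ext (by simp [mul_assoc])
            map_mul' := fun a b => Subtype.ext (by simp [mul_assoc]) }
        obtain ⟨y', hy', rfl⟩ := hy
        exact ⟨e y', map_fittingHall_le e (mem_map_of_mem _ hy'), rfl⟩
      rw [mem_normalizer_iff]
      refine fun y => ⟨key m hm y, fun h => ?_⟩
      have := key m⁻¹ (inv_mem hm) _ h
      simpa [mul_assoc] using this
    refine le_trans (le_of_eq ?_) (map_mono (f := M.subtype) (le_sSup (a := Y.subgroupOf M) ⟨inferInstance, ?_, ?_⟩))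
    · rw [subgroupOf_map_subtype, inf_eq_left.mpr hYM]
    · haveI := hnil'
      exact Group.nilpotent_of_mulEquiv ((equivMapOfInjective (fittingHall ↥⁅M, M⁆) _
        (⁅M, M⁆).subtype_injective).trans (subgroupOfEquivOfLe hYM).symm)
    · rw [Coprime.card_subgroupOf hYM]
      show (Nat.card Y).Coprime (Y.relIndex M)
      rw [← relIndex_mul_relIndex Y ⁅M, M⁆ M (map_subtype_le _) (commutator_le_self M),
        ← OddLocal.card_compl (derived_compl hG hM hKU hK1)]
      refine Nat.Coprime.mul_right ?_ ?_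
      · rw [hY, fittingHallOf, card_map_of_injective (⁅M, M⁆).subtype_injective, relIndex, subgroupOf,
          comap_map_eq_self_of_injective (⁅M, M⁆).subtype_injective]
        exact hco'
      · exact (derived_coprime hG hM hKU hK1).coprime_dvd_left (card_dvd_of_le (map_subtype_le _))
  · haveI : ((sigmaCore M).subgroupOf ⁅M, M⁆).Normal := (normal_subgroupOf_iff_le_normalizer hle).mpr
      ((commutator_le_self M).trans (OddLocal.le_normalizer_piCoreOf (sigma M) M))
    refine le_trans (le_of_eq ?_) (map_mono (f := (⁅M, M⁆).subtype)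
      (le_sSup (a := (sigmaCore M).subgroupOf ⁅M, M⁆) ⟨inferInstance, ?_, ?_⟩))
    · rw [subgroupOf_map_subtype, inf_eq_left.mpr hle]
    · haveI := hnil
      exact Group.nilpotent_of_mulEquiv (((equivMapOfInjective (fittingHall M) _ M.subtype_injective).trans
        (MulEquiv.subgroupCongr hF)).trans (subgroupOfEquivOfLe hle).symm)
    · rw [Coprime.card_subgroupOf hle]
      show (Nat.card (sigmaCore M)).Coprime ((sigmaCore M).relIndex ⁅M, M⁆)
      rw [hD, ← OddLocal.card_compl (U_compl hG hM hKU)]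
      exact U_coprime hG hM hKU

/-- Type II. -/
theorem typeII_of (hG : IsMinSimpleOddOrder G) (hM : IsCoatom M)
    (hKU : IsSigmaDecomposition M K U) (hK1 : K ≠ ⊥) (hU : U ≠ ⊥) : IsOfTypeII M := by
  have hD := OddLocal.Decomposition.derived_eq hG hM hKU hK1
  have hF := fcore_eq_of_U hG hM hKU hU
  obtain ⟨hab, hnorm⟩ := S1363.result hG M hM K U hKU hK1
  obtain ⟨hprime, hTI, -⟩ := S1372.result hG M hM K U hKU hK1 hU
  have hV : IsComplIn (fittingHallOf M) U ⁅M, M⁆ := by
    rw [hF, hD]; exact U_compl hG hM hKU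
  refine ⟨K, U, _, typePWith hG hM hKU hK1 hV hKU.normal (Uniq.nilpotent_of_isMulCommutative hab), hU,
    hprime, hTI, hab, hnorm, isOfTypeF_sup hG hM hKU hU hD (fcore_derived hG hM hKU hK1 hU), ?_⟩
  rw [hF, fcore_derived hG hM hKU hK1 hU]

/-- Type III or IV. -/
theorem typeIII_IV_of (hG : IsMinSimpleOddOrder G) (hM : IsCoatom M)
    (hKU : IsSigmaDecomposition M K U) (hK1 : K ≠ ⊥) (hne : fittingHallOf M ≠ sigmaCore M) :
    IsOfTypeIII M ∨ IsOfTypeIV M := by
  obtain ⟨hU, hTI, hprime⟩ := S1357.result hG M hM K U hKU hne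
  obtain ⟨V, hV, hVn, hVnil⟩ := exists_fcore_compl hG hM hKU hK1
  have hV1 : V ≠ ⊥ := by
    rintro rfl
    refine hne (le_antisymm (OddLocal.Signalizer.fittingHallOf_le_sigmaCore hG hM) ?_)
    refine (Uniq.sigmaCore_le_derived hG hM).trans fun x hx => ?_
    obtain ⟨a, ha, b, hb, rfl⟩ := hV.2.2.2 x hx
    rwa [mem_bot.mp hb, mul_one]
  have hN := normalizer_le_of_trivial_U hG hM hKU hK1 hU hV hVnil hV1
  have hP := typePWith hG hM hKU hK1 hV hVn hVnil
  by_cases hc : IsMulCommutative V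
  · exact Or.inl ⟨K, V, _, hP, hV1, hprime, hTI, hc, hN⟩
  · exact Or.inr ⟨K, V, _, hP, hV1, hprime, hTI, hc, hN⟩

/-- Type V, given the alternatives for a core that is not a TI-subset. -/
theorem typeV_of (hG : IsMinSimpleOddOrder G) (hM : IsCoatom M)
    (hKU : IsSigmaDecomposition M K U) (hK1 : K ≠ ⊥) (hU : U = ⊥)
    (hF : fittingHallOf M = sigmaCore M)
    (halt : ¬ IsTISubset (fittingHallOf M : Set G) →
      (∃ p : ℕ, p.Prime ∧ p ∣ Nat.card (fittingHallOf M) ∧ Nat.card K ∣ p - 1 ∧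
        IsCyclic (pPrimeCore p (fittingHallOf M))) ∨
      ∃ p : ℕ, p.Prime ∧ p ∣ Nat.card (fittingHallOf M) ∧ Nat.card (pCore p (fittingHallOf M)) = p ^ 3 ∧
        Nat.card K ∣ p + 1 ∧ IsCyclic (pPrimeCore p (fittingHallOf M))) :
    IsOfTypeV M := by
  have hV : IsComplIn (fittingHallOf M) ⊥ ⁅M, M⁆ := by
    rw [hF, OddLocal.Decomposition.derived_eq hG hM hKU hK1, hU, bot_sup_eq]
    exact ⟨le_rfl, bot_le, inf_bot_eq _, fun m hm => ⟨m, hm, 1, one_mem _, (mul_one m).symm⟩⟩
  refine ⟨K, ⊥, _, typePWith hG hM hKU hK1 hV (le_of_le_of_eq le_top (normalizer_eq_top (H := (⊥ : Subgroup G))).symm)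
    ⟨0, Subsingleton.elim _ _⟩, rfl, ?_⟩
  by_cases h : IsTISubset (fittingHallOf M : Set G)
  · exact Or.inl h
  · exact Or.inr (halt h)

end Cfsg.Agent.Lib.OddTypes
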